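import Mathlib
import Cfsg.Agent.Lib.H44.SSGL
import Cfsg.Agent.Lib.H49.Unitary

/-! Semisimple elements of unitary groups: the dual polynomial, existence. -/

set_option autoImplicit false
set_option linter.unusedSectionVars false
set_option linter.style.haveILetI false

namespace H44.SSU

open Polynomial Matrix H49.Unitary Cfsg H46.TyAlg H44.SS

variable {K : Type*} [Field K] [Finite K] {q : ℕ} (hK : Nat.card K = q ^ 2)

section st

/-- the dual polynomial -/
noncomputable def st (f : K[X]) : K[X] := (C (f.coeff 0)⁻¹ * f.reverse).map (frob hK)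

theorem st_coeff (f : K[X]) (i : ℕ) :
    (st hK f).coeff i = frob hK ((f.coeff 0)⁻¹ * f.coeff (revAt f.natDegree i)) := by
  unfold st
  rw [coeff_map, coeff_C_mul, coeff_reverse]

theorem st_mul (f g : K[X]) : st hK (f * g) = st hK f * st hK g := by
  unfold st
  rw [← Polynomial.map_mul, reverse_mul_of_domain, mul_coeff_zero, mul_inv, C_mul]
  congr 1
  ring

theorem st_one : st hK (1 : K[X]) = 1 := by
  unfold st
  simp [Polynomial.reverse]

variable {f : K[X]}

theorem st_natDegree (h0 : f.coeff 0 ≠ 0) : (st hK f).natDegree = f.natDegree := by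
  unfold st
  rw [natDegree_map, natDegree_C_mul (inv_ne_zero h0), reverse_natDegree,
    natTrailingDegree_eq_zero.mpr (Or.inr h0), Nat.sub_zero]

theorem st_coeff_zero (hf : f.Monic) : (st hK f).coeff 0 = frob hK ((f.coeff 0)⁻¹) := by
  rw [st_coeff, revAt_le (Nat.zero_le _), Nat.sub_zero, hf.coeff_natDegree, mul_one]

theorem st_coeff_zero_ne (hf : f.Monic) (h0 : f.coeff 0 ≠ 0) : (st hK f).coeff 0 ≠ 0 := by
  rw [st_coeff_zero hK hf]
  exact (_root_.map_ne_zero _).mpr (inv_ne_zero h0)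

theorem st_monic (h0 : f.coeff 0 ≠ 0) : (st hK f).Monic := by
  rw [Monic, leadingCoeff, st_natDegree hK h0, st_coeff, revAt_le le_rfl, Nat.sub_self,
    inv_mul_cancel₀ h0, map_one]

theorem st_st (hf : f.Monic) (h0 : f.coeff 0 ≠ 0) : st hK (st hK f) = f := by
  ext i
  rw [st_coeff, st_coeff_zero hK hf, st_natDegree hK h0, st_coeff, revAt_invol, ← map_inv₀,
    ← map_mul, frob_frob, inv_inv, ← mul_assoc, mul_inv_cancel₀ h0, one_mul]

theorem coeff_zero_left {f g : K[X]} (h : (f * g).coeff 0 ≠ 0) : f.coeff 0 ≠ 0 := by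
  rw [mul_coeff_zero] at h
  exact left_ne_zero_of_mul h

theorem coeff_zero_right {f g : K[X]} (h : (f * g).coeff 0 ≠ 0) : g.coeff 0 ≠ 0 := by
  rw [mul_coeff_zero] at h
  exact right_ne_zero_of_mul h

theorem isUnit_st {a : K[X]} (h0 : a.coeff 0 ≠ 0) : IsUnit (st hK a) ↔ IsUnit a := by
  have ha : a ≠ 0 := by rintro rfl; exact h0 rfl
  have ha' : st hK a ≠ 0 := (st_monic hK h0).ne_zero
  rw [isUnit_iff_degree_eq_zero, isUnit_iff_degree_eq_zero, degree_eq_natDegree ha,
    degree_eq_natDegree ha', st_natDegree hK h0]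

theorem st_irreducible (hf : f.Monic) (h0 : f.coeff 0 ≠ 0) (hi : Irreducible f) :
    Irreducible (st hK f) := by
  constructor
  · rw [isUnit_st hK h0]; exact hi.not_isUnit
  · intro a b hab
    have h1 := congrArg (st hK) hab
    rw [st_st hK hf h0, st_mul] at h1
    have h2 := st_coeff_zero_ne hK hf h0
    rw [hab] at h2
    rcases hi.isUnit_or_isUnit h1 with h3 | h3
    · left; exact (isUnit_st hK (coeff_zero_left h2)).mp h3
    · right; exact (isUnit_st hK (coeff_zero_right h2)).mp h3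

/-- splitting off a squarefree self-dual factor -/
theorem exists_factor (hf : f.Monic) (h0 : f.coeff 0 ≠ 0) (hdeg : 1 ≤ f.natDegree)
    (hst : st hK f = f) : ∃ r t f₂ : K[X], r.Monic ∧ Irreducible r ∧ t.Monic ∧ IsCoprime r t ∧
      f₂.Monic ∧ Squarefree (r * t) ∧ st hK (r * t) = r * t ∧ st hK f₂ = f₂ ∧
      (r * t).coeff 0 ≠ 0 ∧ f₂.coeff 0 ≠ 0 ∧ f = (r * t) * f₂ := by
  have hu : ¬ IsUnit f := by
    intro h
    rw [hf.isUnit_iff] at h
    rw [h, natDegree_one] at hdeg
    omega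
  obtain ⟨r, hr, hri, hrf⟩ := exists_monic_irreducible_factor f hu
  obtain ⟨t, ht, hc, hsq, hrt, hdvd⟩ : ∃ t : K[X], t.Monic ∧ IsCoprime r t ∧ Squarefree (r * t) ∧
      st hK (r * t) = r * t ∧ r * t ∣ f := by
    have hr0 : r.coeff 0 ≠ 0 := by
      obtain ⟨s, hs⟩ := hrf
      rw [hs] at h0
      exact coeff_zero_left h0
    by_cases h : st hK r = r
    · exact ⟨1, monic_one, isCoprime_one_right, by rw [mul_one]; exact hri.squarefree,
        by rw [mul_one, h], by rw [mul_one]; exact hrf⟩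
    · have h1 := st_irreducible hK hr hr0 hri
      have h2 : IsCoprime r (st hK r) := by
        by_contra hcop
        have h3 : r ∣ st hK r := by
          by_contra h5
          exact hcop ((hri.coprime_iff_not_dvd).mpr h5)
        · apply h
          have h4 := hri.associated_of_dvd h1 h3
          exact (eq_of_monic_of_associated hr (st_monic hK hr0) h4).symm
      have h3 : st hK r ∣ f := by
        obtain ⟨s, hs⟩ := hrf
        refine ⟨st hK s, ?_⟩
        rw [← st_mul, ← hs, hst]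
      refine ⟨st hK r, st_monic hK hr0, h2, ?_, ?_, h2.mul_dvd hrf h3⟩
      · exact squarefree_mul_iff.mpr ⟨h2.isRelPrime, hri.squarefree, h1.squarefree⟩
      · rw [st_mul, st_st hK hr hr0, mul_comm]
  obtain ⟨f₂, hf₂⟩ := hdvd
  have hrtm := hr.mul ht
  have hf2m : f₂.Monic := by
    rw [hf₂] at hf
    exact hrtm.of_mul_monic_left hf
  have h00 := h0
  rw [hf₂] at h00
  refine ⟨r, t, f₂, hr, hri, ht, hc, hf2m, hsq, hrt, ?_, coeff_zero_left h00, coeff_zero_right h00, hf₂⟩
  apply mul_left_cancel₀ hrtm.ne_zero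
  rw [← hf₂]
  conv_rhs => rw [← hst, hf₂, st_mul, hrt]

end st

section charpoly
variable {ι : Type*} [Fintype ι] [DecidableEq ι]

theorem charpoly_ct (A : Matrix ι ι K) : (ct hK A).charpoly = A.charpoly.map (frob hK) := by
  unfold ct
  rw [Matrix.charpoly_transpose, Matrix.charpoly_map]

theorem charpoly_inv' {A B : Matrix ι ι K} (h : A * B = 1) :
    B.charpoly = C (A.charpoly.coeff 0)⁻¹ * A.charpoly.reverse := by
  have hB : B = A⁻¹ := by
    rw [Matrix.inv_eq_right_inv h]
  have hd : A.det ≠ 0 := by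
    intro h0
    have := congrArg Matrix.det h
    rw [det_mul, h0, zero_mul, det_one] at this
    exact zero_ne_one this
  have h1 : ((-1 : K[X]) ^ Fintype.card ι) = C ((-1) ^ Fintype.card ι) := by
    rw [C_pow, C_neg, C_1]
  rw [hB, Matrix.charpoly_inv A ⟨⟨A, B, h, mul_eq_one_comm.mp h⟩, rfl⟩, Ring.inverse_eq_inv',
    ← Matrix.reverse_charpoly, h1, ← C_mul]
  congr 2
  have h2 := Matrix.det_eq_sign_charpoly_coeff A
  have h3 : ((-1 : K) ^ Fintype.card ι) * ((-1) ^ Fintype.card ι) = 1 := by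
    rw [← mul_pow]; norm_num
  have h4 : ((-1 : K) ^ Fintype.card ι)⁻¹ = (-1) ^ Fintype.card ι :=
    inv_eq_of_mul_eq_one_right h3
  rw [h2, mul_inv, h4, ← mul_assoc, h3, one_mul]

/-- the characteristic polynomial of `(ct A)⁻¹` -/
theorem charpoly_star {A A' : Matrix ι ι K} (h : A * A' = 1) :
    (ct hK A').charpoly = st hK A.charpoly := by
  rw [charpoly_ct, charpoly_inv' h]
  rfl

theorem ct_pow' (A : Matrix ι ι K) (N : ℕ) : ct hK (A ^ N) = ct hK A ^ N := by
  induction N with
  | zero => rw [pow_zero, pow_zero, ct_one]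
  | succ N ih => rw [pow_succ, ct_mul, ih, pow_succ']

/-- semisimple matrices with self-dual characteristic polynomial are conjugate into `GU` -/
theorem conj_into_GU {m : ℕ} (A : Matrix.GeneralLinearGroup (Fin m) K) {N : ℕ} (hN : (N : K) ≠ 0)
    (hA : A ^ N = 1) (h : st hK (A : Matrix (Fin m) (Fin m) K).charpoly = (A : Matrix (Fin m) (Fin m) K).charpoly) :
    ∃ y : Matrix.GeneralLinearGroup (Fin m) K, y * A * y⁻¹ ∈ GU m K q := by
  have h1 : (A : Matrix (Fin m) (Fin m) K) * ((A⁻¹ : Matrix.GeneralLinearGroup (Fin m) K) : Matrix (Fin m) (Fin m) K) = 1 :=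
    Units.mul_inv A
  have hA1 : (A : Matrix (Fin m) (Fin m) K) ^ N = 1 := by
    rw [← Units.val_pow_eq_pow_val, hA]; rfl
  have hA2 : ((A⁻¹ : Matrix.GeneralLinearGroup (Fin m) K) : Matrix (Fin m) (Fin m) K) ^ N = 1 := by
    rw [← Units.val_pow_eq_pow_val, inv_pow, hA, inv_one]; rfl
  have hB : ct hK ((A⁻¹ : Matrix.GeneralLinearGroup (Fin m) K) : Matrix (Fin m) (Fin m) K) ^ N = 1 := by
    rw [← ct_pow', hA2, ct_one]
  obtain ⟨y, hy⟩ := isConj_of_charpoly hN hA1 hB (by rw [charpoly_star hK h1, h])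
  have hy' : (y : Matrix (Fin m) (Fin m) K) * A =
    ct hK ((A⁻¹ : Matrix.GeneralLinearGroup (Fin m) K) : Matrix (Fin m) (Fin m) K) * y := hy
  refine exists_conj_mem_GU hK A (y : Matrix (Fin m) (Fin m) K) y.isUnit ?_
  rw [mul_assoc, hy', ← mul_assoc, ← ct_mul]
  have h2 : ((A⁻¹ : Matrix.GeneralLinearGroup (Fin m) K) : Matrix (Fin m) (Fin m) K) * A = 1 :=
    Units.inv_mul A
  rw [h2, ct_one, one_mul]

end charpoly

end H44.SSU
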