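import Mathlib
import Cfsg.Agent.Lib.H44.SSU

/-! Semisimple elements of unitary groups: the determinant on the centralizer. -/

set_option autoImplicit false
set_option linter.unusedSectionVars false
set_option linter.style.haveILetI false

namespace H44.SSU

open Polynomial Matrix H49.Unitary Cfsg H46.TyAlg H44.SS

variable {K : Type*} [Field K] [Finite K] {q : ℕ} (hK : Nat.card K = q ^ 2)

/-- existence of semisimple unitary matrices with given self-dual characteristic polynomial -/
theorem exists_gu (p : ℕ) [Fact p.Prime] [CharP K p] {f : K[X]} (hf : f.Monic) (h0 : f.coeff 0 ≠ 0)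
    (hst : st hK f = f) {m : ℕ} (hm : f.natDegree = m) :
    ∃ g : Matrix.GeneralLinearGroup (Fin m) K, g ∈ GU m K q ∧
      (g : Matrix (Fin m) (Fin m) K).charpoly = f ∧ (orderOf g).Coprime p := by
  obtain ⟨A, hA, hAd⟩ := H46.TyGL.exists_companion hf hm
  have h2 : IsUnit A.det := by
    rw [hAd, isUnit_iff_ne_zero]
    unfold sc
    exact mul_ne_zero (pow_ne_zero _ (by norm_num)) h0
  obtain ⟨s, hs1, hs2, _⟩ := exists_pprime (F := K) p
    (fun g : Matrix.GeneralLinearGroup (Fin m) K => (g : Matrix (Fin m) (Fin m) K))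
    (fun g k => Units.val_pow_eq_pow_val g k) (Matrix.nonsingInvUnit A h2)
  have hs3 : (s : Matrix (Fin m) (Fin m) K).charpoly = f := by
    rw [hs2]; exact hA
  obtain ⟨y, hy⟩ := conj_into_GU hK s (cast_ne (p := p) hs1) (pow_orderOf_eq_one s)
    (by rw [hs3, hst])
  refine ⟨y * s * y⁻¹, hy, ?_, ?_⟩
  · rw [← hs3]
    exact (charpoly_gl_conj (isConj_iff.mpr ⟨y, rfl⟩)).symm
  · have h3 : y * s * y⁻¹ = MulAut.conj y s := rfl
    rw [h3, MulEquiv.orderOf_eq]
    exact hs1

/-- in the reduced quotient the root has order prime to `p` -/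
theorem root_pow (p : ℕ) [Fact p.Prime] [CharP K p] {f : K[X]} (hf : f.Monic) (h0 : f.coeff 0 ≠ 0)
    (hsq : Squarefree f) : ∃ N : ℕ, (N : K) ≠ 0 ∧ AdjoinRoot.root f ^ N = 1 := by
  by_cases hdeg : f = 1
  · refine ⟨1, by norm_num, ?_⟩
    have hsub : Subsingleton (AdjoinRoot f) := by
      rw [hdeg]
      refine ⟨fun a b => ?_⟩
      obtain ⟨a, rfl⟩ := AdjoinRoot.mk_surjective a
      obtain ⟨b, rfl⟩ := AdjoinRoot.mk_surjective b
      rw [AdjoinRoot.mk_eq_mk]
      exact one_dvd _
    exact Subsingleton.elim _ _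
  haveI hnt : Nontrivial (AdjoinRoot f) := AdjoinRoot.nontrivial f (by
    rw [Ne, degree_eq_natDegree hf.ne_zero]
    intro h
    apply hdeg
    exact hf.natDegree_eq_zero.mp (by exact_mod_cast h))
  haveI : FiniteDimensional K (AdjoinRoot f) := (AdjoinRoot.powerBasis hf.ne_zero).finite
  haveI : Finite (AdjoinRoot f) := Module.finite_of_finite K
  haveI : CharP (AdjoinRoot f) p := charP_of_injective_algebraMap (algebraMap K (AdjoinRoot f)).injective p
  haveI : IsReduced (AdjoinRoot f) := by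
    have h1 := (isRadical_iff_squarefree_of_ne_zero hf.ne_zero).mpr hsq
    exact (Ideal.isRadical_iff_quotient_reduced _).mp (isRadical_iff_span_singleton.mp h1)
  have hinj : Function.Injective (frobenius (AdjoinRoot f) p) := frobenius_inj (AdjoinRoot f) p
  obtain ⟨j, hj, hj2⟩ := hinj.mem_periodicPts (AdjoinRoot.root f)
  have hj3 : AdjoinRoot.root f ^ p ^ j = AdjoinRoot.root f := by
    have : (⇑(frobenius (AdjoinRoot f) p))^[j] (AdjoinRoot.root f) = AdjoinRoot.root f := hj2
    rwa [← coe_iterateFrobenius, iterateFrobenius_def] at this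
  have hp : p.Prime := Fact.out
  have hpj : 0 < p ^ j := pow_pos hp.pos j
  refine ⟨p ^ j - 1, ?_, ?_⟩
  · rw [Nat.cast_sub hpj, Nat.cast_pow, CharP.cast_eq_zero, zero_pow (by omega), Nat.cast_one, zero_sub]
    exact neg_ne_zero.mpr one_ne_zero
  · have hu : IsUnit (AdjoinRoot.root f) := by
      have h1 : X * f.divX + C (f.coeff 0) = f := f.X_mul_divX_add
      have h2 : AdjoinRoot.root f * AdjoinRoot.mk f f.divX = - AdjoinRoot.of f (f.coeff 0) := by
        rw [← AdjoinRoot.mk_X, ← map_mul, ← AdjoinRoot.mk_C, ← map_neg, AdjoinRoot.mk_eq_mk]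
        exact ⟨1, by rw [mul_one]; linear_combination h1⟩
      have h3 : AdjoinRoot.root f * (AdjoinRoot.mk f f.divX * (- AdjoinRoot.of f (f.coeff 0)⁻¹)) = 1 := by
        rw [← mul_assoc, h2, neg_mul_neg, ← map_mul, mul_inv_cancel₀ h0, map_one]
      exact IsUnit.of_mul_eq_one _ h3
    apply hu.mul_left_cancel
    rw [← pow_succ', Nat.sub_add_cancel hpj, hj3, mul_one]

/-- companion matrices and norms -/
theorem exists_companion_norm {f : K[X]} (hf : f.Monic) {m : ℕ} (hm : f.natDegree = m) :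
    ∃ A : Matrix (Fin m) (Fin m) K, A.charpoly = f ∧ (∀ u : K[X], (aeval A u).det = dm f u) ∧
      ∀ N : ℕ, AdjoinRoot.root f ^ N = 1 → A ^ N = 1 := by
  obtain ⟨pb, hdim, hgen, hmin⟩ : ∃ pb : PowerBasis K (AdjoinRoot f), pb.dim = m ∧
      pb.gen = AdjoinRoot.root f ∧ minpoly K pb.gen = f := by
    refine ⟨AdjoinRoot.powerBasis' hf, hm, rfl, ?_⟩
    have h3 := AdjoinRoot.minpoly_root hf.ne_zero
    rwa [hf.leadingCoeff, inv_one, C_1, mul_one] at h3
  have h1 := charpoly_leftMulMatrix pb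
  rw [hmin] at h1
  let R := Matrix.reindexAlgEquiv K K (finCongr hdim)
  have hR : ∀ M, R M = Matrix.reindex (finCongr hdim) (finCongr hdim) M := fun M => rfl
  let L := Algebra.leftMulMatrix pb.basis
  refine ⟨R (L pb.gen), ?_, ?_, ?_⟩
  · rw [hR, Matrix.charpoly_reindex, h1]
  · intro u
    have h2 : aeval (R (L pb.gen)) u = R (L (aeval pb.gen u)) := by
      rw [← Polynomial.aeval_algHom_apply L]
      exact Polynomial.aeval_algHom_apply R.toAlgHom (L pb.gen) u
    rw [h2, hR, Matrix.det_reindex_self, dm_eq_norm, Algebra.norm_eq_matrix_det pb.basis]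
    congr 2
    rw [hgen, AdjoinRoot.aeval_eq]
  · intro N hN
    rw [← map_pow, ← map_pow, hgen, hN, map_one, map_one]

theorem dm_congr {f u v : K[X]} (h : f ∣ u - v) : dm f u = dm f v := by
  rw [dm_eq_norm, dm_eq_norm]
  congr 1
  exact AdjoinRoot.mk_eq_mk.mpr h

/-- norms from `K[X]/(r t)` -/
theorem exists_dm_coprime {r t : K[X]} (hr : r.Monic) (hri : Irreducible r) (ht : t.Monic)
    (hc : IsCoprime r t) (d : K) : ∃ u : K[X], dm (r * t) u = d := by
  obtain ⟨k, hk⟩ := exists_dm hr hri d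
  obtain ⟨a, b, hab⟩ := hc
  refine ⟨k * (b * t) + a * r, ?_⟩
  rw [dm_mul hr ht, dm_congr (v := k), hk, dm_congr (v := 1), dm_unit_one, mul_one]
  · refine ⟨(k - 1) * b, ?_⟩
    linear_combination hab
  · refine ⟨(1 - k) * a, ?_⟩
    linear_combination k * hab

end H44.SSU
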