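import Mathlib
import Cfsg.Agent.Lib.H44.SSU2

/-! Commuting pairs of a `p`-element and an `r`-element. -/

set_option autoImplicit false
set_option linter.unusedSectionVars false
set_option linter.style.haveILetI false

namespace H44.CP

section group
variable {G : Type*} [Group G] [Finite G]

/-- splitting off the prime part -/
theorem exists_prime_part (p : ℕ) (hp : p.Prime) (x : G) :
    ∃ u i : ℕ, ¬ p ∣ u ∧ (x ^ u) ^ p ^ i = 1 := by
  obtain ⟨i, u, hu, h⟩ := Nat.exists_eq_pow_mul_and_not_dvd (orderOf_pos x).ne' p hp.ne_one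
  exact ⟨u, i, hu, by rw [← pow_mul, mul_comm, ← h, pow_orderOf_eq_one]⟩

/-- lifting a commuting pair from the quotient by the centre -/
theorem lift (p r : ℕ) (hp : p.Prime) (hr : r.Prime)
    (hz : ∀ z ∈ Subgroup.center G, ∀ i : ℕ, z ^ p ^ i = 1 → z = 1)
    (a b : G ⧸ Subgroup.center G) (ha : orderOf a = p) (hb : r ∣ orderOf b) (hab : Commute a b) :
    ∃ A B : G, ∃ i j : ℕ, A ≠ 1 ∧ B ≠ 1 ∧ A * B = B * A ∧ A ^ p ^ i = 1 ∧ B ^ r ^ j = 1 := by
  obtain ⟨A₀, rfl⟩ := QuotientGroup.mk_surjective a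
  obtain ⟨B₀, rfl⟩ := QuotientGroup.mk_surjective b
  obtain ⟨u, i, hu, hi⟩ := exists_prime_part p hp A₀
  obtain ⟨w, j, hw, hj⟩ := exists_prime_part r hr B₀
  have hA1 : ((A₀ ^ u : G) : G ⧸ Subgroup.center G) ≠ 1 := by
    intro h
    rw [QuotientGroup.mk_pow] at h
    have := orderOf_dvd_of_pow_eq_one h
    rw [ha] at this
    exact hu this
  have hB1 : ((B₀ ^ w : G) : G ⧸ Subgroup.center G) ≠ 1 := by
    intro h
    rw [QuotientGroup.mk_pow] at h
    have := orderOf_dvd_of_pow_eq_one h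
    exact hw (hb.trans this)
  set A := A₀ ^ u with hA
  set B := B₀ ^ w with hB
  have hcomm : ((A * B : G) : G ⧸ Subgroup.center G) = ((B * A : G) : G ⧸ Subgroup.center G) := by
    rw [hA, hB, QuotientGroup.mk_mul, QuotientGroup.mk_mul, QuotientGroup.mk_pow, QuotientGroup.mk_pow]
    exact (hab.pow_pow u w)
  rw [QuotientGroup.eq] at hcomm
  -- `z = (A B)⁻¹ (B A)` is central
  set z := (A * B)⁻¹ * (B * A) with hzdef
  have hAB : B⁻¹ * A * B = z⁻¹ * A := by
    have h1 : A * B = B * A * z⁻¹ := by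
      rw [hzdef, mul_inv_rev, inv_inv, mul_inv_cancel_left]
    rw [mul_assoc, h1, ← mul_assoc, ← mul_assoc, inv_mul_cancel, one_mul]
    exact (Subgroup.mem_center_iff.mp ((Subgroup.center G).inv_mem hcomm) A)
  have hz1 : z⁻¹ = 1 := by
    apply hz _ ((Subgroup.center G).inv_mem hcomm) i
    have h1 : (B⁻¹ * A * B) ^ p ^ i = 1 := by
      have : B⁻¹ * A * B = B⁻¹ * A * B⁻¹⁻¹ := by rw [inv_inv]
      rw [this, conj_pow, hi, mul_one, inv_inv, inv_mul_cancel]
    rw [hAB] at h1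
    have h2 : Commute z⁻¹ A := (Subgroup.mem_center_iff.mp ((Subgroup.center G).inv_mem hcomm) A).symm
    rw [h2.mul_pow, hi, mul_one] at h1
    exact h1
  refine ⟨A, B, i, j, ?_, ?_, ?_, hi, hj⟩
  · rintro h; exact hA1 (by rw [h]; rfl)
  · rintro h; exact hB1 (by rw [h]; rfl)
  · rw [hz1, one_mul] at hAB
    calc A * B = B * (B⁻¹ * A * B) := by group
      _ = B * A := by rw [hAB]

end group

section multiset
variable {E : Type*} [Field E] [DecidableEq E]

theorem sum_count_le (M : Multiset E) (S : Finset E) : ∑ x ∈ S, M.count x ≤ M.card := by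
  classical
  calc ∑ x ∈ S, M.count x ≤ ∑ x ∈ S ∪ M.toFinset, M.count x :=
        Finset.sum_le_sum_of_subset Finset.subset_union_left
    _ = M.card := Multiset.sum_count_eq_card (fun a ha => by
        rw [Finset.mem_union]; right; exact Multiset.mem_toFinset.mpr ha)

/-- the orbits of the power map on `r`-power roots of unity -/
theorem orbit_inj {r k : ℕ} (hr : r.Prime) {Q : ℤ} (hQ : ¬ (r : ℤ) ∣ Q) {x : E} (hx : x ^ r ^ k = 1)
    (hx1 : x ≠ 1) {i j : ℕ} (hi : i < orderOf (Q : ZMod r)) (hj : j < orderOf (Q : ZMod r))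
    (h : x ^ (Q ^ i) = x ^ (Q ^ j)) : i = j := by
  wlog hij : i ≤ j generalizing i j
  · exact (this hj hi h.symm (by omega)).symm
  by_contra hne
  have hlt : i < j := lt_of_le_of_ne hij hne
  have hx0 : x ≠ 0 := by
    rintro rfl
    rw [zero_pow (pow_ne_zero _ hr.ne_zero)] at hx
    exact zero_ne_one hx
  obtain ⟨l, hl, hl2⟩ := (Nat.dvd_prime_pow hr).mp (orderOf_dvd_of_pow_eq_one hx)
  have hl0 : l ≠ 0 := by
    rintro rfl
    rw [pow_zero, orderOf_eq_one_iff] at hl2
    exact hx1 hl2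
  let u : Eˣ := Units.mk0 x hx0
  have hu : orderOf u = r ^ l := by
    rw [← hl2, ← orderOf_units]; rfl
  have h1 : u ^ (Q ^ j - Q ^ i) = 1 := by
    rw [zpow_sub, mul_inv_eq_one]
    apply Units.ext
    rw [Units.val_zpow_eq_zpow_val, Units.val_zpow_eq_zpow_val]
    exact h.symm
  have h2 : ((r ^ l : ℕ) : ℤ) ∣ Q ^ j - Q ^ i := by
    rw [← hu]; exact orderOf_dvd_iff_zpow_eq_one.mpr h1
  have h3 : (r : ℤ) ∣ Q ^ i * (Q ^ (j - i) - 1) := by
    have h4 : Q ^ i * (Q ^ (j - i) - 1) = Q ^ j - Q ^ i := by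
      rw [mul_sub, mul_one, ← pow_add, Nat.add_sub_cancel' hij]
    rw [h4]
    refine dvd_trans ?_ h2
    push_cast
    exact dvd_pow_self _ hl0
  have hrp : Prime (r : ℤ) := Nat.prime_iff_prime_int.mp hr
  rcases hrp.dvd_or_dvd h3 with h4 | h4
  · exact hQ (hrp.dvd_of_dvd_pow h4)
  · have h5 : (Q : ZMod r) ^ (j - i) = 1 := by
      have h6 := (ZMod.intCast_zmod_eq_zero_iff_dvd (Q ^ (j - i) - 1) r).mpr h4
      push_cast at h6
      exact sub_eq_zero.mp h6
    have h6 := orderOf_le_of_pow_eq_one (by omega) h5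
    omega

theorem pow_ne_one {r k : ℕ} (hr : r.Prime) {Q : ℤ} (hQ : ¬ (r : ℤ) ∣ Q) {x : E} (hx : x ^ r ^ k = 1)
    (hx1 : x ≠ 1) (i : ℕ) : x ^ (Q ^ i) ≠ 1 := by
  intro h
  have hx0 : x ≠ 0 := by
    rintro rfl
    rw [zero_pow (pow_ne_zero _ hr.ne_zero)] at hx
    exact zero_ne_one hx
  obtain ⟨l, hl, hl2⟩ := (Nat.dvd_prime_pow hr).mp (orderOf_dvd_of_pow_eq_one hx)
  have hl0 : l ≠ 0 := by
    rintro rfl
    rw [pow_zero, orderOf_eq_one_iff] at hl2
    exact hx1 hl2
  let u : Eˣ := Units.mk0 x hx0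
  have hu : orderOf u = r ^ l := by
    rw [← hl2, ← orderOf_units]; rfl
  have h1 : u ^ (Q ^ i) = 1 := by
    apply Units.ext
    rw [Units.val_zpow_eq_zpow_val]
    exact h
  have h2 : ((r ^ l : ℕ) : ℤ) ∣ Q ^ i := by
    rw [← hu]; exact orderOf_dvd_iff_zpow_eq_one.mpr h1
  have hrp : Prime (r : ℤ) := Nat.prime_iff_prime_int.mp hr
  apply hQ
  apply hrp.dvd_of_dvd_pow (n := i)
  refine dvd_trans ?_ h2
  push_cast
  exact dvd_pow_self _ hl0

/-- a multiset of `r`-power roots of unity, stable under `x ↦ x^Q`, is multiplicity free when the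
order of `Q` modulo `r` is large -/
theorem nodup_of_large {r k : ℕ} (hr : r.Prime) {Q : ℤ} (hQ : ¬ (r : ℤ) ∣ Q) (M : Multiset E)
    (hM : ∀ x ∈ M, x ^ r ^ k = 1) (hinv : M.map (fun x => x ^ Q) = M)
    (hcard : M.card ≤ orderOf (Q : ZMod r) + 1) (h4 : 4 ≤ M.card) (hne : ∃ x ∈ M, x ≠ 1) :
    M.Nodup := by
  classical
  have hcount : ∀ x, M.count x ≤ M.count (x ^ Q) := by
    intro x
    conv_rhs => rw [← hinv]
    rw [Multiset.count_map, Multiset.count, Multiset.countP_eq_card_filter]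
    apply Multiset.card_le_card
    apply Multiset.monotone_filter_right
    rintro b rfl
    rfl
  have hcount2 : ∀ x i, M.count x ≤ M.count (x ^ (Q ^ i)) := by
    intro x i
    induction i with
    | zero => rw [pow_zero, zpow_one]
    | succ i ih =>
      refine ih.trans ?_
      rw [pow_succ, zpow_mul]
      exact hcount _
  have hsum : ∀ x, x ∈ M → x ≠ 1 → ∀ c, c ≤ M.count x →
      orderOf (Q : ZMod r) * c ≤ ∑ y ∈ (Finset.range (orderOf (Q : ZMod r))).image (fun i => x ^ (Q ^ i)), M.count y := by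
    intro x hx hx1 c hc
    rw [Finset.sum_image]
    · calc orderOf (Q : ZMod r) * c = ∑ i ∈ Finset.range (orderOf (Q : ZMod r)), c := by
            rw [Finset.sum_const, Finset.card_range, smul_eq_mul]
        _ ≤ _ := Finset.sum_le_sum fun i _ => hc.trans (hcount2 x i)
    · intro i hi j hj h
      rw [Finset.mem_coe, Finset.mem_range] at hi hj
      exact orbit_inj hr hQ (hM x hx) hx1 hi hj h
  rw [Multiset.nodup_iff_count_le_one]
  intro μ
  by_contra hμ
  push Not at hμ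
  have hμM : μ ∈ M := Multiset.count_pos.mp (by omega)
  by_cases h1 : μ = 1
  · subst h1
    obtain ⟨x, hx, hx1⟩ := hne
    have h2 := hsum x hx hx1 1 (Multiset.count_pos.mpr hx)
    have h3 : (1 : E) ∉ (Finset.range (orderOf (Q : ZMod r))).image (fun i => x ^ (Q ^ i)) := by
      rw [Finset.mem_image]
      rintro ⟨i, _, hi⟩
      exact pow_ne_one hr hQ (hM x hx) hx1 i hi
    have h5 := sum_count_le M (insert 1 ((Finset.range (orderOf (Q : ZMod r))).image (fun i => x ^ (Q ^ i))))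
    rw [Finset.sum_insert h3] at h5
    omega
  · have h2 := hsum μ hμM h1 2 hμ
    have h5 := sum_count_le M ((Finset.range (orderOf (Q : ZMod r))).image (fun i => μ ^ (Q ^ i)))
    omega

end multiset

end H44.CP
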