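import Mathlib
import Cfsg.Agent.Lib.H44.SSGL
import Cfsg.Agent.Lib.H49.EmbedSymp
import Cfsg.Agent.S2589
import Cfsg.Agent.S0269
import Cfsg.Agent.S0244

/-! Semisimple classes of `Sp_2n`. -/

set_option autoImplicit false
set_option linter.unusedSectionVars false

namespace H44.SS

open Polynomial Matrix

section det
variable {F : Type*} [Field F] [Finite F]

theorem sp_det_eq_one {m : ℕ} (g : Matrix.symplecticGroup (Fin m) F) :
    (g : Matrix (Fin m ⊕ Fin m) (Fin m ⊕ Fin m) F).det = 1 := by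
  haveI := Fintype.ofFinite F
  let δ : Matrix.symplecticGroup (Fin m) F →* F :=
    (Matrix.detMonoidHom).comp (Matrix.symplecticGroup (Fin m) F).subtype
  have hδ : ∀ x : Matrix.symplecticGroup (Fin m) F, δ x = (x : Matrix (Fin m ⊕ Fin m) (Fin m ⊕ Fin m) F).det := fun x => rfl
  by_cases hch : (2 : F) = 0
  · have h1 := g.2
    rw [SymplecticGroup.mem_iff] at h1
    have h2 := congrArg Matrix.det h1
    rw [det_mul, det_mul, det_transpose] at h2
    have hJ : (Matrix.J (Fin m) F).det ≠ 0 := (Matrix.isUnit_det_J (Fin m) F).ne_zero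
    have h3 : (g : Matrix (Fin m ⊕ Fin m) (Fin m ⊕ Fin m) F).det ^ 2 = 1 := by
      apply mul_right_cancel₀ hJ
      linear_combination h2
    have h4 : ((g : Matrix (Fin m ⊕ Fin m) (Fin m ⊕ Fin m) F).det - 1) ^ 2 = 0 := by
      linear_combination h3 - hch * ((g : Matrix (Fin m ⊕ Fin m) (Fin m ⊕ Fin m) F).det - 1)
    exact sub_eq_zero.mp (pow_eq_zero_iff (two_ne_zero)|>.mp h4)
  · by_cases h : 3 ≤ m ∨ (m = 2 ∧ 3 ≤ Fintype.card F) ∨ 4 ≤ Fintype.card F
    · have hperf := Cfsg.Agent.S0269.result m h (F := F)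
      let δ' : Matrix.symplecticGroup (Fin m) F →* Fˣ := δ.toHomUnits
      have hle : commutator (Matrix.symplecticGroup (Fin m) F) ≤ δ'.ker := Abelianization.commutator_subset_ker δ'
      rw [hperf] at hle
      have h5 : δ' g = 1 := hle (Subgroup.mem_top g)
      have h6 := congrArg Units.val h5
      exact h6
    · have hc3 : 3 ≤ Fintype.card F := by
        by_contra hc
        have h1 : 1 < Fintype.card F := Fintype.one_lt_card
        have h2 : Fintype.card F = 2 := by omega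
        apply hch
        have h3 : ((Fintype.card F : ℕ) : F) = 0 := FiniteField.cast_card_eq_zero F
        rw [h2] at h3
        exact_mod_cast h3
      have hm : m = 0 ∨ m = 1 := by omega
      rcases hm with rfl | rfl
      · exact Matrix.det_isEmpty
      · exact (Cfsg.Agent.S0244.result _).mp g.2

/-- **S2389**. -/
theorem sp_conj (p : ℕ) [Fact p.Prime] [CharP F p] {n : ℕ}
    (g h : Matrix.symplecticGroup (Fin n) F) (hg : (orderOf g).Coprime p)
    (hh : (orderOf h).Coprime p)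
    (hc : (g : Matrix (Fin n ⊕ Fin n) (Fin n ⊕ Fin n) F).charpoly =
      (h : Matrix (Fin n ⊕ Fin n) (Fin n ⊕ Fin n) F).charpoly) : IsConj g h := by
  haveI := Fintype.ofFinite F
  have hg1 : (g : Matrix (Fin n ⊕ Fin n) (Fin n ⊕ Fin n) F) ^ orderOf g = 1 := by
    rw [← SubmonoidClass.coe_pow, pow_orderOf_eq_one]; rfl
  have hh1 : (h : Matrix (Fin n ⊕ Fin n) (Fin n ⊕ Fin n) F) ^ orderOf h = 1 := by
    rw [← SubmonoidClass.coe_pow, pow_orderOf_eq_one]; rfl
  obtain ⟨hN, hg2, hh2⟩ := common (F := F) hg hh hg1 hh1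
  exact (Cfsg.Agent.S2589.result g h hg).mpr (isConj_of_charpoly hN hg2 hh2 hc)

theorem coe_inv_sp {n : ℕ} (g : Matrix.symplecticGroup (Fin n) F) :
    ((g⁻¹ : Matrix.symplecticGroup (Fin n) F) : Matrix (Fin n ⊕ Fin n) (Fin n ⊕ Fin n) F) *
      (g : Matrix (Fin n ⊕ Fin n) (Fin n ⊕ Fin n) F) = 1 := by
  have := congrArg Subtype.val (inv_mul_cancel g)
  exact this

theorem sp_charpoly_conj {n : ℕ} {g h : Matrix.symplecticGroup (Fin n) F} (hc : IsConj g h) :
    (g : Matrix (Fin n ⊕ Fin n) (Fin n ⊕ Fin n) F).charpoly =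
      (h : Matrix (Fin n ⊕ Fin n) (Fin n ⊕ Fin n) F).charpoly := by
  obtain ⟨y, rfl⟩ := isConj_iff.mp hc
  have h0 := coe_inv_sp y
  have h1 := Matrix.charpoly_units_conj (⟨y, _, mul_eq_one_comm.mp h0, h0⟩ : (Matrix _ _ F)ˣ)
    (g : Matrix (Fin n ⊕ Fin n) (Fin n ⊕ Fin n) F)
  rw [← Matrix.coe_units_inv] at h1
  rw [← h1]
  rfl

/-- coefficients of the characteristic polynomial of the inverse -/
theorem charpoly_inv_coeff {ι : Type*} [Fintype ι] [DecidableEq ι] {A B : Matrix ι ι F}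
    (h : A * B = 1) (hd : A.det = 1) {i : ℕ} (hi : i ≤ Fintype.card ι) :
    B.charpoly.coeff i = (-1) ^ Fintype.card ι * A.charpoly.coeff (Fintype.card ι - i) := by
  have hB : B = A⁻¹ := by
    rw [Matrix.inv_eq_right_inv h]
  rw [hB, Matrix.charpoly_inv A ⟨⟨A, B, h, mul_eq_one_comm.mp h⟩, rfl⟩, hd, Ring.inverse_one, C_1,
    mul_one, ← Matrix.reverse_charpoly]
  have h1 : ((-1 : F[X]) ^ Fintype.card ι) = C ((-1) ^ Fintype.card ι) := by
    rw [C_pow, C_neg, C_1]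
  rw [h1, coeff_C_mul, coeff_reverse, Matrix.charpoly_natDegree_eq_dim, revAt_le hi]

theorem sp_charpoly_mem {n : ℕ} (g : Matrix.symplecticGroup (Fin n) F) :
    (g : Matrix (Fin n ⊕ Fin n) (Fin n ⊕ Fin n) F).charpoly.Monic ∧
      (g : Matrix (Fin n ⊕ Fin n) (Fin n ⊕ Fin n) F).charpoly.natDegree = 2 * n ∧
      (g : Matrix (Fin n ⊕ Fin n) (Fin n ⊕ Fin n) F).charpoly.coeff 0 = 1 ∧
      ∀ i ≤ 2 * n, (g : Matrix (Fin n ⊕ Fin n) (Fin n ⊕ Fin n) F).charpoly.coeff (2 * n - i) =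
        (g : Matrix (Fin n ⊕ Fin n) (Fin n ⊕ Fin n) F).charpoly.coeff i := by
  have hcard : Fintype.card (Fin n ⊕ Fin n) = 2 * n := by
    rw [Fintype.card_sum, Fintype.card_fin]; ring
  have hsym : ∀ i ≤ 2 * n, (g : Matrix (Fin n ⊕ Fin n) (Fin n ⊕ Fin n) F).charpoly.coeff (2 * n - i) =
      (g : Matrix (Fin n ⊕ Fin n) (Fin n ⊕ Fin n) F).charpoly.coeff i := by
    intro i hi
    have h1 := charpoly_inv_coeff (mul_eq_one_comm.mp (coe_inv_sp g)) (sp_det_eq_one g) (i := i)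
      (by rw [hcard]; exact hi)
    rw [hcard, pow_mul, neg_one_sq, one_pow, one_mul] at h1
    rw [← h1]
    -- `g⁻¹` is similar to the transpose of `g`
    have hinv : ((g⁻¹ : Matrix.symplecticGroup (Fin n) F) : Matrix (Fin n ⊕ Fin n) (Fin n ⊕ Fin n) F) =
        -((Matrix.J (Fin n) F) * (g : Matrix (Fin n ⊕ Fin n) (Fin n ⊕ Fin n) F)ᵀ * (Matrix.J (Fin n) F)) := by
      rw [SymplecticGroup.coe_inv]
      noncomm_ring
    have hJJ : (Matrix.J (Fin n) F) * (-(Matrix.J (Fin n) F)) = 1 := by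
      rw [mul_neg, Matrix.J_squared, neg_neg]
    have hJJ' : (-(Matrix.J (Fin n) F)) * (Matrix.J (Fin n) F) = 1 := mul_eq_one_comm.mp hJJ
    have h2 := Matrix.charpoly_units_conj (⟨_, _, hJJ, hJJ'⟩ : (Matrix _ _ F)ˣ)
      ((g : Matrix (Fin n ⊕ Fin n) (Fin n ⊕ Fin n) F)ᵀ)
    rw [← Matrix.coe_units_inv, Matrix.charpoly_transpose] at h2
    rw [← h2]
    congr 2
    rw [hinv]
    change _ = (Matrix.J (Fin n) F) * (g : Matrix (Fin n ⊕ Fin n) (Fin n ⊕ Fin n) F)ᵀ * (-(Matrix.J (Fin n) F))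
    rw [mul_neg]
  refine ⟨Matrix.charpoly_monic _, ?_, ?_, hsym⟩
  · rw [Matrix.charpoly_natDegree_eq_dim, hcard]
  · have h := Matrix.det_eq_sign_charpoly_coeff (g : Matrix (Fin n ⊕ Fin n) (Fin n ⊕ Fin n) F)
    rw [sp_det_eq_one, hcard, pow_mul, neg_one_sq, one_pow, one_mul] at h
    exact h.symm

end det

end H44.SS
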