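import Mathlib
import Cfsg.Agent.Lib.H44.CommPair
import Cfsg.Agent.Lib.H44.SSSp

/-! A unipotent matrix commuting with an `r`-element whose eigenvalues are distinct is trivial. -/

set_option autoImplicit false
set_option linter.unusedSectionVars false
set_option linter.style.haveILetI false

namespace H44.CP

open Polynomial Matrix H44.SS

variable {F : Type*} [Field F] [Finite F] {ι : Type*} [Fintype ι] [DecidableEq ι]

/-- the separable case -/
theorem unip_trivial (p : ℕ) [Fact p.Prime] [CharP F p] {A B : Matrix ι ι F} (hAB : A * B = B * A)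
    {i : ℕ} (hA : A ^ p ^ i = 1) (hB : IsUnit B) (hsq : Squarefree B.charpoly) : A = 1 := by
  haveI := Fintype.ofFinite F
  have hp : p.Prime := Fact.out
  set f := B.charpoly with hf
  have hfm : f.Monic := Matrix.charpoly_monic B
  have h0 : f.coeff 0 ≠ 0 := by
    intro h0
    have h := Matrix.det_eq_sign_charpoly_coeff B
    rw [← hf, h0, mul_zero] at h
    have := (Matrix.isUnit_iff_isUnit_det B).mp hB
    rw [h] at this
    exact not_isUnit_zero this
  obtain ⟨N, hN, hroot⟩ := H44.SSU.root_pow p hfm h0 hsq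
  have hdvd : f ∣ X ^ N - 1 := by
    rw [← AdjoinRoot.mk_eq_mk, map_pow, AdjoinRoot.mk_X, hroot, map_one]
  have hkill : ∀ C : Matrix ι ι F, C.charpoly = f → C ^ N = 1 := by
    intro C hC
    have h1 : aeval C f = 0 := by rw [← hC]; exact Matrix.aeval_self_charpoly C
    obtain ⟨g, hg⟩ := hdvd
    have h2 := congrArg (aeval C) hg
    rw [map_mul, h1, zero_mul, map_sub, map_pow, aeval_X, map_one] at h2
    exact sub_eq_zero.mp h2
  -- the characteristic polynomial of `A * B`
  obtain ⟨⟨a, ha⟩, _, hcard⟩ := FiniteField.card F p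
  simp only [PNat.mk_coe] at hcard
  have hpow : ∀ (C : Matrix ι ι F) (j : ℕ), (C ^ (Fintype.card F ^ j)).charpoly = C.charpoly := by
    intro C j
    induction j with
    | zero => rw [pow_zero, pow_one]
    | succ j ih => rw [pow_succ, pow_mul, FiniteField.Matrix.charpoly_pow_card, ih]
  have hAq : A ^ (Fintype.card F ^ i) = 1 := by
    rw [hcard, ← pow_mul]
    have : a * i = i + (a - 1) * i := by
      obtain ⟨b, rfl⟩ : ∃ b, a = b + 1 := ⟨a - 1, by omega⟩
      simp; ring
    rw [this, pow_add, pow_mul, hA, one_pow]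
  have hchar : (A * B).charpoly = f := by
    rw [← hpow (A * B) i, (show Commute A B from hAB).mul_pow, hAq, one_mul, hpow]
  have h1 := hkill (A * B) hchar
  have h2 := hkill B rfl
  rw [(show Commute A B from hAB).mul_pow, h2, mul_one] at h1
  have h3 : Nat.Coprime N (p ^ i) := by
    apply Nat.Coprime.pow_right
    rw [Nat.coprime_comm, hp.coprime_iff_not_dvd]
    intro h
    exact hN ((CharP.cast_eq_zero_iff F p N).mpr h)
  have h4 := Nat.dvd_gcd (orderOf_dvd_of_pow_eq_one h1) (orderOf_dvd_of_pow_eq_one hA)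
  rw [h3.gcd_eq_one, Nat.dvd_one] at h4
  exact orderOf_eq_one_iff.mp h4

/-- roots of the characteristic polynomial over the algebraic closure -/
noncomputable def rts (B : Matrix ι ι F) : Multiset (AlgebraicClosure F) :=
  (B.charpoly.map (algebraMap F (AlgebraicClosure F))).roots

theorem card_rts (B : Matrix ι ι F) : (rts B).card = Fintype.card ι := by
  unfold rts
  rw [← (IsAlgClosed.splits _).natDegree_eq_card_roots, natDegree_map, Matrix.charpoly_natDegree_eq_dim]

theorem squarefree_of_nodup {B : Matrix ι ι F} (h : (rts B).Nodup) : Squarefree B.charpoly := by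
  have h1 : (B.charpoly.map (algebraMap F (AlgebraicClosure F))).Separable :=
    (nodup_roots_iff_of_splits ((Matrix.charpoly_monic B).map _).ne_zero (IsAlgClosed.splits _)).mp h
  exact (Polynomial.separable_map _).mp h1 |>.squarefree

theorem rts_pow {B : Matrix ι ι F} {N : ℕ} (hB : B ^ N = 1) : ∀ x ∈ rts B, x ^ N = 1 := by
  intro x hx
  have h1 := isRoot_of_mem_roots hx
  rw [← Matrix.charpoly_map] at h1
  set φ := algebraMap F (AlgebraicClosure F)
  have h2 : (B.map φ) ^ N = 1 := by
    have := congrArg (RingHom.mapMatrix φ) hB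
    rw [map_pow, map_one] at this
    exact this
  have h3 : Module.End.HasEigenvalue (Matrix.toLin' (B.map φ)) x := by
    rw [Module.End.hasEigenvalue_iff_isRoot_charpoly, Matrix.charpoly_toLin']
    exact h1
  obtain ⟨v, hv⟩ := h3.exists_hasEigenvector
  have h4 := hv.pow_apply N
  rw [← Matrix.toLin'_pow, h2, Matrix.toLin'_one, LinearMap.id_apply] at h4
  have h5 : (x ^ N - 1) • v = 0 := by rw [sub_smul, one_smul, ← h4, sub_self]
  exact sub_eq_zero.mp ((smul_eq_zero.mp h5).resolve_right hv.2)

theorem exists_ne_one {B : Matrix ι ι F} {N : ℕ} (hN : (N : F) ≠ 0) (hB : B ^ N = 1) (hB1 : B ≠ 1) :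
    ∃ x ∈ rts B, x ≠ 1 := by
  by_contra hcon
  push Not at hcon
  apply hB1
  have h1 : rts B = Multiset.replicate (Fintype.card ι) 1 := by
    rw [← card_rts B]
    exact Multiset.eq_replicate_card.mpr hcon
  have h2 : rts (1 : Matrix ι ι F) = Multiset.replicate (Fintype.card ι) 1 := by
    unfold rts
    rw [Matrix.charpoly_one, Polynomial.map_pow, Polynomial.map_sub, Polynomial.map_X,
      Polynomial.map_one, roots_pow]
    have : (X - 1 : (AlgebraicClosure F)[X]) = X - C 1 := by rw [C_1]
    rw [this, roots_X_sub_C, Multiset.nsmul_singleton]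
  have h3 : B.charpoly = (1 : Matrix ι ι F).charpoly := by
    apply Polynomial.map_injective (algebraMap F (AlgebraicClosure F)) (algebraMap F (AlgebraicClosure F)).injective
    have e1 := (IsAlgClosed.splits (B.charpoly.map (algebraMap F (AlgebraicClosure F)))).eq_prod_roots_of_monic
      ((Matrix.charpoly_monic B).map _)
    have e2 := (IsAlgClosed.splits ((1 : Matrix ι ι F).charpoly.map (algebraMap F (AlgebraicClosure F)))).eq_prod_roots_of_monic
      ((Matrix.charpoly_monic _).map _)
    rw [e1, e2]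
    change ((rts B).map _).prod = ((rts (1 : Matrix ι ι F)).map _).prod
    rw [h1, h2]
  obtain ⟨c, hc⟩ := isConj_of_charpoly hN hB (one_pow N) h3
  have hc' : (c : Matrix ι ι F) * B = 1 * c := hc
  rw [one_mul] at hc'
  exact c.isUnit.mul_left_cancel (by rw [hc', mul_one])

/-- **main lemma** -/
theorem trivial_of_large (p : ℕ) [Fact p.Prime] [CharP F p] {r k : ℕ} (hr : r.Prime) (hrp : r ≠ p)
    {Q : ℤ} (hQ : ¬ (r : ℤ) ∣ Q) {A B : Matrix ι ι F} (hAB : A * B = B * A) {i : ℕ}
    (hA : A ^ p ^ i = 1) (hB : B ^ r ^ k = 1) (hB1 : B ≠ 1)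
    (hinv : (rts B).map (fun x => x ^ Q) = rts B)
    (hcard : Fintype.card ι ≤ orderOf (Q : ZMod r) + 1) (h4 : 4 ≤ Fintype.card ι) : A = 1 := by
  classical
  have hp : p.Prime := Fact.out
  have hN : ((r ^ k : ℕ) : F) ≠ 0 := by
    rw [Ne, CharP.cast_eq_zero_iff F p]
    intro h
    exact hrp ((Nat.prime_dvd_prime_iff_eq hp hr).mp (hp.dvd_of_dvd_pow h)).symm
  apply unip_trivial p hAB hA
  · exact ⟨⟨B, B ^ (r ^ k - 1), by rw [← pow_succ', Nat.sub_add_cancel (pow_pos hr.pos k), hB],
      by rw [← pow_succ, Nat.sub_add_cancel (pow_pos hr.pos k), hB]⟩, rfl⟩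
  · apply squarefree_of_nodup
    exact nodup_of_large hr hQ (rts B) (rts_pow hB) hinv (by rw [card_rts]; exact hcard)
      (by rw [card_rts]; exact h4) (exists_ne_one hN hB hB1)

/-- Frobenius invariance -/
theorem rts_frob (B : Matrix ι ι F) : (rts B).map (fun x => x ^ ((Nat.card F : ℕ) : ℤ)) = rts B := by
  haveI := Fintype.ofFinite F
  obtain ⟨p, hp⟩ := CharP.exists F
  haveI := Fact.mk (CharP.char_is_prime F p)
  haveI : CharP (AlgebraicClosure F) p := charP_of_injective_algebraMap (algebraMap F (AlgebraicClosure F)).injective p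
  obtain ⟨⟨a, ha⟩, _, hcard⟩ := FiniteField.card F p
  simp only [PNat.mk_coe] at hcard
  let σ : AlgebraicClosure F →+* AlgebraicClosure F := iterateFrobenius (AlgebraicClosure F) p a
  have hσ : ∀ x, σ x = x ^ ((Nat.card F : ℕ) : ℤ) := by
    intro x
    rw [Nat.card_eq_fintype_card, hcard, zpow_natCast]
    rfl
  have h1 : (B.charpoly.map (algebraMap F (AlgebraicClosure F))).map σ =
      B.charpoly.map (algebraMap F (AlgebraicClosure F)) := by
    rw [Polynomial.map_map]
    congr 1
    ext x
    change σ (algebraMap F (AlgebraicClosure F) x) = algebraMap F (AlgebraicClosure F) x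
    rw [hσ, zpow_natCast, ← map_pow, Nat.card_eq_fintype_card, FiniteField.pow_card]
  have h2 := (IsAlgClosed.splits (B.charpoly.map (algebraMap F (AlgebraicClosure F)))).roots_map σ
  rw [h1] at h2
  unfold rts
  conv_rhs => rw [h2]
  exact Multiset.map_congr rfl fun x _ => (hσ x).symm

end H44.CP
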