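import Mathlib
import Cfsg.Agent.Lib.H53.Zsig

/-! The `r`-part of `q^k - 1`, and the abstract form of the homocyclic Sylow subgroups. -/

set_option autoImplicit false
set_option linter.unusedSectionVars false

namespace H44.Syl

open Polynomial H53.Zsig

variable {q r : ℕ}

theorem pow_sub_one_eq (hq : 1 < q) {d : ℕ} (hd : 0 < d) : q ^ d - 1 = ∏ e ∈ d.divisors, Phi e q := by
  have h1 : 1 ≤ q ^ d := Nat.one_le_pow _ _ (by omega)
  have h2 : ((q ^ d - 1 : ℕ) : ℤ) = ((∏ e ∈ d.divisors, Phi e q : ℕ) : ℤ) := by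
    rw [Nat.cast_sub h1, Nat.cast_prod]
    have h3 := congrArg (Polynomial.eval (q : ℤ)) (prod_cyclotomic_eq_X_pow_sub_one hd ℤ)
    rw [eval_prod, eval_sub, eval_pow, eval_X, eval_one] at h3
    push_cast
    rw [← h3]
    exact Finset.prod_congr rfl fun e _ => (Phi_cast_int hq).symm
  exact_mod_cast h2

theorem order_pos (hr : r.Prime) (hrq : ¬ r ∣ q) : 0 < orderOf (q : ZMod r) := by
  haveI := Fact.mk hr
  have h1 : (q : ZMod r) ≠ 0 := by rwa [Ne, ZMod.natCast_eq_zero_iff]
  have h2 : (q : ZMod r) ^ (r - 1) = 1 := ZMod.pow_card_sub_one_eq_one h1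
  exact orderOf_pos_iff.mpr (isOfFinOrder_iff_pow_eq_one.mpr ⟨r - 1, by have := hr.one_lt; omega, h2⟩)

theorem order_lt (hr : r.Prime) (hrq : ¬ r ∣ q) : orderOf (q : ZMod r) < r := by
  haveI := Fact.mk hr
  have h1 : (q : ZMod r) ≠ 0 := by rwa [Ne, ZMod.natCast_eq_zero_iff]
  have h2 : (q : ZMod r) ^ (r - 1) = 1 := ZMod.pow_card_sub_one_eq_one h1
  have h3 := orderOf_le_of_pow_eq_one (by have := hr.one_lt; omega) h2
  have := hr.one_lt
  omega

/-- the `r`-part of `Φ_d(q)` -/
noncomputable def vv (q r : ℕ) : ℕ :=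
  padicValNat r ((Polynomial.cyclotomic (orderOf (q : ZMod r)) ℤ).eval (q : ℤ)).natAbs

theorem val_d (hq : 1 < q) (hr : r.Prime) (hrq : ¬ r ∣ q) :
    padicValNat r (q ^ orderOf (q : ZMod r) - 1) = vv q r := by
  haveI := Fact.mk hr
  have hd := order_pos hr hrq
  rw [pow_sub_one_eq hq hd, ← Nat.insert_self_properDivisors hd.ne',
    Finset.prod_insert Nat.self_notMem_properDivisors,
    padicValNat.mul (Phi_pos hq).ne' (Finset.prod_ne_zero_iff.mpr fun e _ => (Phi_pos hq).ne')]
  have h1 : padicValNat r (∏ e ∈ (orderOf (q : ZMod r)).properDivisors, Phi e q) = 0 := by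
    apply padicValNat.eq_zero_of_not_dvd
    intro h
    obtain ⟨e, he, hre⟩ := (hr.prime.dvd_finsetProd_iff _).mp h
    rw [Nat.mem_properDivisors] at he
    have he0 : 0 < e := Nat.pos_of_dvd_of_pos he.1 hd
    have h2 : ¬ r ∣ e := by
      intro h3
      have h4 := Nat.le_of_dvd he0 h3
      have h5 := order_lt hr hrq
      omega
    have h3 := (dvd_Phi_iff (k := 0) (m := e) hq hr h2).mp (by rw [pow_zero, one_mul]; exact hre)
    omega
  rw [h1, add_zero]
  rfl

theorem dvd_iff (hq : 1 < q) {k : ℕ} : r ∣ q ^ k - 1 ↔ orderOf (q : ZMod r) ∣ k := by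
  rw [dvd_pow_sub_one_iff hq, orderOf_dvd_iff_pow_eq_one]

/-- the `r`-part of `q^k - 1` -/
theorem val_k (hq : 1 < q) (hr : r.Prime) (hrq : ¬ r ∣ q) {k : ℕ} (hk : ¬ r ∣ k) :
    padicValNat r (q ^ k - 1) = if orderOf (q : ZMod r) ∣ k then vv q r else 0 := by
  haveI := Fact.mk hr
  have hk0 : 0 < k := Nat.pos_of_ne_zero (by rintro rfl; exact hk (dvd_zero r))
  split_ifs with h
  · obtain ⟨j, rfl⟩ := h
    set d := orderOf (q : ZMod r) with hd
    have hd0 : 0 < d := order_pos hr hrq
    have hj : ¬ r ∣ j := fun h1 => hk (h1.mul_left d)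
    have h1 : 1 ≤ q ^ d := Nat.one_le_pow _ _ (by omega)
    have h2 : q ^ (d * j) - 1 = (q ^ d - 1) * ∑ i ∈ Finset.range j, (q ^ d) ^ i := by
      have h3 := Nat.geomSum_eq (m := q ^ d) (by
        have := Nat.one_lt_pow hd0.ne' hq
        omega) j
      rw [h3, pow_mul]
      rw [Nat.mul_div_cancel']
      have := Nat.sub_dvd_pow_sub_pow (q ^ d) 1 j
      rwa [one_pow] at this
    have hne : q ^ d - 1 ≠ 0 := by
      have := Nat.one_lt_pow hd0.ne' hq
      omega
    have h4 : ¬ r ∣ ∑ i ∈ Finset.range j, (q ^ d) ^ i := by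
      rw [← ZMod.natCast_eq_zero_iff]
      push_cast
      have h5 : (q : ZMod r) ^ d = 1 := pow_orderOf_eq_one _
      simp only [h5, one_pow, Finset.sum_const, Finset.card_range, nsmul_eq_mul, mul_one]
      rwa [ZMod.natCast_eq_zero_iff]
    have hne2 : ∑ i ∈ Finset.range j, (q ^ d) ^ i ≠ 0 := by
      intro h5
      rw [h5] at h4
      exact h4 (dvd_zero r)
    rw [h2, padicValNat.mul hne hne2, padicValNat.eq_zero_of_not_dvd h4, add_zero]
    exact val_d hq hr hrq
  · apply padicValNat.eq_zero_of_not_dvd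
    rwa [dvd_iff hq]

theorem val_prod (hq : 1 < q) (hr : r.Prime) (hrq : ¬ r ∣ q) {ι : Type*} (S : Finset ι) (f : ι → ℕ)
    (hS : ∀ k ∈ S, ¬ r ∣ f k) :
    padicValNat r (∏ k ∈ S, (q ^ f k - 1)) =
      vv q r * (S.filter (fun k => orderOf (q : ZMod r) ∣ f k)).card := by
  classical
  haveI := Fact.mk hr
  induction S using Finset.induction_on with
  | empty => simp
  | insert a S ha ih =>
    have h0 : ∀ k ∈ insert a S, q ^ f k - 1 ≠ 0 := by
      intro k hk
      have h1 : f k ≠ 0 := fun h => hS k hk (by rw [h]; exact dvd_zero r)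
      have := Nat.one_lt_pow h1 hq
      omega
    rw [Finset.prod_insert ha, padicValNat.mul (h0 a (Finset.mem_insert_self a S))
      (Finset.prod_ne_zero_iff.mpr fun k hk => h0 k (Finset.mem_insert_of_mem hk)),
      ih fun k hk => hS k (Finset.mem_insert_of_mem hk),
      val_k hq hr hrq (hS a (Finset.mem_insert_self a S)), Finset.filter_insert]
    split_ifs with h
    · rw [Finset.card_insert_of_notMem (fun h1 => ha (Finset.mem_of_mem_filter _ h1))]
      ring
    · rw [zero_add]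

/-- a Sylow `r`-subgroup is isomorphic to any `r`-group of the right order that embeds -/
theorem sylow_equiv {G : Type*} [Group G] [Finite G] (r : ℕ) [Fact r.Prime] (P : Sylow r G)
    {A : Type*} [Group A] (f : A →* G) (hf : Function.Injective f)
    (hA : Nat.card A = r ^ (Nat.card G).factorization r) : Nonempty (↥(P : Subgroup G) ≃* A) := by
  have h1 : Nat.card f.range = r ^ (Nat.card G).factorization r := by
    rw [← hA]
    exact Nat.card_congr (MonoidHom.ofInjective hf).symm.toEquiv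
  let Q : Sylow r G := Sylow.ofCard f.range h1
  have e1 : ↥(P : Subgroup G) ≃* ↥(Q : Subgroup G) := Sylow.equiv P Q
  exact ⟨e1.trans (MonoidHom.ofInjective hf).symm⟩

/-- homocyclic groups -/
theorem homocyclic {G : Type*} [Group G] [Finite G] (r : ℕ) [Fact r.Prime] (P : Sylow r G)
    {L : Type*} [Group L] (x : L) {v a : ℕ} (hx : orderOf x = r ^ v)
    (f : (Fin a → ↥(Subgroup.zpowers x)) →* G) (hf : Function.Injective f)
    (hG : (Nat.card G).factorization r = v * a) :
    Nonempty (↥(P : Subgroup G) ≃* (Fin a → Multiplicative (ZMod (r ^ v)))) := by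
  have hc : Nat.card ↥(Subgroup.zpowers x) = r ^ v := by rw [Nat.card_zpowers, hx]
  have e1 : Multiplicative (ZMod (r ^ v)) ≃* ↥(Subgroup.zpowers x) := by
    rw [← hc]
    exact zmodCyclicMulEquiv inferInstance
  obtain ⟨e2⟩ := sylow_equiv r P f hf (by
    rw [Nat.card_fun, Nat.card_fin, hc, hG, pow_mul])
  exact ⟨e2.trans (MulEquiv.piCongrRight fun _ => e1.symm)⟩

end H44.Syl
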