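import Mathlib
import Cfsg.Agent.Lib.H44.CommPair2
import Cfsg.Agent.S0242
import Cfsg.Agent.S0278
import Cfsg.Agent.Lib.H7.UnitSU
import Cfsg.Agent.Lib.H49.SUClasses
import Cfsg.Agent.Lib.H44.SylNum

/-! Orders of elements commuting with a `p`-element in `PSL_n(q)` and `PSU_n(q)`. -/

set_option autoImplicit false
set_option linter.unusedSectionVars false
set_option linter.style.haveILetI false

namespace H44.CP

open Polynomial Matrix H44.SS

section sl
variable {F : Type*} [Field F] [Fintype F]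

theorem pow_p_eq_one {p : ℕ} [Fact p.Prime] [CharP F p] {c : F} {i : ℕ} (h : c ^ p ^ i = 1) : c = 1 := by
  have h1 : (c - 1) ^ p ^ i = 0 := by rw [sub_pow_char_pow, h, one_pow, sub_self]
  exact sub_eq_zero.mp (pow_eq_zero_iff (pow_ne_zero _ (Fact.out : p.Prime).ne_zero) |>.mp h1)

theorem card_SL_eq {q : ℕ} (hq : Fintype.card F = q) (k : ℕ) :
    Nat.card (Matrix.SpecialLinearGroup (Fin (k + 1)) F) =
      q ^ k * ∏ i : Fin k, (q ^ (k + 1) - q ^ (i : ℕ)) := by
  have hq1 : 1 < q := hq ▸ Fintype.one_lt_card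
  have h1 := Cfsg.Agent.S0242.result hq (k + 1) (by omega)
  rw [Fin.prod_univ_castSucc] at h1
  simp only [Fin.val_castSucc, Fin.val_last] at h1
  have h2 : q ^ (k + 1) - q ^ k = (q - 1) * q ^ k := by
    rw [pow_succ, Nat.sub_mul, one_mul, mul_comm]
  rw [h2] at h1
  have h3 : 0 < q - 1 := by omega
  apply Nat.eq_of_mul_eq_mul_left h3
  rw [h1]; ring

theorem dvd_SL {q : ℕ} (hq : Fintype.card F = q) {k : ℕ} {r i : ℕ} (hi : 2 ≤ i)
    (hik : i ≤ k) (hr : r ∣ q ^ i - 1) : r ∣ Nat.card (Matrix.SpecialLinearGroup (Fin k) F) := by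
  obtain ⟨k, rfl⟩ : ∃ k', k = k' + 1 := ⟨k - 1, by omega⟩
  rw [card_SL_eq hq]
  apply Dvd.dvd.mul_left
  refine dvd_trans ?_ (Finset.dvd_prod_of_mem _ (Finset.mem_univ (⟨k + 1 - i, by omega⟩ : Fin k)))
  simp only
  have : q ^ (k + 1) - q ^ (k + 1 - i) = q ^ (k + 1 - i) * (q ^ i - 1) := by
    rw [Nat.mul_sub, mul_one, ← pow_add, Nat.sub_add_cancel hik]
  rw [this]
  exact hr.mul_left _

theorem order_large {q r : ℕ} (hr : r.Prime) (hrq : ¬ r ∣ q) {k : ℕ} (hk : 2 ≤ k)
    (h : ∀ i, 2 ≤ i → i ≤ k → ¬ r ∣ q ^ i - 1) (hq : 1 < q) :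
    k + 1 ≤ orderOf (((q : ℤ) : ZMod r)) := by
  haveI := Fact.mk hr
  have h0 : ((q : ℤ) : ZMod r) = (q : ZMod r) := by push_cast; rfl
  rw [h0]
  have hpos := H44.Syl.order_pos hr hrq
  by_contra hlt
  push Not at hlt
  by_cases h1 : orderOf (q : ZMod r) = 1
  · apply h 2 le_rfl hk
    rw [H44.Syl.dvd_iff hq, h1]
    exact one_dvd _
  · apply h (orderOf (q : ZMod r)) (by omega) (by omega)
    rw [H44.Syl.dvd_iff hq]

/-- **S2364**. -/
theorem psl (p : ℕ) [Fact p.Prime] [CharP F p] (n : ℕ) (hn : 4 ≤ n)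
    (a b : Matrix.ProjectiveSpecialLinearGroup (Fin n) F) (ha : orderOf a = p) (hab : Commute a b) :
    (orderOf b).primeFactors ⊆ (Nat.card (Matrix.SpecialLinearGroup (Fin (n - 2)) F)).primeFactors := by
  have hp : p.Prime := Fact.out
  obtain ⟨q, hq⟩ : ∃ q, Fintype.card F = q := ⟨_, rfl⟩
  have hq1 : 1 < q := hq ▸ Fintype.one_lt_card
  have hpq : p ∣ q := by
    rw [← CharP.cast_eq_zero_iff F p, ← hq]
    exact FiniteField.cast_card_eq_zero F
  intro r hr
  rw [Nat.mem_primeFactors] at hr ⊢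
  obtain ⟨hr, hrb, _⟩ := hr
  refine ⟨hr, ?_, Nat.card_pos.ne'⟩
  by_cases hrp : r = p
  · subst hrp
    obtain ⟨k, hk⟩ : ∃ k, n - 2 = k + 1 := ⟨n - 3, by omega⟩
    rw [hk, card_SL_eq hq]
    exact (hpq.trans (dvd_pow_self q (by omega))).mul_right _
  have hrq : ¬ r ∣ q := by
    intro h
    obtain ⟨⟨a, ha⟩, _, hcard⟩ := FiniteField.card F p
    simp only [PNat.mk_coe] at hcard
    rw [← hq, hcard] at h
    exact hrp ((Nat.prime_dvd_prime_iff_eq hr hp).mp (hr.dvd_of_dvd_pow h))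
  by_contra hcon
  have horder := order_large (k := n - 2) hr hrq (by omega) (fun i hi hik h => hcon (dvd_SL hq hi hik h)) hq1
  obtain ⟨A, B, i, j, hA1, hB1, hAB, hA, hB⟩ := lift p r hp hr (by
    intro z hz i hzi
    obtain ⟨c, hc, hcz⟩ := (Matrix.SpecialLinearGroup.mem_center_iff).mp hz
    have h1 : (z : Matrix (Fin n) (Fin n) F) ^ p ^ i = 1 := by
      rw [← Matrix.SpecialLinearGroup.coe_pow, hzi]; rfl
    have hne : Nonempty (Fin n) := ⟨⟨0, by omega⟩⟩
    rw [← hcz, ← map_pow, ← map_one (Matrix.scalar (Fin n)), Matrix.scalar_inj] at h1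
    have h2 := pow_p_eq_one h1
    apply Subtype.ext
    rw [← hcz, h2, map_one]; rfl) a b ha hrb hab
  apply hA1
  apply Subtype.ext
  refine trivial_of_large p hr hrp (Q := (q : ℤ)) (A := (A : Matrix (Fin n) (Fin n) F))
    (B := (B : Matrix (Fin n) (Fin n) F)) (k := j) (i := i) ?_ ?_ ?_ ?_ ?_ ?_ ?_ ?_
  · exact_mod_cast hrq
  · rw [← Matrix.SpecialLinearGroup.coe_mul, hAB, Matrix.SpecialLinearGroup.coe_mul]
  · rw [← Matrix.SpecialLinearGroup.coe_pow, hA]; rfl
  · rw [← Matrix.SpecialLinearGroup.coe_pow, hB]; rfl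
  · intro h; exact hB1 (Subtype.ext h)
  · have := rts_frob (B : Matrix (Fin n) (Fin n) F)
    rw [Nat.card_eq_fintype_card, hq] at this
    exact this
  · rw [Fintype.card_fin]; omega
  · rw [Fintype.card_fin]; exact hn

end sl

section su
variable {K : Type*} [Field K] [Fintype K] {q : ℕ}

theorem reverse_prod {E : Type*} [Field E] (M : Multiset E) (h0 : (0 : E) ∉ M) :
    ((M.map (fun a => X - C a)).prod).reverse =
      C ((M.map (fun a => -a)).prod) * (M.map (fun a => X - C a⁻¹)).prod := by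
  induction M using Multiset.induction_on with
  | empty => simp [Polynomial.reverse]
  | cons a M ih =>
    rw [Multiset.mem_cons, not_or] at h0
    rw [Multiset.map_cons, Multiset.prod_cons, reverse_mul_of_domain, ih h0.2, Multiset.map_cons,
      Multiset.prod_cons, Multiset.map_cons, Multiset.prod_cons, C_mul]
    have ha : a ≠ 0 := fun h => h0.1 h.symm
    have h1 : (X - C a : E[X]).reverse = C (-a) * (X - C a⁻¹) := by
      have h2 : (X - C a : E[X]).natDegree = 1 := natDegree_X_sub_C a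
      ext k
      rw [coeff_reverse, h2, coeff_C_mul, coeff_sub, coeff_sub]
      rcases Nat.lt_trichotomy k 1 with hk | hk | hk
      · have : k = 0 := by omega
        subst this
        rw [revAt_le (by norm_num)]
        simp [ha]
      · subst hk
        rw [revAt_le le_rfl]
        simp
      · rw [revAt_eq_self_of_lt hk, coeff_X_of_ne_one (by omega), coeff_C_of_ne_zero (by omega),
          coeff_C_of_ne_zero (by omega)]
        simp
    rw [h1]
    ring

theorem map_reverse {R S : Type*} [Field R] [Field S] (φ : R →+* S) (f : R[X]) :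
    (f.reverse).map φ = (f.map φ).reverse := by
  ext k
  rw [coeff_map, coeff_reverse, coeff_reverse, coeff_map, natDegree_map]

theorem rts_st (hK : Nat.card K = q ^ 2) {ι : Type*} [Fintype ι] [DecidableEq ι] (B : Matrix ι ι K)
    (h0 : B.charpoly.coeff 0 ≠ 0) (hst : H44.SSU.st hK B.charpoly = B.charpoly) :
    (rts B).map (fun x => x ^ (-(q : ℤ))) = rts B := by
  obtain ⟨p, _, _, b, hb, hqb⟩ := H49.Unitary.exists_char_pow hK
  haveI : CharP (AlgebraicClosure K) p :=
    charP_of_injective_algebraMap (algebraMap K (AlgebraicClosure K)).injective p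
  set φ := algebraMap K (AlgebraicClosure K) with hφ
  let σ : AlgebraicClosure K →+* AlgebraicClosure K := iterateFrobenius (AlgebraicClosure K) p b
  have hσ : ∀ x, σ x = x ^ q := by
    intro x
    rw [hqb]; rfl
  set g := B.charpoly.map φ with hg
  have hgm : g.Monic := (Matrix.charpoly_monic B).map _
  have hM : rts B = g.roots := rfl
  have hprod : g = (g.roots.map (fun a => X - C a)).prod := (IsAlgClosed.splits g).eq_prod_roots_of_monic hgm
  have h0M : (0 : AlgebraicClosure K) ∉ g.roots := by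
    intro h
    have h1 := isRoot_of_mem_roots h
    rw [IsRoot, ← coeff_zero_eq_eval_zero, hg, coeff_map] at h1
    exact h0 ((map_eq_zero φ).mp h1)
  -- apply `φ` to `st f = f`
  have h1 : g = ((C (φ (B.charpoly.coeff 0)⁻¹) * g.reverse)).map σ := by
    conv_lhs => rw [hg, ← hst]
    unfold H44.SSU.st
    rw [Polynomial.map_map, hg, ← map_reverse, ← Polynomial.map_C, ← Polynomial.map_mul,
      Polynomial.map_map]
    congr 1
    ext x
    change φ (x ^ q) = σ (φ x)
    rw [hσ, map_pow]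
  have h2 := congrArg Polynomial.roots h1
  rw [(IsAlgClosed.splits _).roots_map σ, roots_C_mul _ (by
    exact (_root_.map_ne_zero φ).mpr (inv_ne_zero h0))] at h2
  have h3 : g.reverse.roots = g.roots.map (fun x => x⁻¹) := by
    conv_lhs => rw [hprod, reverse_prod _ h0M]
    rw [roots_C_mul]
    · have h4 := roots_multiset_prod_X_sub_C (g.roots.map (fun x => x⁻¹))
      rw [Multiset.map_map] at h4
      exact h4
    · rw [Ne, Multiset.prod_eq_zero_iff]
      intro h
      rw [Multiset.mem_map] at h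
      obtain ⟨a, ha, ha0⟩ := h
      rw [neg_eq_zero] at ha0
      exact h0M (ha0 ▸ ha)
  rw [h3, Multiset.map_map] at h2
  rw [hM]
  conv_rhs => rw [h2]
  apply Multiset.map_congr rfl
  intro x _
  simp only [Function.comp]
  rw [hσ, _root_.zpow_neg, _root_.zpow_natCast, inv_pow]

theorem dvd_SU (hF : Fintype.card K = q ^ 2) {k : ℕ} {r i : ℕ} (hi : 2 ≤ i)
    (hik : i ≤ k) (hr : r ∣ (if Even i then q ^ i - 1 else q ^ i + 1)) :
    r ∣ Nat.card ↥(Cfsg.SU k K q) := by
  have h1 := Cfsg.Agent.S0278.result hF k (by omega)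
  obtain ⟨k, rfl⟩ : ∃ k', k = k' + 1 := ⟨k - 1, by omega⟩
  rw [Finset.prod_range_succ'] at h1
  simp only [zero_add, pow_one, Even.zero, if_true] at h1
  have h2 : Nat.card ↥(Cfsg.SU (k + 1) K q) = q ^ ((k + 1) * (k + 1 - 1) / 2) *
      ∏ i ∈ Finset.range k, (if Even (i + 1) then q ^ (i + 1 + 1) + 1 else q ^ (i + 1 + 1) - 1) := by
    apply Nat.eq_of_mul_eq_mul_left (by omega : 0 < q + 1)
    rw [h1]; ring
  rw [h2]
  apply Dvd.dvd.mul_left
  refine dvd_trans ?_ (Finset.dvd_prod_of_mem _ (Finset.mem_range.mpr (by omega : i - 2 < k)))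
  have e1 : i - 2 + 1 + 1 = i := by omega
  rw [e1]
  have e2 : Even (i - 2 + 1) ↔ ¬ Even i := by
    rw [Nat.even_iff, Nat.even_iff]; omega
  split_ifs at hr ⊢ with h3 h4 <;> simp_all

theorem order_large_su {r : ℕ} (hr : r.Prime) (hrq : ¬ r ∣ q) {k : ℕ} (hk : 2 ≤ k)
    (h : ∀ i, 2 ≤ i → i ≤ k → ¬ r ∣ (if Even i then q ^ i - 1 else q ^ i + 1)) (hq : 1 < q) :
    k + 1 ≤ orderOf (((-(q : ℤ) : ℤ) : ZMod r)) := by
  haveI := Fact.mk hr
  set e := orderOf (((-(q : ℤ) : ℤ) : ZMod r)) with he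
  have hq0 : (q : ZMod r) ≠ 0 := by rwa [Ne, ZMod.natCast_eq_zero_iff]
  have hx0 : ((-(q : ℤ) : ℤ) : ZMod r) ≠ 0 := by
    push_cast
    exact neg_ne_zero.mpr hq0
  have hpos : 0 < e := by
    apply orderOf_pos_iff.mpr
    exact isOfFinOrder_iff_pow_eq_one.mpr ⟨r - 1, by have := hr.one_lt; omega,
      ZMod.pow_card_sub_one_eq_one hx0⟩
  have hkey : ∀ i, e ∣ i → r ∣ (if Even i then q ^ i - 1 else q ^ i + 1) := by
    intro i hi
    have h1 : (((-(q : ℤ) : ℤ) : ZMod r)) ^ i = 1 := orderOf_dvd_iff_pow_eq_one.mp hi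
    push_cast at h1
    split_ifs with h2
    · rw [h2.neg_pow] at h1
      rw [← ZMod.natCast_eq_zero_iff, Nat.cast_sub (Nat.one_le_pow _ _ (by omega))]
      push_cast
      rw [h1, sub_self]
    · rw [(Nat.not_even_iff_odd.mp h2).neg_pow] at h1
      rw [← ZMod.natCast_eq_zero_iff]
      push_cast
      rw [← h1]; ring
  by_contra hlt
  push Not at hlt
  by_cases h1 : e = 1
  · apply h 2 le_rfl hk
    apply hkey
    rw [h1]
    exact one_dvd _
  · exact h e (by omega) (by omega) (hkey e dvd_rfl)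

/-- **S2365**. -/
theorem psu (p : ℕ) [Fact p.Prime] [CharP K p] (m : ℕ) (hm : 4 ≤ m) (hF : Fintype.card K = q ^ 2)
    (a b : Cfsg.PSU m K q) (ha : orderOf a = p) (hab : Commute a b) :
    (orderOf b).primeFactors ⊆ (Nat.card ↥(Cfsg.SU (m - 2) K q)).primeFactors := by
  have hp : p.Prime := Fact.out
  have hK : Nat.card K = q ^ 2 := by rw [Nat.card_eq_fintype_card, hF]
  have hq2 := H49.Unitary.two_le hK
  have hpq : p ∣ q := by
    have h1 : p ∣ q ^ 2 := by
      rw [← CharP.cast_eq_zero_iff K p, ← hF]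
      exact FiniteField.cast_card_eq_zero K
    exact hp.dvd_of_dvd_pow h1
  intro r hr
  rw [Nat.mem_primeFactors] at hr ⊢
  obtain ⟨hr, hrb, _⟩ := hr
  refine ⟨hr, ?_, Nat.card_pos.ne'⟩
  by_cases hrp : r = p
  · subst hrp
    have h1 := Cfsg.Agent.S0278.result hF (m - 2) (by omega)
    have h2 : r ∣ (q + 1) * Nat.card ↥(Cfsg.SU (m - 2) K q) := by
      rw [h1]
      refine (hpq.trans (dvd_pow_self q ?_)).mul_right _
      have h3 : 2 ≤ m - 2 := by omega
      have h4 : 2 ≤ (m - 2) * (m - 2 - 1) := by nlinarith [Nat.sub_add_cancel (show 1 ≤ m - 2 by omega)]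
      omega
    rcases (hr.dvd_mul).mp h2 with h3 | h3
    · exfalso
      have h4 : r ∣ 1 := (Nat.dvd_add_right hpq).mp h3
      exact hr.one_lt.ne' (Nat.dvd_one.mp h4)
    · exact h3
  have hrq : ¬ r ∣ q := by
    intro h
    obtain ⟨p', hp', hch', b, _, hqb⟩ := H49.Unitary.exists_char_pow hK
    have hpp : p' = p := CharP.eq K hch' ‹CharP K p›
    subst hpp
    rw [hqb] at h
    exact hrp ((Nat.prime_dvd_prime_iff_eq hr hp).mp (hr.dvd_of_dvd_pow h))
  by_contra hcon
  have horder := order_large_su (q := q) (k := m - 2) hr hrq (by omega)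
    (fun i hi hik h => hcon (dvd_SU hF hi hik h)) (by omega)
  obtain ⟨A, B, i, j, hA1, hB1, hAB, hA, hB⟩ := lift p r hp hr (by
    intro z hz i hzi
    obtain ⟨c, hcz⟩ := H7.UnitSU.center_scalar hF (by omega) hz
    have h1 : ((z : Matrix.SpecialLinearGroup (Fin m) K) : Matrix (Fin m) (Fin m) K) ^ p ^ i = 1 := by
      rw [← Matrix.SpecialLinearGroup.coe_pow, ← Subgroup.coe_pow, hzi]; rfl
    rw [hcz, Matrix.diagonal_pow] at h1
    have h2 := congrFun (congrFun h1 ⟨0, by omega⟩) ⟨0, by omega⟩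
    rw [Matrix.diagonal_apply_eq, Matrix.one_apply_eq] at h2
    have h3 := pow_p_eq_one (p := p) (c := c) (i := i) h2
    apply Subtype.ext
    apply Subtype.ext
    rw [hcz, h3]
    exact Matrix.diagonal_one) a b ha hrb hab
  apply hA1
  apply Subtype.ext
  apply Subtype.ext
  have hcoe : ∀ x y : ↥(Cfsg.SU m K q), (((x * y : ↥(Cfsg.SU m K q)) : Matrix.SpecialLinearGroup (Fin m) K) : Matrix (Fin m) (Fin m) K) =
      ((x : Matrix.SpecialLinearGroup (Fin m) K) : Matrix (Fin m) (Fin m) K) *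
      ((y : Matrix.SpecialLinearGroup (Fin m) K) : Matrix (Fin m) (Fin m) K) := fun x y => rfl
  refine trivial_of_large p hr hrp (Q := (-(q : ℤ)))
    (A := ((A : Matrix.SpecialLinearGroup (Fin m) K) : Matrix (Fin m) (Fin m) K))
    (B := ((B : Matrix.SpecialLinearGroup (Fin m) K) : Matrix (Fin m) (Fin m) K)) (k := j) (i := i) ?_ ?_ ?_ ?_ ?_ ?_ ?_ ?_
  · rw [dvd_neg]
    exact_mod_cast hrq
  · rw [← hcoe, hAB, hcoe]
  · rw [← Matrix.SpecialLinearGroup.coe_pow, ← Subgroup.coe_pow, hA]; rfl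
  · rw [← Matrix.SpecialLinearGroup.coe_pow, ← Subgroup.coe_pow, hB]; rfl
  · intro h; exact hB1 (Subtype.ext (Subtype.ext h))
  · have hBu := (H49.Unitary.mem_GU hK _).mp (H49.SUClasses.toGU m K q B).2
    rw [H49.SUClasses.toGU_coe] at hBu
    apply rts_st hK
    · intro h0
      have h := Matrix.det_eq_sign_charpoly_coeff ((B : Matrix.SpecialLinearGroup (Fin m) K) : Matrix (Fin m) (Fin m) K)
      rw [h0, mul_zero] at h
      rw [(B : Matrix.SpecialLinearGroup (Fin m) K).2] at h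
      exact one_ne_zero h
    · rw [← H44.SSU.charpoly_star hK (mul_eq_one_comm.mp hBu), H49.Unitary.ct_ct]
  · rw [Fintype.card_fin]; omega
  · rw [Fintype.card_fin]; exact hm

end su

end H44.CP
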