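import Mathlib
import Cfsg.Prelude.Def_Sporadic
import Cfsg.Prelude.Def_Classical

/-! Primes dividing exactly to the third power the order of an alternating or sporadic group. -/

set_option autoImplicit false
set_option linter.unusedSectionVars false

namespace H44.Cube

theorem spor (N a : ℕ) (l : List ℕ) (k : ℕ) (hN : N ≠ 0) (h1 : N ∣ l.prod ^ k) (h2 : 2 ^ a ∣ N)
    (hl : ∀ x ∈ l, x.Prime) (h3 : ∀ x ∈ l, x = 2 ∨ x ^ 4 ∣ N ∨ ¬ x ^ 3 ∣ N ∨ x ^ 3 < 2 ^ a)
    (p : ℕ) (hp : p.Prime) (hodd : p ≠ 2) (hv : N.factorization p = 3) :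
    p ^ 3 < 2 ^ N.factorization 2 := by
  have hp3 : p ^ 3 ∣ N := (hp.pow_dvd_iff_le_factorization hN).mpr (by omega)
  have hp4 : ¬ p ^ 4 ∣ N := by
    rw [hp.pow_dvd_iff_le_factorization hN]; omega
  have h4 : p ∣ l.prod := hp.dvd_of_dvd_pow (((dvd_pow_self p (by norm_num)).trans hp3).trans h1)
  obtain ⟨x, hx, hpx⟩ := (hp.prime.dvd_prod_iff).mp h4
  have h5 : p = x := (Nat.prime_dvd_prime_iff_eq hp (hl x hx)).mp hpx
  subst h5
  have h6 : a ≤ N.factorization 2 := (Nat.prime_two.pow_dvd_iff_le_factorization hN).mp h2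
  rcases h3 p hx with h | h | h | h
  · exact absurd h hodd
  · exact absurd h hp4
  · exact absurd hp3 h
  · exact h.trans_le (Nat.pow_le_pow_right (by norm_num) h6)

theorem four_pow {p : ℕ} (hp : 5 ≤ p) : 2 * p ^ 3 < 4 ^ p := by
  induction p, hp using Nat.le_induction with
  | base => norm_num
  | succ p hp ih =>
    have : (p + 1) ^ 3 ≤ 4 * p ^ 3 := by nlinarith [sq_nonneg (p : ℤ)]
    have h2 : 4 ^ (p + 1) = 4 * 4 ^ p := by rw [pow_succ]; ring
    rw [h2]
    omega

theorem alt (n : ℕ) (p : ℕ) (hp : p.Prime) (hodd : p ≠ 2)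
    (hv : (n.factorial / 2).factorization p = 3) : p ^ 3 < 2 ^ (n.factorial / 2).factorization 2 := by
  haveI := Fact.mk hp
  haveI : Fact (Nat.Prime 2) := ⟨Nat.prime_two⟩
  have hn2 : 2 ≤ n := by
    by_contra h
    have : n.factorial = 1 := by
      have : n = 0 ∨ n = 1 := by omega
      rcases this with rfl | rfl <;> rfl
    rw [this] at hv
    simp at hv
  have h2 : 2 ∣ n.factorial := Nat.dvd_factorial (by norm_num) hn2
  have hne : n.factorial ≠ 0 := Nat.factorial_ne_zero n
  have hfac : n.factorial / 2 * 2 = n.factorial := Nat.div_mul_cancel h2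
  have hdne : n.factorial / 2 ≠ 0 := by omega
  have hvp : n.factorial.factorization p = 3 := by
    rw [← hfac, Nat.factorization_mul hdne (by norm_num), Finsupp.add_apply, hv,
      Nat.factorization_eq_zero_of_not_dvd (n := 2) (p := p)]
    intro h
    exact hodd ((Nat.prime_dvd_prime_iff_eq hp Nat.prime_two).mp h)
  have hv2 : n.factorial.factorization 2 = (n.factorial / 2).factorization 2 + 1 := by
    conv_lhs => rw [← hfac]
    rw [Nat.factorization_mul hdne (by norm_num), Finsupp.add_apply, Nat.prime_two.factorization_self]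
  have hp3 : 3 ≤ p := by
    have := hp.two_le
    omega
  -- `3 p ≤ n`
  have hleg : ∀ (r : ℕ) [Fact r.Prime], n.factorial.factorization r =
      ∑ i ∈ Finset.Ico 1 (n + 1), n / r ^ i := by
    intro r hr
    rw [Nat.factorization_def _ hr.out, padicValNat_factorial]
    exact (Nat.log_le_self r n).trans_lt (Nat.lt_succ_self n)
  have hge : ∀ (r : ℕ) [Fact r.Prime], n / r + n / r ^ 2 ≤ n.factorial.factorization r := by
    intro r hr
    rw [hleg r]
    have h5 : ({1, 2} : Finset ℕ) ⊆ Finset.Ico 1 (n + 1) := by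
      intro x hx
      simp only [Finset.mem_insert, Finset.mem_singleton] at hx
      rw [Finset.mem_Ico]
      omega
    have h6 := Finset.sum_le_sum_of_subset (f := fun i => n / r ^ i) h5
    rw [Finset.sum_pair (by norm_num), pow_one] at h6
    exact h6
  have hn3 : 3 * p ≤ n := by
    by_contra hlt
    push Not at hlt
    have h5 := hleg p
    rw [hvp, Finset.sum_eq_single_of_mem 1 (by rw [Finset.mem_Ico]; omega), pow_one] at h5
    · have : n / p < 3 := by
        rw [Nat.div_lt_iff_lt_mul hp.pos]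
        exact hlt
      omega
    · intro b hb hb1
      rw [Finset.mem_Ico] at hb
      apply Nat.div_eq_of_lt
      have : p ^ 2 ≤ p ^ b := Nat.pow_le_pow_right hp.pos (by omega)
      nlinarith
  have hp5 : 5 ≤ p := by
    by_contra hlt
    have h6 : p = 3 ∨ p = 4 := by omega
    rcases h6 with rfl | rfl
    · have h7 := hge 3
      rw [hvp] at h7
      omega
    · exact absurd hp (by norm_num)
  have h7 := hge 2
  have h8 : 2 * p ≤ n / 2 + n / 2 ^ 2 := by omega
  have h9 : 2 * p ≤ n.factorial.factorization 2 := h8.trans h7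
  have h10 : 4 ^ p ≤ 2 ^ n.factorial.factorization 2 := by
    calc 4 ^ p = 2 ^ (2 * p) := by rw [pow_mul]; norm_num
      _ ≤ _ := Nat.pow_le_pow_right (by norm_num) h9
  have h11 := four_pow hp5
  rw [hv2, pow_succ] at h10
  omega

open Cfsg in
theorem sporadic {G : Type*} [Group G] [Finite G] (hG : Cfsg.IsSporadic G) (p : ℕ) (hp : p.Prime)
    (hodd : p ≠ 2) (h3 : (Nat.card G).factorization p = 3) :
    p ^ 3 < 2 ^ (Nat.card G).factorization 2 := by
  rcases hG with ⟨_, h⟩ | ⟨_, h⟩ | ⟨_, h⟩ | ⟨_, h⟩ | ⟨_, h⟩ | ⟨_, h⟩ | ⟨_, h⟩ | ⟨_, h⟩ | ⟨_, h⟩ | ⟨_, h⟩ | ⟨_, h⟩ | ⟨_, h⟩ | ⟨_, h⟩ | ⟨_, h⟩ | ⟨_, h⟩ | ⟨_, h⟩ | ⟨_, h⟩ | ⟨_, h⟩ | ⟨_, h⟩ | ⟨_, h⟩ | ⟨_, h⟩ | ⟨_, h⟩ | ⟨_, h⟩ | ⟨_, h⟩ | ⟨_, h⟩ | ⟨_, h⟩ <;> rw [h] at h3 ⊢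
  · exact spor 7920 4 [2, 3, 5, 11] 4 (by norm_num) (by decide) (by decide) (by decide) (by decide) p hp hodd h3
  · exact spor 95040 6 [2, 3, 5, 11] 6 (by norm_num) (by decide) (by decide) (by decide) (by decide) p hp hodd h3
  · exact spor 443520 7 [2, 3, 5, 7, 11] 7 (by norm_num) (by decide) (by decide) (by decide) (by decide) p hp hodd h3
  · exact spor 10200960 7 [2, 3, 5, 7, 11, 23] 7 (by norm_num) (by decide) (by decide) (by decide) (by decide) p hp hodd h3
  · exact spor 244823040 10 [2, 3, 5, 7, 11, 23] 10 (by norm_num) (by decide) (by decide) (by decide) (by decide) p hp hodd h3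
  · exact spor 175560 3 [2, 3, 5, 7, 11, 19] 3 (by norm_num) (by decide) (by decide) (by decide) (by decide) p hp hodd h3
  · exact spor 604800 7 [2, 3, 5, 7] 7 (by norm_num) (by decide) (by decide) (by decide) (by decide) p hp hodd h3
  · exact spor 50232960 7 [2, 3, 5, 17, 19] 7 (by norm_num) (by decide) (by decide) (by decide) (by decide) p hp hodd h3
  · exact spor 86775571046077562880 21 [2, 3, 5, 7, 11, 23, 29, 31, 37, 43] 21 (by norm_num) (by decide) (by decide) (by decide) (by decide) p hp hodd h3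
  · exact spor 4157776806543360000 21 [2, 3, 5, 7, 11, 13, 23] 21 (by norm_num) (by decide) (by decide) (by decide) (by decide) p hp hodd h3
  · exact spor 42305421312000 18 [2, 3, 5, 7, 11, 23] 18 (by norm_num) (by decide) (by decide) (by decide) (by decide) p hp hodd h3
  · exact spor 495766656000 10 [2, 3, 5, 7, 11, 23] 10 (by norm_num) (by decide) (by decide) (by decide) (by decide) p hp hodd h3
  · exact spor 64561751654400 17 [2, 3, 5, 7, 11, 13] 17 (by norm_num) (by decide) (by decide) (by decide) (by decide) p hp hodd h3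
  · exact spor 4089470473293004800 18 [2, 3, 5, 7, 11, 13, 17, 23] 18 (by norm_num) (by decide) (by decide) (by decide) (by decide) p hp hodd h3
  · exact spor 1255205709190661721292800 21 [2, 3, 5, 7, 11, 13, 17, 23, 29] 21 (by norm_num) (by decide) (by decide) (by decide) (by decide) p hp hodd h3
  · exact spor 44352000 9 [2, 3, 5, 7, 11] 9 (by norm_num) (by decide) (by decide) (by decide) (by decide) p hp hodd h3
  · exact spor 898128000 7 [2, 3, 5, 7, 11] 7 (by norm_num) (by decide) (by decide) (by decide) (by decide) p hp hodd h3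
  · exact spor 4030387200 10 [2, 3, 5, 7, 17] 10 (by norm_num) (by decide) (by decide) (by decide) (by decide) p hp hodd h3
  · exact spor 145926144000 14 [2, 3, 5, 7, 13, 29] 14 (by norm_num) (by decide) (by decide) (by decide) (by decide) p hp hodd h3
  · exact spor 448345497600 13 [2, 3, 5, 7, 11, 13] 13 (by norm_num) (by decide) (by decide) (by decide) (by decide) p hp hodd h3
  · exact spor 460815505920 9 [2, 3, 5, 7, 11, 19, 31] 9 (by norm_num) (by decide) (by decide) (by decide) (by decide) p hp hodd h3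
  · exact spor 273030912000000 14 [2, 3, 5, 7, 11, 19] 14 (by norm_num) (by decide) (by decide) (by decide) (by decide) p hp hodd h3
  · exact spor 51765179004000000 8 [2, 3, 5, 7, 11, 31, 37, 67] 8 (by norm_num) (by decide) (by decide) (by decide) (by decide) p hp hodd h3
  · exact spor 90745943887872000 15 [2, 3, 5, 7, 13, 19, 31] 15 (by norm_num) (by decide) (by decide) (by decide) (by decide) p hp hodd h3
  · exact spor 4154781481226426191177580544000000 41 [2, 3, 5, 7, 11, 13, 17, 19, 23, 31, 47] 41 (by norm_num) (by decide) (by decide) (by decide) (by decide) p hp hodd h3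
  · exact spor 808017424794512875886459904961710757005754368000000000 46 [2, 3, 5, 7, 11, 13, 17, 19, 23, 29, 31, 41, 47, 59, 71] 46 (by norm_num) (by decide) (by decide) (by decide) (by decide) p hp hodd h3

end H44.Cube
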