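import Cfsg.Prelude.Def_ChevF4

/-! The short root ideal of the Lie algebra of type F₄ in characteristic two. -/

set_option autoImplicit false

namespace H44.F4Ideal

open Cfsg.Lie

/-- short roots -/
def sh (r : ℕ) : Bool :=
  ((chevF4.coroot.getD r #[]).getD 2 0) % 2 == 0 && ((chevF4.coroot.getD r #[]).getD 3 0) % 2 == 0

def chk1 : Bool := (List.range 48).all fun r => (List.range 48).all fun s => !(sh s) || s == r ||
  s == chevF4.negIdx.getD r 0 || (List.range 48).all fun u => sh u ||
    (chevF4.chainCoeff r s u).all fun km => km.2 % 2 == 0

def chk2 : Bool := (List.range 48).all fun r => sh r ||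
  (((chevF4.cartanSR.getD 0 #[]).getD r 0) % 2 == 0 &&
    ((chevF4.cartanSR.getD 1 #[]).getD r 0) % 2 == 0)

def chk3 : Bool := (List.range 48).all fun r => sh r == sh (chevF4.negIdx.getD r 0)

theorem c1 : chk1 = true := by decide +kernel
theorem c2 : chk2 = true := by decide +kernel
theorem c3 : chk3 = true := by decide +kernel
theorem sh33 : sh 33 = true := by decide +kernel
theorem sh14 : sh 14 = true := by decide +kernel
theorem neg33 : chevF4.negIdx.getD 33 0 = 14 := by decide +kernel
theorem cor33 : (chevF4.coroot.getD 33 #[]).getD 0 0 = 1 := by decide +kernel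

/-- the coordinates of the ideal -/
def J : chevF4.Idx → Prop
  | Sum.inl i => i.val < 2
  | Sum.inr s => sh s.val = true

instance : DecidablePred J := fun x => match x with
  | Sum.inl i => inferInstanceAs (Decidable (i.val < 2))
  | Sum.inr s => inferInstanceAs (Decidable (sh s.val = true))

theorem cast_even {K : Type*} [Field K] [CharP K 2] {a : ℤ} (h : a % 2 = 0) : (a : K) = 0 := by
  obtain ⟨b, rfl⟩ := Int.dvd_of_emod_eq_zero h
  push_cast
  have : (2 : K) = 0 := by exact_mod_cast CharP.cast_eq_zero K 2
  rw [this, zero_mul]

theorem xMat_block {K : Type*} [Field K] [CharP K 2] (r : Fin chevF4.nroots) (t : K)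
    (row col : chevF4.Idx) (hr : ¬ J row) (hc : J col) : chevF4.xMat K r t row col = 0 := by
  have h1 := c1
  have h2 := c2
  have h3 := c3
  rw [chk1, List.all_eq_true] at h1
  rw [chk2, List.all_eq_true] at h2
  rw [chk3, List.all_eq_true] at h3
  have hr1 := h1 r.val (List.mem_range.mpr r.2)
  have hr2 := h2 r.val (List.mem_range.mpr r.2)
  have hr3 := h3 r.val (List.mem_range.mpr r.2)
  rw [List.all_eq_true] at hr1
  rw [ChevalleyDatum.xMat, Matrix.of_apply]
  rcases col with i | s
  · rcases row with i' | u
    · change ¬ (i'.val < 2) at hr
      change i.val < 2 at hc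
      simp only
      rw [if_neg]
      rintro rfl
      exact hr hc
    · change ¬ (sh u.val = true) at hr
      change i.val < 2 at hc
      simp only
      split_ifs with hu
      · subst hu
        rw [Bool.or_eq_true] at hr2
        rcases hr2 with hr2 | hr2
        · exact absurd hr2 hr
        · rw [Bool.and_eq_true, beq_iff_eq, beq_iff_eq] at hr2
          have h4 : ((chevF4.cartanSR.getD i.val #[]).getD u.val 0) % 2 = 0 := by
            rcases (by omega : i.val = 0 ∨ i.val = 1) with h5 | h5
            · rw [h5]; exact hr2.1
            · rw [h5]; exact hr2.2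
          rw [cast_even h4]
          ring
      · rfl
  · change sh s.val = true at hc
    have hs1 := hr1 s.val (List.mem_range.mpr s.2)
    simp only
    split_ifs with hsr hsn
    · rcases row with i' | u
      · rfl
      · change ¬ (sh u.val = true) at hr
        simp only
        rw [if_neg]
        rintro rfl
        rw [hsr] at hc
        exact hr hc
    · have hrs : sh r.val = true := by
        rw [beq_iff_eq] at hr3
        rw [hr3, ← hsn]
        exact hc
      rcases row with i' | u
      · change ¬ (i'.val < 2) at hr
        simp only
        have h4 : ((chevF4.coroot.getD r.val #[]).getD i'.val 0) % 2 = 0 := by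
          rw [sh, Bool.and_eq_true, beq_iff_eq, beq_iff_eq] at hrs
          have hi : i'.val < 4 := i'.2
          rcases (by omega : i'.val = 2 ∨ i'.val = 3) with h5 | h5
          · rw [h5]; exact hrs.1
          · rw [h5]; exact hrs.2
        rw [cast_even h4, zero_mul]
      · change ¬ (sh u.val = true) at hr
        simp only
        rw [if_neg, if_neg]
        · rintro rfl
          exact hr hrs
        · rintro rfl
          exact hr hc
    · rcases row with i' | u
      · rfl
      · change ¬ (sh u.val = true) at hr
        simp only
        rw [if_neg (by rintro rfl; exact hr hc), zero_add]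
        rw [Bool.or_eq_true, Bool.or_eq_true, Bool.or_eq_true] at hs1
        rcases hs1 with ((h4 | h4) | h4) | h4
        · rw [hc] at h4
          exact absurd h4 (by decide)
        · rw [beq_iff_eq] at h4
          exact absurd (Fin.ext h4) hsr
        · rw [beq_iff_eq] at h4
          exact absurd h4 hsn
        · rw [List.all_eq_true] at h4
          have h5 := h4 u.val (List.mem_range.mpr u.2)
          rw [Bool.or_eq_true] at h5
          rcases h5 with h5 | h5
          · exact absurd h5 hr
          · rw [List.all_eq_true] at h5
            apply List.sum_eq_zero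
            intro x hx
            rw [List.mem_map] at hx
            obtain ⟨km, hkm, rfl⟩ := hx
            have h6 := h5 km hkm
            rw [beq_iff_eq] at h6
            rw [cast_even h6, zero_mul]

end H44.F4Ideal
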