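import Mathlib

/-! Orders of unipotent matrices. -/

set_option autoImplicit false

namespace H44.Unip

open Matrix Module

variable {F : Type*} [Field F] {ι : Type*} [Fintype ι] [DecidableEq ι]

/-- a nilpotent matrix -/
theorem nilp (N : Matrix ι ι F) (k : ℕ) (h : N ^ k = 0) : N ^ Fintype.card ι = 0 := by
  by_cases hk : k ≤ Fintype.card ι
  · exact pow_eq_zero_of_le hk h
  push Not at hk
  have h1 : (Matrix.toLinAlgEquiv' N) ^ k = 0 := by rw [← map_pow, h, map_zero]
  have h2 := Module.End.ker_pow_eq_ker_pow_finrank_of_le (f := (Matrix.toLinAlgEquiv' N))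
    (m := k) (by rw [Module.finrank_fintype_fun_eq_card]; exact hk.le)
  rw [h1, Module.finrank_fintype_fun_eq_card] at h2
  have h3 : (Matrix.toLinAlgEquiv' N) ^ Fintype.card ι = 0 := by
    rw [← LinearMap.ker_eq_top, ← h2]
    exact LinearMap.ker_zero
  rw [← map_pow] at h3
  exact (map_eq_zero_iff _ (Matrix.toLinAlgEquiv' (R := F) (n := ι)).injective).mp h3

/-- elements of `p`-power order -/
theorem pow_eq_one (p : ℕ) [Fact p.Prime] [CharP F p] (A : Matrix ι ι F) (j : ℕ)
    (h : A ^ p ^ j = 1) (k : ℕ) (hk : Fintype.card ι ≤ p ^ k) : A ^ p ^ k = 1 := by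
  cases isEmpty_or_nonempty ι
  · exact Subsingleton.elim _ _
  have h1 : (A - 1) ^ p ^ j = 0 := by
    rw [sub_pow_char_pow_of_commute p j (Commute.one_right A), h, one_pow, sub_self]
  have h2 : (A - 1) ^ p ^ k = 0 := pow_eq_zero_of_le hk (nilp _ _ h1)
  rw [sub_pow_char_pow_of_commute p k (Commute.one_right A), one_pow, sub_eq_zero] at h2
  exact h2

/-- conversely -/
theorem pow_eq_one_of_nilp (p : ℕ) [Fact p.Prime] [CharP F p] (A : Matrix ι ι F) (j : ℕ)
    (h : (A - 1) ^ p ^ j = 0) : A ^ p ^ j = 1 := by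
  cases isEmpty_or_nonempty ι
  · exact Subsingleton.elim _ _
  rw [sub_pow_char_pow_of_commute p j (Commute.one_right A), one_pow, sub_eq_zero] at h
  exact h

end H44.Unip
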