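import Cfsg.Prelude.Def_LieTwisted
import Cfsg.Agent.Lib.H22.ChevAll
import Cfsg.Agent.Lib.H22.ChevSimple
import Cfsg.Agent.Lib.H44.F4Ideal
import Cfsg.Agent.Lib.H44.Unip

/-! Orders of the elements of two-power order in `²F₄(q)`. -/

set_option autoImplicit false

namespace H44.F4Ideal

open Cfsg.Lie H22.ChevRel

section block
variable {I : Type*} [Fintype I] [DecidableEq I] {K : Type*} [Field K] (P : I → Prop) [DecidablePred P]

/-- block triangular matrices -/
def Blk (A : Matrix I I K) : Prop := ∀ row col, ¬ P row → P col → A row col = 0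

omit [Fintype I] [DecidablePred P] in
theorem Blk.one : Blk P (1 : Matrix I I K) := by
  intro row col hr hc
  rw [Matrix.one_apply_ne]
  rintro rfl
  exact hr hc

omit [DecidableEq I] [DecidablePred P] in
theorem Blk.mul {A B : Matrix I I K} (hA : Blk P A) (hB : Blk P B) : Blk P (A * B) := by
  intro row col hr hc
  rw [Matrix.mul_apply]
  apply Finset.sum_eq_zero
  intro k _
  by_cases hk : P k
  · rw [hA row k hr hk, zero_mul]
  · rw [hB k col hk hc, mul_zero]

/-- the restriction -/
def rs (A : Matrix I I K) : Matrix {i // P i} {i // P i} K := A.submatrix Subtype.val Subtype.val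

omit [Fintype I] [DecidablePred P] in
theorem rs_one : rs P (1 : Matrix I I K) = 1 := by
  ext i j
  rw [rs, Matrix.submatrix_apply, Matrix.one_apply, Matrix.one_apply]
  simp only [Subtype.ext_iff]

omit [DecidableEq I] in
theorem rs_mul {A B : Matrix I I K} (hB : Blk P B) : rs P (A * B) = rs P A * rs P B := by
  ext i j
  rw [rs, Matrix.submatrix_apply, Matrix.mul_apply, Matrix.mul_apply]
  rw [← Fintype.sum_subtype_add_sum_subtype P (fun k => A i k * B k j)]
  have h : ∑ k : {k // ¬ P k}, A i k * B k j = 0 := by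
    apply Finset.sum_eq_zero
    intro k _
    rw [hB k j k.2 j.2, mul_zero]
  rw [h, add_zero]
  rfl

end block

variable {K : Type*} [Field K]

theorem xg_group (R : Rel chevF4 K) (r : ℕ) (t : K) : xg R r t ∈ chevF4.group K := by
  by_cases hr : r < chevF4.nroots
  · apply Subgroup.subset_closure
    refine ⟨⟨r, hr⟩, t, ?_⟩
    rw [xg_val, ChevalleyDatum.x, dif_pos hr]
  · have : xg R r t = 1 := by
      apply Units.ext
      rw [xg_val, ChevalleyDatum.x, dif_neg hr]
      rfl
    rw [this]
    exact one_mem _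

theorem twisted_le (R : Rel chevF4 K) (e : ℕ) : twistedF4 K e ≤ chevF4.group K := by
  rw [twistedF4, ChevalleyDatum.genSubgroup, Subgroup.closure_le]
  rintro g ⟨w, -, hw⟩
  have h1 : g = wg R w := Units.ext (by rw [hw, wg_val])
  rw [h1, wg]
  apply Subgroup.list_prod_mem
  intro x hx
  rw [List.mem_map] at hx
  obtain ⟨p, -, rfl⟩ := hx
  exact xg_group R p.1 p.2

variable [CharP K 2]

theorem blk_group (R : Rel chevF4 K) (g : GL chevF4.Idx K) (hg : g ∈ chevF4.group K) :
    Blk J (g : Matrix chevF4.Idx chevF4.Idx K) ∧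
      Blk J ((g⁻¹ : GL chevF4.Idx K) : Matrix chevF4.Idx chevF4.Idx K) := by
  rw [ChevalleyDatum.group] at hg
  induction hg using Subgroup.closure_induction with
  | mem x hx =>
    obtain ⟨r, t, h⟩ := hx
    have h1 : x = xg R r t := by
      apply Units.ext
      rw [h, xg_val, ChevalleyDatum.x, dif_pos r.2]
    refine ⟨?_, ?_⟩
    · rw [h]
      exact fun row col hr hc => xMat_block r t row col hr hc
    · rw [h1, xg_inv, xg_val, ChevalleyDatum.x, dif_pos r.2]
      intro row col hr hc
      exact xMat_block r (-t) row col hr hc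
  | one => exact ⟨Blk.one J, by rw [inv_one]; exact Blk.one J⟩
  | mul x y _ _ hx hy =>
    refine ⟨?_, ?_⟩
    · exact Blk.mul J hx.1 hy.1
    · rw [mul_inv_rev]
      exact Blk.mul J hy.2 hx.2
  | inv x _ hx => exact ⟨hx.2, by rw [inv_inv]; exact hx.1⟩

/-- the restriction homomorphism -/
def fh (R : Rel chevF4 K) : ↥(chevF4.group K) →* Matrix {i // J i} {i // J i} K where
  toFun g := rs J ((g : GL chevF4.Idx K) : Matrix chevF4.Idx chevF4.Idx K)
  map_one' := rs_one J
  map_mul' g h := rs_mul J (blk_group R h h.2).1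

theorem card_J : Fintype.card {i // J i} ≤ 32 := by decide +kernel


theorem fh_inj (R : Rel chevF4 K) : Function.Injective (fh R) := by
  have hs := (H22.ChevSimple.simpleF4 R).1
  rw [← MonoidHom.ker_eq_bot_iff]
  rcases hs.eq_bot_or_eq_top_of_normal (fh R).ker inferInstance with h | h
  · exact h
  · exfalso
    have h1 : (⟨xg R 33 1, xg_group R 33 1⟩ : ↥(chevF4.group K)) ∈ (fh R).ker := by
      rw [h]; trivial
    rw [MonoidHom.mem_ker] at h1
    have h33 : (33 : ℕ) < chevF4.nroots := by decide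
    have h14 : (14 : ℕ) < chevF4.nroots := by decide
    have h0 : (0 : ℕ) < chevF4.rank := by decide
    have hJ1 : J (Sum.inl ⟨0, h0⟩) := by
      change (0 : ℕ) < 2
      norm_num
    have hJ2 : J (Sum.inr ⟨14, h14⟩) := sh14
    have h2 := congrFun (congrFun h1 ⟨_, hJ1⟩) ⟨_, hJ2⟩
    change chevF4.x K 33 1 (Sum.inl ⟨0, h0⟩) (Sum.inr ⟨14, h14⟩) = _ at h2
    rw [ChevalleyDatum.x, dif_pos h33, ChevalleyDatum.xMat, Matrix.of_apply] at h2
    simp only at h2
    rw [if_neg (by intro h6; exact absurd (congrArg Fin.val h6) (by norm_num)),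
      if_pos neg33.symm] at h2
    rw [cor33, Matrix.one_apply_ne (by
      intro h5
      have := congrArg Subtype.val h5
      exact absurd this (by simp))] at h2
    norm_num at h2

theorem main (R : Rel chevF4 K) (e : ℕ) (x : ↥(twistedF4 K e)) (hx : ∃ j : ℕ, orderOf x = 2 ^ j) :
    orderOf x ≤ 32 := by
  obtain ⟨j, hj⟩ := hx
  have hp : Fact (Nat.Prime 2) := ⟨Nat.prime_two⟩
  set y : ↥(chevF4.group K) := ⟨(x : GL chevF4.Idx K), twisted_le R e x.2⟩ with hy
  have h1 : x ^ 2 ^ j = 1 := by rw [← hj]; exact pow_orderOf_eq_one x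
  have h2 : y ^ 2 ^ j = 1 := by
    apply Subtype.ext
    have := congrArg Subtype.val h1
    exact this
  have h3 : (fh R y) ^ 2 ^ j = 1 := by rw [← map_pow, h2, map_one]
  have h4 : (fh R y) ^ 2 ^ 5 = 1 := H44.Unip.pow_eq_one 2 (fh R y) j h3 5 card_J
  have h5 : y ^ 2 ^ 5 = 1 := by
    apply fh_inj R
    rw [map_pow, h4, map_one]
  have h6 : x ^ 2 ^ 5 = 1 := by
    apply Subtype.ext
    have := congrArg Subtype.val h5
    exact this
  have h7 := orderOf_dvd_of_pow_eq_one h6
  exact Nat.le_of_dvd (by norm_num) h7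

end H44.F4Ideal
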