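import Mathlib

/-! Extending the scalars of a matrix representation to the algebraic closure. -/

set_option autoImplicit false

open Matrix

namespace H44.LSExt

/-- a matrix representation, over the algebraic closure, as a homomorphism to endomorphisms -/
noncomputable def ext {G : Type*} [Group G] {K : Type*} [Field K] {d : ℕ} (ρ : G →* GL (Fin d) K) :
    G →* Module.End (AlgebraicClosure K) (Fin d → AlgebraicClosure K) :=
  ((Matrix.toLinAlgEquiv' (R := AlgebraicClosure K) (n := Fin d)).toRingEquiv.toRingHom.toMonoidHom.comp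
    ((algebraMap K (AlgebraicClosure K)).mapMatrix (m := Fin d)).toMonoidHom).comp
    ((Units.coeHom _).comp ρ)

theorem ext_eq_one {G : Type*} [Group G] {K : Type*} [Field K] {d : ℕ} (ρ : G →* GL (Fin d) K)
    (g : G) (h : ext ρ g = 1) : ρ g = 1 := by
  have h1 : Matrix.toLinAlgEquiv' ((algebraMap K (AlgebraicClosure K)).mapMatrix (ρ g).1) =
    (1 : Module.End (AlgebraicClosure K) (Fin d → AlgebraicClosure K)) := h
  have h2 : (algebraMap K (AlgebraicClosure K)).mapMatrix (ρ g).1 = 1 := by
    apply (Matrix.toLinAlgEquiv' (R := AlgebraicClosure K) (n := Fin d)).injective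
    rw [h1, map_one]
  apply Units.ext
  rw [Units.val_one]
  ext i j
  have h3 := congrFun (congrFun h2 i) j
  rw [RingHom.mapMatrix_apply, map_apply] at h3
  apply (algebraMap K (AlgebraicClosure K)).injective
  rw [h3, one_apply, one_apply]
  split_ifs <;> simp

theorem natCast_ne_zero {F K : Type*} [Field F] [Field K] [Fintype F]
    (hK : ringChar K ≠ ringChar F) : ((Fintype.card F : ℕ) : K) ≠ 0 := by
  have hprime : Fact (ringChar F).Prime := ⟨CharP.char_is_prime F (ringChar F)⟩
  obtain ⟨n, _, hn⟩ := FiniteField.card F (ringChar F)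
  rw [hn, Nat.cast_pow]
  apply pow_ne_zero
  intro h0
  have h1 := (CharP.cast_eq_zero_iff K (ringChar K) (ringChar F)).mp h0
  rcases (Nat.dvd_prime hprime.out).mp h1 with h | h
  · exact CharP.ringChar_ne_one h
  · exact hK h

theorem natCast_ne_zero' {F K : Type*} [Field F] [Field K] [Fintype F]
    (hK : ringChar K ≠ ringChar F) : ((Fintype.card F : ℕ) : AlgebraicClosure K) ≠ 0 := by
  have h := natCast_ne_zero hK
  intro h0
  apply h
  apply (algebraMap K (AlgebraicClosure K)).injective
  rw [map_natCast, h0, map_zero]

end H44.LSExt
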