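import Cfsg.Agent.Lib.H44.LSVec
import Cfsg.Agent.Lib.H44.Laws

/-! The Landazuri–Seitz bound `q^(n-1) - 1` for special linear groups. -/

set_option autoImplicit false

open Matrix H44.LSLinear H44.LSForms H44.LSWeights H44.LSBound H44.LSVec H44.Laws

namespace H44.LSSL

variable {F : Type*} [Field F] {ι : Type*} [Fintype ι] [DecidableEq ι]

/-- translations in the affine group -/
def slJ (ι : Type*) [Fintype ι] [DecidableEq ι] (F : Type*) [Field F] :
    Multiplicative (ι → F) →* SpecialLinearGroup (ι ⊕ Unit) F where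
  toFun a := ⟨fromBlocks 1 (replicateCol Unit (Multiplicative.toAdd a)) 0 1, by
    rw [det_fromBlocks_zero₂₁, det_one, det_one, mul_one]⟩
  map_one' := by
    apply Subtype.ext
    simp [toAdd_one]
  map_mul' a b := by
    apply Subtype.ext
    change fromBlocks 1 (replicateCol Unit (Multiplicative.toAdd (a * b))) 0 1 =
      fromBlocks 1 (replicateCol Unit (Multiplicative.toAdd a)) 0 1 *
      fromBlocks 1 (replicateCol Unit (Multiplicative.toAdd b)) 0 1
    rw [fromBlocks_multiply]
    simp [toAdd_mul, add_comm]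

theorem slJ_coe (a : Multiplicative (ι → F)) :
    (slJ ι F a).1 = fromBlocks 1 (replicateCol Unit (Multiplicative.toAdd a)) 0 1 := rfl

theorem lower [Fintype F] (hι : 2 ≤ Fintype.card ι)
    {K : Type*} [Field K] [IsAlgClosed K] (hp : (Fintype.card F : K) ≠ 0)
    {V : Type*} [AddCommGroup V] [Module K V] [FiniteDimensional K V]
    (τ : SpecialLinearGroup (ι ⊕ Unit) F →* Module.End K V)
    (hτ : ∃ a, τ (slJ ι F a) ≠ 1) :
    Fintype.card F ^ Fintype.card ι - 1 ≤ Module.finrank K V := by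
  obtain ⟨b, hb⟩ := hτ
  refine LSVec.lower hp τ (slJ ι F) (fun g => g.det = 1) ?_ ?_ ?_ b hb
  · intro f f' hf hf'
    obtain ⟨g, hg1, hg2⟩ := exists_sl_vec hι f' f hf' hf
    exact ⟨gᵀ, by rw [det_transpose, hg1], by rw [transpose_transpose, hg2]⟩
  · intro g hg
    refine ⟨⟨fromBlocks g 0 0 1, by rw [det_fromBlocks_zero₂₁, hg, det_one, mul_one]⟩, ?_⟩
    intro a
    apply Subtype.ext
    change fromBlocks g 0 0 1 * fromBlocks 1 (replicateCol Unit a) 0 1 =
      fromBlocks 1 (replicateCol Unit (g *ᵥ a)) 0 1 * fromBlocks g 0 0 1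
    rw [fromBlocks_multiply, fromBlocks_multiply]
    simp [← replicateCol_mulVec]
  · intro g hg a
    have hunit : IsUnit g.det := by rw [hg]; exact isUnit_one
    exact ⟨g⁻¹ *ᵥ a, by rw [mulVec_mulVec, mul_nonsing_inv g hunit, one_mulVec]⟩

end H44.LSSL
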