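import Mathlib
import Cfsg.Prelude
import Cfsg.Agent.S0243
import Cfsg.Agent.S0245
import Cfsg.Agent.S0246
import Cfsg.Agent.S0280
import Cfsg.Agent.S0292
import Cfsg.Agent.S0293
import Cfsg.Agent.S0294
import Cfsg.Agent.S1059
import Cfsg.Agent.S1062
import Cfsg.Agent.S1063
import Cfsg.Agent.S1064
import Cfsg.Agent.S1065
import Cfsg.Agent.S1066
import Cfsg.Agent.S1067
import Cfsg.Agent.S1069
import Cfsg.Agent.S1163

/-! The order of a group of Lie type is bounded by the `8/3`-th power of its `p`-part. -/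

set_option autoImplicit false
set_option linter.style.haveILetI false

namespace H44.LieOrd

theorem main {p q f N e c d : ℕ} (hp : p.Prime) (hq : q = p ^ f) (hq1 : 1 < q) (hd : Nat.Coprime d p)
    (hdvd : q ^ N ∣ d * c) (hc0 : 0 < c) (hc : c < q ^ e) (he : 3 * e ≤ 8 * N) :
    c < p ^ (3 * c.factorization p) ∧ c ^ 3 < p ^ (8 * c.factorization p) := by
  have h1 : p ^ (f * N) ∣ c := by
    have h2 : p ^ (f * N) ∣ d * c := by rw [pow_mul, ← hq]; exact hdvd
    exact (Nat.Coprime.pow_left _ hd.symm).dvd_of_dvd_mul_left h2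
  have h2 : f * N ≤ c.factorization p := (hp.pow_dvd_iff_le_factorization hc0.ne').mp h1
  have h3 : c ^ 3 < p ^ (8 * c.factorization p) := by
    calc c ^ 3 < (q ^ e) ^ 3 := Nat.pow_lt_pow_left hc (by norm_num)
      _ = q ^ (3 * e) := by rw [← pow_mul, mul_comm]
      _ ≤ q ^ (8 * N) := Nat.pow_le_pow_right (by omega) he
      _ = p ^ (8 * (f * N)) := by rw [hq, ← pow_mul]; ring_nf
      _ ≤ p ^ (8 * c.factorization p) := Nat.pow_le_pow_right hp.pos (by omega)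
  refine ⟨?_, h3⟩
  have h4 : c ^ 3 < (p ^ (3 * c.factorization p)) ^ 3 := by
    refine h3.trans_le ?_
    rw [← pow_mul]
    exact Nat.pow_le_pow_right hp.pos (by omega)
  exact lt_of_pow_lt_pow_left₀ 3 (by positivity) h4

theorem card_field {F : Type*} [Field F] [Fintype F] {p : ℕ} (hp : p.Prime) [CharP F p] :
    ∃ f : ℕ, Fintype.card F = p ^ f ∧ 1 < Fintype.card F := by
  obtain ⟨n, _, h⟩ := FiniteField.card F p
  exact ⟨n, h, Fintype.one_lt_card⟩

theorem prod_sp {q : ℕ} (hq : 1 < q) (m : ℕ) : 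
    ∏ i ∈ Finset.range m, (q ^ (2 * (i + 1)) - 1) ≤ q ^ (m * (m + 1)) := by
  induction m with
  | zero => simp
  | succ m ih =>
    rw [Finset.prod_range_succ]
    calc _ ≤ q ^ (m * (m + 1)) * q ^ (2 * (m + 1)) := Nat.mul_le_mul ih (Nat.sub_le _ _)
      _ = q ^ ((m + 1) * (m + 1 + 1)) := by rw [← pow_add]; ring_nf

theorem prod_sp_lt {q : ℕ} (hq : 1 < q) {m : ℕ} (hm : 0 < m) : 
    ∏ i ∈ Finset.range m, (q ^ (2 * (i + 1)) - 1) < q ^ (m * (m + 1)) := by
  obtain ⟨m, rfl⟩ : ∃ k, m = k + 1 := ⟨m - 1, by omega⟩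
  rw [Finset.prod_range_succ]
  calc _ ≤ q ^ (m * (m + 1)) * (q ^ (2 * (m + 1)) - 1) := Nat.mul_le_mul_right _ (prod_sp hq m)
    _ < q ^ (m * (m + 1)) * q ^ (2 * (m + 1)) := by
      have h1 : 0 < q ^ (m * (m + 1)) := by positivity
      have h2 : 0 < q ^ (2 * (m + 1)) := by positivity
      exact (Nat.mul_lt_mul_left h1).mpr (by omega)
    _ = q ^ ((m + 1) * (m + 1 + 1)) := by rw [← pow_add]; ring_nf

theorem coprime_of {p q f d x : ℕ} (hp : p.Prime) (hq : q = p ^ f) (hq1 : 1 < q) (hd : d ∣ q ^ x - 1) (hx : x ≠ 0) :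
    Nat.Coprime d p := by
  rw [Nat.coprime_comm, hp.coprime_iff_not_dvd]
  intro h
  have h1 : p ∣ q ^ x - 1 := h.trans hd
  have hf : f ≠ 0 := by rintro rfl; rw [pow_zero] at hq; omega
  have h2 : p ∣ q ^ x := by rw [hq, ← pow_mul]; exact dvd_pow_self _ (mul_ne_zero hf hx)
  have h3 : 0 < q ^ x := by positivity
  have h4 : p ∣ 1 := by
    have := Nat.dvd_sub h2 h1
    rwa [Nat.sub_sub_self (by omega)] at this
  exact hp.one_lt.ne' (Nat.dvd_one.mp h4)

theorem coprime_of' {p q f d x : ℕ} (hp : p.Prime) (hq : q = p ^ f) (hq1 : 1 < q) (hd : d ∣ q ^ x + 1) (hx : x ≠ 0) :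
    Nat.Coprime d p := by
  rw [Nat.coprime_comm, hp.coprime_iff_not_dvd]
  intro h
  have h1 : p ∣ q ^ x + 1 := h.trans hd
  have hf : f ≠ 0 := by rintro rfl; rw [pow_zero] at hq; omega
  have h2 : p ∣ q ^ x := by rw [hq, ← pow_mul]; exact dvd_pow_self _ (mul_ne_zero hf hx)
  have h4 : p ∣ 1 := (Nat.dvd_add_right h2).mp h1
  exact hp.one_lt.ne' (Nat.dvd_one.mp h4)

/-- the conclusion -/
def Good (p c : ℕ) : Prop := c < p ^ (3 * c.factorization p) ∧ c ^ 3 < p ^ (8 * c.factorization p)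

section families
variable {F : Type*} [Field F] [Fintype F] {p : ℕ} (hp : p.Prime) [CharP F p]
include hp

theorem psp {m : ℕ} (hm : 2 ≤ m) : Good p (Nat.card (Cfsg.PSp m F)) := by
  obtain ⟨f, hf, hq1⟩ := card_field (F := F) hp
  have h1 := Cfsg.Agent.S0245.result (F := F) rfl m
  have h2 := Cfsg.Agent.S0246.result (F := F) rfl m (by omega)
  have h3 := Subgroup.card_eq_card_quotient_mul_card_subgroup (Subgroup.center (Matrix.symplecticGroup (Fin m) F))
  rw [h1, h2] at h3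
  refine main (N := m ^ 2) (e := m ^ 2 + m * (m + 1)) (d := Nat.gcd 2 (Fintype.card F - 1)) hp hf hq1 ?_ ?_ ?_ ?_ ?_
  · exact coprime_of hp hf hq1 (x := 1) (by rw [pow_one]; exact Nat.gcd_dvd_right _ _) one_ne_zero
  · rw [mul_comm]; exact ⟨_, h3.symm⟩
  · exact Nat.card_pos
  · have h4 := prod_sp_lt hq1 (show 0 < m by omega)
    have h5 : 0 < Nat.gcd 2 (Fintype.card F - 1) := Nat.gcd_pos_of_pos_left _ (by norm_num)
    calc Nat.card (Cfsg.PSp m F) ≤ Nat.card (Cfsg.PSp m F) * Nat.gcd 2 (Fintype.card F - 1) := Nat.le_mul_of_pos_right _ h5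
      _ = _ := h3.symm
      _ < Fintype.card F ^ (m ^ 2) * Fintype.card F ^ (m * (m + 1)) := (Nat.mul_lt_mul_left (by positivity)).mpr h4
      _ = _ := by rw [← pow_add]
  · nlinarith

theorem omegaOdd {m : ℕ} (hm : 3 ≤ m) (hodd : Odd (Fintype.card F)) :
    Good p (Nat.card (Cfsg.POmega F (Cfsg.quadFormOdd m F))) := by
  obtain ⟨f, hf, hq1⟩ := card_field (F := F) hp
  have h3 := Cfsg.Agent.S0292.result (F := F) rfl hodd m hm
  have hpos : 0 < 2 * Nat.card (Cfsg.POmega F (Cfsg.quadFormOdd m F)) := by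
    rw [h3]
    refine Nat.mul_pos (by positivity) (Finset.prod_pos fun i _ => ?_)
    have := Nat.one_lt_pow (n := 2 * (i + 1)) (by omega) hq1
    omega
  refine main (N := m ^ 2) (e := m ^ 2 + m * (m + 1)) (d := 2) hp hf hq1 ?_ ?_ (by omega) ?_ ?_
  · refine coprime_of hp hf hq1 (x := 1) ?_ one_ne_zero
    obtain ⟨a, ha⟩ := hodd
    rw [pow_one, ha]
    exact ⟨a, by omega⟩
  · exact ⟨_, h3⟩
  · have h4 := prod_sp_lt hq1 (show 0 < m by omega)
    calc Nat.card (Cfsg.POmega F (Cfsg.quadFormOdd m F)) ≤ 2 * Nat.card (Cfsg.POmega F (Cfsg.quadFormOdd m F)) := by omega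
      _ = _ := h3
      _ < Fintype.card F ^ (m ^ 2) * Fintype.card F ^ (m * (m + 1)) := (Nat.mul_lt_mul_left (by positivity)).mpr h4
      _ = _ := by rw [← pow_add]
  · nlinarith

theorem omegaPlus {m : ℕ} (hm : 4 ≤ m) :
    Good p (Nat.card (Cfsg.POmega F (Cfsg.quadFormPlus m F))) := by
  obtain ⟨f, hf, hq1⟩ := card_field (F := F) hp
  have h3 := Cfsg.Agent.S0293.result (F := F) rfl m hm
  set q := Fintype.card F with hq
  have h5 : 0 < Nat.gcd 4 (q ^ m - 1) := Nat.gcd_pos_of_pos_left _ (by norm_num)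
  have hpos : 0 < Nat.gcd 4 (q ^ m - 1) * Nat.card (Cfsg.POmega F (Cfsg.quadFormPlus m F)) := by
    rw [h3]
    have h6 := Nat.one_lt_pow (n := m) (by omega) hq1
    refine Nat.mul_pos (Nat.mul_pos (by positivity) (by omega)) (Finset.prod_pos fun i _ => ?_)
    have := Nat.one_lt_pow (n := 2 * (i + 1)) (by omega) hq1
    omega
  refine main (N := m * (m - 1)) (e := m * (m - 1) + m + (m - 1) * m) (d := Nat.gcd 4 (q ^ m - 1)) hp hf hq1 ?_ ?_
    (Nat.pos_of_mul_pos_left hpos) ?_ ?_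
  · exact coprime_of hp hf hq1 (Nat.gcd_dvd_right _ _) (by omega)
  · exact ⟨_, by rw [h3, mul_assoc]⟩
  · have h4 := prod_sp_lt hq1 (show 0 < m - 1 by omega)
    rw [Nat.sub_add_cancel (by omega : 1 ≤ m)] at h4
    calc Nat.card (Cfsg.POmega F (Cfsg.quadFormPlus m F)) ≤ Nat.gcd 4 (q ^ m - 1) * Nat.card (Cfsg.POmega F (Cfsg.quadFormPlus m F)) := Nat.le_mul_of_pos_left _ h5
      _ = _ := h3
      _ ≤ q ^ (m * (m - 1)) * q ^ m * ∏ i ∈ Finset.range (m - 1), (q ^ (2 * (i + 1)) - 1) :=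
        Nat.mul_le_mul_right _ (Nat.mul_le_mul_left _ (Nat.sub_le _ _))
      _ < q ^ (m * (m - 1)) * q ^ m * q ^ ((m - 1) * m) := (Nat.mul_lt_mul_left (by positivity)).mpr h4
      _ = _ := by rw [← pow_add, ← pow_add]
  · obtain ⟨k, rfl⟩ : ∃ k, m = k + 4 := ⟨m - 4, by omega⟩
    have : k + 4 - 1 = k + 3 := by omega
    rw [this]
    nlinarith

theorem omegaMinus {m : ℕ} (hm : 4 ≤ m) (a b : F)
    (hab : ∀ z₁ z₂ : F, z₁ ^ 2 + a * z₁ * z₂ + b * z₂ ^ 2 = 0 → z₁ = 0 ∧ z₂ = 0) :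
    Good p (Nat.card (Cfsg.POmega F (Cfsg.quadFormMinus (m - 1) F a b))) := by
  obtain ⟨f, hf, hq1⟩ := card_field (F := F) hp
  have h3 := Cfsg.Agent.S0294.result (F := F) rfl m hm a b hab
  set q := Fintype.card F with hq
  have h5 : 0 < Nat.gcd 4 (q ^ m + 1) := Nat.gcd_pos_of_pos_left _ (by norm_num)
  have hpos : 0 < Nat.gcd 4 (q ^ m + 1) * Nat.card (Cfsg.POmega F (Cfsg.quadFormMinus (m - 1) F a b)) := by
    rw [h3]
    have h6 := Nat.one_lt_pow (n := m) (by omega) hq1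
    refine Nat.mul_pos (Nat.mul_pos (by positivity) (by omega)) (Finset.prod_pos fun i _ => ?_)
    have := Nat.one_lt_pow (n := 2 * (i + 1)) (by omega) hq1
    omega
  refine main (N := m * (m - 1)) (e := m * (m - 1) + (m + 1) + (m - 1) * m) (d := Nat.gcd 4 (q ^ m + 1)) hp hf hq1 ?_ ?_
    (Nat.pos_of_mul_pos_left hpos) ?_ ?_
  · exact coprime_of' hp hf hq1 (Nat.gcd_dvd_right _ _) (by omega)
  · exact ⟨_, by rw [h3, mul_assoc]⟩
  · have h4 := prod_sp_lt hq1 (show 0 < m - 1 by omega)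
    rw [Nat.sub_add_cancel (by omega : 1 ≤ m)] at h4
    have h7 : q ^ m + 1 ≤ q ^ (m + 1) := by
      rw [pow_succ]
      have : 0 < q ^ m := by positivity
      nlinarith
    calc Nat.card (Cfsg.POmega F (Cfsg.quadFormMinus (m - 1) F a b)) ≤ Nat.gcd 4 (q ^ m + 1) * Nat.card (Cfsg.POmega F (Cfsg.quadFormMinus (m - 1) F a b)) := Nat.le_mul_of_pos_left _ h5
      _ = _ := h3
      _ ≤ q ^ (m * (m - 1)) * q ^ (m + 1) * ∏ i ∈ Finset.range (m - 1), (q ^ (2 * (i + 1)) - 1) :=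
        Nat.mul_le_mul_right _ (Nat.mul_le_mul_left _ h7)
      _ < q ^ (m * (m - 1)) * q ^ (m + 1) * q ^ ((m - 1) * m) := (Nat.mul_lt_mul_left (by positivity)).mpr h4
      _ = _ := by rw [← pow_add, ← pow_add]
  · obtain ⟨k, rfl⟩ : ∃ k, m = k + 4 := ⟨m - 4, by omega⟩
    have : k + 4 - 1 = k + 3 := by omega
    rw [this]
    nlinarith

end families
end H44.LieOrd
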