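import Mathlib
import Cfsg.Prelude
import Cfsg.Agent.Lib.H44.LieOrder

/-! The order of a group of Lie type is bounded by the `8/3`-th power of its `p`-part: linear, unitary and
exceptional groups. -/

set_option autoImplicit false
set_option linter.style.haveILetI false
set_option linter.unusedVariables false

namespace H44.LieOrd

theorem prod_gl {q : ℕ} (hq : 1 < q) (n : ℕ) :
    ∏ i : Fin n, (q ^ n - q ^ (i : ℕ)) = q ^ (n * (n - 1) / 2) * ∏ i ∈ Finset.range n, (q ^ (i + 1) - 1) := by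
  have h1 : ∀ i : Fin n, q ^ n - q ^ (i : ℕ) = q ^ (i : ℕ) * (q ^ (n - (i : ℕ)) - 1) := fun i => by
    rw [Nat.mul_sub, mul_one, ← pow_add, Nat.add_sub_cancel' i.2.le]
  rw [Finset.prod_congr rfl fun i _ => h1 i, Finset.prod_mul_distrib, Fin.prod_univ_eq_prod_range (fun i => q ^ i) n,
    Finset.prod_pow_eq_pow_sum, Finset.sum_range_id, Fin.prod_univ_eq_prod_range (fun i => q ^ (n - i) - 1) n,
    ← Finset.prod_range_reflect]
  congr 1
  refine Finset.prod_congr rfl fun i hi => ?_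
  rw [Finset.mem_range] at hi
  congr 2
  omega

theorem prod_gl_lt {q : ℕ} (hq : 1 < q) (n : ℕ) :
    ∏ i ∈ Finset.range (n + 1), (q ^ (i + 1) - 1) ≤ (q - 1) * q ^ (n * (n + 3) / 2) := by
  induction n with
  | zero => simp
  | succ n ih =>
    rw [Finset.prod_range_succ]
    have h : (n + 1) * (n + 1 + 3) / 2 = n * (n + 3) / 2 + (n + 2) := by
      have : (n + 1) * (n + 1 + 3) = n * (n + 3) + 2 * (n + 2) := by ring
      rw [this, Nat.add_mul_div_left _ _ (by norm_num)]
    calc _ ≤ ((q - 1) * q ^ (n * (n + 3) / 2)) * q ^ (n + 1 + 1) := Nat.mul_le_mul ih (Nat.sub_le _ _)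
      _ = _ := by rw [h, mul_assoc, ← pow_add]

theorem prod_gl_lt' {q : ℕ} (hq : 1 < q) (n : ℕ) :
    ∏ i ∈ Finset.range (n + 2), (q ^ (i + 1) - 1) < (q - 1) * q ^ ((n + 1) * (n + 4) / 2) := by
  rw [Finset.prod_range_succ]
  have h : (n + 1) * (n + 4) / 2 = n * (n + 3) / 2 + (n + 2) := by
    have : (n + 1) * (n + 4) = n * (n + 3) + 2 * (n + 2) := by ring
    rw [this, Nat.add_mul_div_left _ _ (by norm_num)]
  calc _ ≤ ((q - 1) * q ^ (n * (n + 3) / 2)) * (q ^ (n + 1 + 1) - 1) := Nat.mul_le_mul_right _ (prod_gl_lt hq n)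
    _ < ((q - 1) * q ^ (n * (n + 3) / 2)) * q ^ (n + 1 + 1) := by
      refine (Nat.mul_lt_mul_left (Nat.mul_pos (by omega) (by positivity))).mpr ?_
      have : 0 < q ^ (n + 1 + 1) := by positivity
      omega
    _ = _ := by rw [h, mul_assoc, ← pow_add]

section psl
variable {F : Type*} [Field F] [Fintype F] {p : ℕ} (hp : p.Prime) [CharP F p]
include hp

theorem psl {n : ℕ} (hn : 3 ≤ n) : Good p (Nat.card (Matrix.ProjectiveSpecialLinearGroup (Fin n) F)) := by
  obtain ⟨f, hf, hq1⟩ := card_field (F := F) hp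
  have h1 := Cfsg.Agent.S0243.result (F := F) rfl n (by omega)
  set q := Fintype.card F with hq
  rw [prod_gl hq1] at h1
  have hg : 0 < Nat.gcd n (q - 1) := Nat.gcd_pos_of_pos_left _ (by omega)
  set c := Nat.card (Matrix.ProjectiveSpecialLinearGroup (Fin n) F) with hc
  have hc0 : 0 < c := Nat.card_pos
  refine main (N := n * (n - 1) / 2) (e := n ^ 2 - 1) (d := Nat.gcd n (q - 1) * (q - 1)) hp hf hq1 ?_ ?_ hc0 ?_ ?_
  · rw [Nat.coprime_mul_iff_left]
    exact ⟨coprime_of hp hf hq1 (x := 1) (by rw [pow_one]; exact Nat.gcd_dvd_right _ _) one_ne_zero,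
      coprime_of hp hf hq1 (x := 1) (by rw [pow_one]) one_ne_zero⟩
  · exact ⟨_, by rw [mul_assoc, h1]⟩
  · obtain ⟨k, rfl⟩ : ∃ k, n = k + 3 := ⟨n - 3, by omega⟩
    have h4 := prod_gl_lt' hq1 (k + 1)
    have h5 : (q - 1) * c < (q - 1) * q ^ ((k + 3) ^ 2 - 1) := by
      calc (q - 1) * c ≤ Nat.gcd (k + 3) (q - 1) * ((q - 1) * c) := Nat.le_mul_of_pos_left _ hg
        _ = _ := h1
        _ < q ^ ((k + 3) * (k + 3 - 1) / 2) * ((q - 1) * q ^ ((k + 1 + 1) * (k + 1 + 4) / 2)) :=
          (Nat.mul_lt_mul_left (by positivity)).mpr h4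
        _ = (q - 1) * q ^ ((k + 3) * (k + 3 - 1) / 2 + (k + 1 + 1) * (k + 1 + 4) / 2) := by rw [pow_add]; ring
        _ = _ := by
          congr 2
          have e1 : (k + 3) * (k + 3 - 1) = k * (k + 5) + 6 := by
            have : k + 3 - 1 = k + 2 := by omega
            rw [this]; ring
          have e2 : (k + 1 + 1) * (k + 1 + 4) = k * (k + 5) + (2 * k + 10) := by ring
          have e3 : (k + 3) ^ 2 = k * (k + 5) + k + 9 := by ring
          rw [e1, e2, e3]
          have e4 : Even (k * (k + 5)) := by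
            rcases Nat.even_or_odd k with h | h
            · exact h.mul_right _
            · exact (h.add_odd (by decide : Odd 5)).mul_left _
          obtain ⟨r, hr⟩ := e4
          rw [hr]
          omega
    exact Nat.lt_of_mul_lt_mul_left h5
  · obtain ⟨k, rfl⟩ : ∃ k, n = k + 3 := ⟨n - 3, by omega⟩
    have e1 : (k + 3) * (k + 3 - 1) = k * (k + 5) + 6 := by
      have : k + 3 - 1 = k + 2 := by omega
      rw [this]; ring
    have e3 : (k + 3) ^ 2 = k * (k + 5) + k + 9 := by ring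
    rw [e1, e3]
    have e4 : Even (k * (k + 5)) := by
      rcases Nat.even_or_odd k with h | h
      · exact h.mul_right _
      · exact (h.add_odd (by decide : Odd 5)).mul_left _
    obtain ⟨r, hr⟩ := e4
    have e5 : 5 * k ≤ k * (k + 5) := by nlinarith
    rw [hr] at e5 ⊢
    omega

/-- `PSL₂(q)`: the exponent of `p` is exact -/
theorem psl_two : Nat.card (Matrix.ProjectiveSpecialLinearGroup (Fin 2) F) < 
      p ^ (3 * (Nat.card (Matrix.ProjectiveSpecialLinearGroup (Fin 2) F)).factorization p) ∧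
    Fintype.card F = p ^ (Nat.card (Matrix.ProjectiveSpecialLinearGroup (Fin 2) F)).factorization p := by
  obtain ⟨f, hf, hq1⟩ := card_field (F := F) hp
  have h1 := Cfsg.Agent.S0243.result (F := F) rfl 2 le_rfl
  set q := Fintype.card F with hq
  rw [Fin.prod_univ_two] at h1
  set c := Nat.card (Matrix.ProjectiveSpecialLinearGroup (Fin 2) F) with hc
  have hc0 : 0 < c := Nat.card_pos
  have hg : 0 < Nat.gcd 2 (q - 1) := Nat.gcd_pos_of_pos_left _ (by omega)
  have h2 : Nat.gcd 2 (q - 1) * c = q * (q ^ 2 - 1) := by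
    have h3 : (q - 1) * (Nat.gcd 2 (q - 1) * c) = (q - 1) * (q * (q ^ 2 - 1)) := by
      calc _ = Nat.gcd 2 (q - 1) * ((q - 1) * c) := by ring
        _ = _ := h1
        _ = _ := by
          simp only [Fin.coe_ofNat_eq_mod, Nat.zero_mod, pow_zero, Nat.one_mod, pow_one]
          have : q ^ 2 - q = (q - 1) * q := by rw [Nat.sub_mul, one_mul, pow_two]
          rw [this]; ring
    exact Nat.eq_of_mul_eq_mul_left (by omega) h3
  have hf0 : f ≠ 0 := by rintro rfl; rw [pow_zero] at hf; omega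
  have hcop : ¬ p ∣ q ^ 2 - 1 := by
    have := coprime_of hp hf hq1 (x := 2) (dvd_refl _) two_ne_zero
    rwa [Nat.coprime_comm, hp.coprime_iff_not_dvd] at this
  have hcg : ¬ p ∣ Nat.gcd 2 (q - 1) := by
    have := coprime_of hp hf hq1 (x := 1) (d := Nat.gcd 2 (q - 1)) (by rw [pow_one]; exact Nat.gcd_dvd_right _ _) one_ne_zero
    rwa [Nat.coprime_comm, hp.coprime_iff_not_dvd] at this
  have h4 : c.factorization p = f := by
    have h5 : (Nat.gcd 2 (q - 1) * c).factorization p = (q * (q ^ 2 - 1)).factorization p := by rw [h2]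
    have h6 : q ^ 2 - 1 ≠ 0 := by
      have := Nat.one_lt_pow (n := 2) (by omega) hq1
      omega
    rw [Nat.factorization_mul hg.ne' hc0.ne', Nat.factorization_mul (by omega) h6] at h5
    rw [Finsupp.add_apply, Finsupp.add_apply] at h5
    rw [Nat.factorization_eq_zero_of_not_dvd hcg, Nat.factorization_eq_zero_of_not_dvd hcop, hf,
      hp.factorization_pow, Finsupp.single_eq_same] at h5
    omega
  rw [h4]
  refine ⟨?_, hf⟩
  rw [mul_comm, pow_mul, ← hf]
  calc c ≤ Nat.gcd 2 (q - 1) * c := Nat.le_mul_of_pos_left _ hg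
    _ = _ := h2
    _ < q * q ^ 2 := (Nat.mul_lt_mul_left (by omega)).mpr (by
        have : 0 < q ^ 2 := by positivity
        omega)
    _ = q ^ 3 := by ring

end psl

section psu

/-- the unitary factor -/
def uf (q i : ℕ) : ℕ := if Even i then q ^ (i + 1) + 1 else q ^ (i + 1) - 1

theorem prod_u_odd {q : ℕ} (hq : 1 < q) (j : ℕ) :
    ∏ i ∈ Finset.range (2 * j + 1), uf q i ≤ (q + 1) * q ^ (2 * j ^ 2 + 3 * j) ∧
    (1 ≤ j → ∏ i ∈ Finset.range (2 * j + 1), uf q i < (q + 1) * q ^ (2 * j ^ 2 + 3 * j)) := by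
  induction j with
  | zero => simp [uf]
  | succ j ih =>
    have key : uf q (2 * j + 1) * uf q (2 * j + 2) < q ^ (4 * j + 5) := by
      unfold uf
      rw [if_neg (by rw [Nat.not_even_iff_odd]; exact ⟨j, rfl⟩), if_pos (by exact ⟨j + 1, by ring⟩)]
      have h1 : q ^ (2 * j + 1 + 1) < q ^ (2 * j + 2 + 1) := Nat.pow_lt_pow_right hq (by omega)
      have h2 : q ^ (4 * j + 5) = q ^ (2 * j + 1 + 1) * q ^ (2 * j + 2 + 1) := by rw [← pow_add]; ring_nf
      have h3 : 0 < q ^ (2 * j + 1 + 1) := by positivity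
      rw [h2]
      obtain ⟨a, ha⟩ := Nat.exists_eq_add_of_lt h3
      rw [ha] at h1 ⊢
      have : 0 + a + 1 - 1 = a := by omega
      rw [this]
      nlinarith
    have h5 : 2 * (j + 1) + 1 = 2 * j + 1 + 1 + 1 := by ring
    have h6 : 2 * (j + 1) ^ 2 + 3 * (j + 1) = (2 * j ^ 2 + 3 * j) + (4 * j + 5) := by ring
    have h7 : ∏ i ∈ Finset.range (2 * (j + 1) + 1), uf q i < (q + 1) * q ^ (2 * (j + 1) ^ 2 + 3 * (j + 1)) := by
      rw [h5, Finset.prod_range_succ, Finset.prod_range_succ, h6, pow_add, ← mul_assoc (q + 1), mul_assoc (∏ i ∈ _, _)]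
      exact Nat.mul_lt_mul_of_le_of_lt ih.1 key (by positivity)
    exact ⟨h7.le, fun _ => h7⟩

theorem prod_u {q : ℕ} (hq : 1 < q) {n : ℕ} (hn : 3 ≤ n) :
    ∏ i ∈ Finset.range n, uf q i < (q + 1) * q ^ ((n - 1) * (n + 2) / 2) := by
  rcases Nat.even_or_odd n with ⟨j, hj⟩ | ⟨j, hj⟩
  · obtain ⟨k, rfl⟩ : ∃ k, j = k + 2 := ⟨j - 2, by omega⟩
    have h1 := (prod_u_odd hq (k + 1)).2 (by omega)
    have h2 : n = 2 * (k + 1) + 1 + 1 := by omega
    have h3 : (n - 1) * (n + 2) / 2 = (2 * (k + 1) ^ 2 + 3 * (k + 1)) + (2 * k + 4) := by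
      rw [h2]
      have : (2 * (k + 1) + 1 + 1 - 1) * (2 * (k + 1) + 1 + 1 + 2) = 2 * ((2 * (k + 1) ^ 2 + 3 * (k + 1)) + (2 * k + 4)) := by
        have : 2 * (k + 1) + 1 + 1 - 1 = 2 * k + 3 := by omega
        rw [this]; ring
      rw [this, Nat.mul_div_cancel_left _ (by norm_num)]
    rw [h3, h2, Finset.prod_range_succ, pow_add, ← mul_assoc (q + 1)]
    refine Nat.mul_lt_mul_of_lt_of_le h1 ?_ (by positivity)
    unfold uf
    rw [if_neg (by rw [Nat.not_even_iff_odd]; exact ⟨k + 1, rfl⟩)]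
    have : 2 * (k + 1) + 1 + 1 = 2 * k + 4 := by ring
    rw [this]
    exact Nat.sub_le _ _
  · have h1 := (prod_u_odd hq j).2 (by omega)
    have h3 : (n - 1) * (n + 2) / 2 = (2 * j ^ 2 + 3 * j) := by
      rw [hj]
      have : (2 * j + 1 - 1) * (2 * j + 1 + 2) = 2 * (2 * j ^ 2 + 3 * j) := by
        have : 2 * j + 1 - 1 = 2 * j := by omega
        rw [this]; ring
      rw [this, Nat.mul_div_cancel_left _ (by norm_num)]
    rw [h3, hj]
    exact h1

/-- a prime power with `q ^ a = p ^ b` is a power of `p` -/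
theorem pow_of {p q a b : ℕ} (hp : p.Prime) (ha : a ≠ 0) (hq : 1 < q) (h : q ^ a = p ^ b) : ∃ f, q = p ^ f := by
  have h1 : q ∣ p ^ b := h ▸ dvd_pow_self q ha
  obtain ⟨f, _, hf⟩ := (Nat.dvd_prime_pow hp).mp h1
  exact ⟨f, hf⟩

variable {F : Type*} [Field F] [Fintype F] {p : ℕ} (hp : p.Prime) [CharP F p]
include hp

theorem psu {n q : ℕ} (hq : Fintype.card F = q ^ 2) (hn : 3 ≤ n) : Good p (Nat.card (Cfsg.PSU n F q)) := by
  obtain ⟨f', hf', hq1'⟩ := card_field (F := F) hp
  have hq1 : 1 < q := by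
    by_contra h
    rcases (by omega : q = 0 ∨ q = 1) with rfl | rfl <;> simp [hq] at hq1'
  obtain ⟨f, hf⟩ := pow_of hp (two_ne_zero) hq1 (hq.symm.trans hf')
  have h1 := Cfsg.Agent.S0280.result (F := F) hq n (by omega)
  change _ = _ * ∏ i ∈ Finset.range n, uf q i at h1
  have hg : 0 < Nat.gcd n (q + 1) := Nat.gcd_pos_of_pos_left _ (by omega)
  set c := Nat.card (Cfsg.PSU n F q) with hc
  have hc0 : 0 < c := by
    rw [Nat.pos_iff_ne_zero]
    rintro hz
    rw [hz, mul_zero, mul_zero] at h1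
    rcases mul_eq_zero.mp h1.symm with h2 | h2
    · exact absurd h2 (by positivity)
    · rw [Finset.prod_eq_zero_iff] at h2
      obtain ⟨i, _, hi⟩ := h2
      unfold uf at hi
      have := Nat.one_lt_pow (n := i + 1) (by omega) hq1
      split_ifs at hi <;> omega
  refine main (N := n * (n - 1) / 2) (e := n ^ 2 - 1) (d := Nat.gcd n (q + 1) * (q + 1)) hp hf hq1 ?_ ?_ hc0 ?_ ?_
  · rw [Nat.coprime_mul_iff_left]
    exact ⟨coprime_of' hp hf hq1 (x := 1) (by rw [pow_one]; exact Nat.gcd_dvd_right _ _) one_ne_zero,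
      coprime_of' hp hf hq1 (x := 1) (by rw [pow_one]) one_ne_zero⟩
  · exact ⟨_, by rw [mul_assoc, h1]⟩
  · have h4 := prod_u hq1 hn
    have h5 : (q + 1) * c < (q + 1) * q ^ (n ^ 2 - 1) := by
      calc (q + 1) * c ≤ Nat.gcd n (q + 1) * ((q + 1) * c) := Nat.le_mul_of_pos_left _ hg
        _ = _ := h1
        _ < q ^ (n * (n - 1) / 2) * ((q + 1) * q ^ ((n - 1) * (n + 2) / 2)) :=
          (Nat.mul_lt_mul_left (by positivity)).mpr h4
        _ = (q + 1) * q ^ (n * (n - 1) / 2 + (n - 1) * (n + 2) / 2) := by rw [pow_add]; ring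
        _ = _ := by
          congr 2
          obtain ⟨k, rfl⟩ : ∃ k, n = k + 3 := ⟨n - 3, by omega⟩
          have e1 : (k + 3) * (k + 3 - 1) = k * (k + 5) + 6 := by
            have : k + 3 - 1 = k + 2 := by omega
            rw [this]; ring
          have e2 : (k + 3 - 1) * (k + 3 + 2) = k * (k + 5) + (2 * k + 10) := by
            have : k + 3 - 1 = k + 2 := by omega
            rw [this]; ring
          have e3 : (k + 3) ^ 2 = k * (k + 5) + k + 9 := by ring
          rw [e1, e2, e3]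
          have e4 : Even (k * (k + 5)) := by
            rcases Nat.even_or_odd k with h | h
            · exact h.mul_right _
            · exact (h.add_odd (by decide : Odd 5)).mul_left _
          obtain ⟨r, hr⟩ := e4
          rw [hr]
          omega
    exact Nat.lt_of_mul_lt_mul_left h5
  · obtain ⟨k, rfl⟩ : ∃ k, n = k + 3 := ⟨n - 3, by omega⟩
    have e1 : (k + 3) * (k + 3 - 1) = k * (k + 5) + 6 := by
      have : k + 3 - 1 = k + 2 := by omega
      rw [this]; ring
    have e3 : (k + 3) ^ 2 = k * (k + 5) + k + 9 := by ring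
    rw [e1, e3]
    have e4 : Even (k * (k + 5)) := by
      rcases Nat.even_or_odd k with h | h
      · exact h.mul_right _
      · exact (h.add_odd (by decide : Odd 5)).mul_left _
    obtain ⟨r, hr⟩ := e4
    have e5 : 5 * k ≤ k * (k + 5) := by nlinarith
    rw [hr] at e5 ⊢
    omega

end psu
end H44.LieOrd
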