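import Mathlib
import Cfsg.Prelude
import Cfsg.Agent.Lib.H44.LieOrder2

/-! The order of a group of Lie type is bounded by the `8/3`-th power of its `p`-part: exceptional groups. -/

set_option autoImplicit false
set_option linter.style.haveILetI false
set_option linter.unusedVariables false

namespace H44.LieOrd

/-- upper bounds for products, as exponents of `q` -/
theorem ub {q a b e f : ℕ} (ha : a ≤ q ^ e) (hb : b ≤ q ^ f) : a * b ≤ q ^ (e + f) := by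
  rw [pow_add]; exact Nat.mul_le_mul ha hb

theorem um (q k : ℕ) : q ^ k - 1 ≤ q ^ k := Nat.sub_le _ _

theorem up {q : ℕ} (hq : 1 < q) (k : ℕ) : q ^ k + 1 ≤ q ^ (k + 1) := by
  rw [pow_succ]
  have : 0 < q ^ k := by positivity
  nlinarith

theorem fin {q c d e : ℕ} (hq : 1 < q) (hd : 0 < d) (h : d * c ≤ q ^ e) : c < q ^ (e + 1) := by
  have h1 : q ^ e < q ^ (e + 1) := Nat.pow_lt_pow_right hq (by omega)
  have h2 : c ≤ d * c := Nat.le_mul_of_pos_left _ hd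
  omega

section
variable {F : Type*} [Field F] [Fintype F] {p : ℕ} (hp : p.Prime) [CharP F p]
include hp

theorem g2 : Good p (Nat.card (Cfsg.Lie.chevG2.group F)) := by
  obtain ⟨f, hf, hq1⟩ := card_field (F := F) hp
  have h1 := Cfsg.Agent.S1059.result (F := F) rfl
  set q := Fintype.card F with hq
  refine main (N := 6) (e := 6 + 2 + 6 + 1) (d := 1) hp hf hq1 (Nat.coprime_one_left _) ?_ Nat.card_pos ?_ (by norm_num)
  · rw [one_mul, h1, mul_assoc]; exact Dvd.intro _ rfl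
  · refine fin hq1 one_pos ?_
    rw [one_mul, h1]
    have h9 := ub (ub (le_refl (q ^ 6)) (um q 2)) (um q 6)
    exact h9

theorem f4 : Good p (Nat.card (Cfsg.Lie.chevF4.group F)) := by
  obtain ⟨f, hf, hq1⟩ := card_field (F := F) hp
  have h1 := Cfsg.Agent.S1062.result (F := F) rfl
  set q := Fintype.card F with hq
  refine main (N := 24) (e := 24 + 2 + 6 + 8 + 12 + 1) (d := 1) hp hf hq1 (Nat.coprime_one_left _) ?_ Nat.card_pos ?_
    (by norm_num)
  · rw [one_mul, h1]; simp only [mul_assoc]; exact Dvd.intro _ rfl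
  · refine fin hq1 one_pos ?_
    rw [one_mul, h1]
    have h9 := ub (ub (ub (ub (le_refl (q ^ 24)) (um q 2)) (um q 6)) (um q 8)) (um q 12)
    exact h9

theorem e6 : Good p (Nat.card (Cfsg.Lie.chevE6.group F)) := by
  obtain ⟨f, hf, hq1⟩ := card_field (F := F) hp
  have h1 := Cfsg.Agent.S1063.result (F := F) rfl
  set q := Fintype.card F with hq
  refine main (N := 36) (e := 36 + 2 + 5 + 6 + 8 + 9 + 12 + 1) (d := Nat.gcd 3 (q - 1)) hp hf hq1 ?_ ?_ Nat.card_pos ?_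
    (by norm_num)
  · exact coprime_of hp hf hq1 (x := 1) (by rw [pow_one]; exact Nat.gcd_dvd_right _ _) one_ne_zero
  · rw [h1]; simp only [mul_assoc]; exact Dvd.intro _ rfl
  · refine fin hq1 (Nat.gcd_pos_of_pos_left _ (by norm_num)) (h1.trans_le ?_)
    have h9 := ub (ub (ub (ub (ub (ub (le_refl (q ^ 36)) (um q 2)) (um q 5)) (um q 6)) (um q 8)) (um q 9)) (um q 12)
    exact h9

theorem e7 : Good p (Nat.card (Cfsg.Lie.chevE7.group F)) := by
  obtain ⟨f, hf, hq1⟩ := card_field (F := F) hp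
  have h1 := Cfsg.Agent.S1064.result (F := F) rfl
  set q := Fintype.card F with hq
  refine main (N := 63) (e := 63 + 2 + 6 + 8 + 10 + 12 + 14 + 18 + 1) (d := Nat.gcd 2 (q - 1)) hp hf hq1 ?_ ?_
    Nat.card_pos ?_ (by norm_num)
  · exact coprime_of hp hf hq1 (x := 1) (by rw [pow_one]; exact Nat.gcd_dvd_right _ _) one_ne_zero
  · rw [h1]; simp only [mul_assoc]; exact Dvd.intro _ rfl
  · refine fin hq1 (Nat.gcd_pos_of_pos_left _ (by norm_num)) (h1.trans_le ?_)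
    have h9 := ub (ub (ub (ub (ub (ub (ub (le_refl (q ^ 63)) (um q 2)) (um q 6)) (um q 8)) (um q 10)) (um q 12)) (um q 14)) (um q 18)
    exact h9

theorem e8 : Good p (Nat.card (Cfsg.Lie.chevE8.group F)) := by
  obtain ⟨f, hf, hq1⟩ := card_field (F := F) hp
  have h1 := Cfsg.Agent.S1065.result (F := F) rfl
  set q := Fintype.card F with hq
  refine main (N := 120) (e := 120 + 2 + 8 + 12 + 14 + 18 + 20 + 24 + 30 + 1) (d := 1) hp hf hq1
    (Nat.coprime_one_left _) ?_ Nat.card_pos ?_ (by norm_num)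
  · rw [one_mul, h1]; simp only [mul_assoc]; exact Dvd.intro _ rfl
  · refine fin hq1 one_pos ?_
    rw [one_mul, h1]
    have h9 := ub (ub (ub (ub (ub (ub (ub (ub (le_refl (q ^ 120)) (um q 2)) (um q 8)) (um q 12)) (um q 14)) (um q 18)) (um q 20)) (um q 24)) (um q 30)
    exact h9

theorem card_q {q a : ℕ} (ha : a ≠ 0) (hK : Fintype.card F = q ^ a) : ∃ f, q = p ^ f ∧ 1 < q := by
  obtain ⟨f', hf', hq1'⟩ := card_field (F := F) hp
  have hq1 : 1 < q := by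
    by_contra h
    rcases (by omega : q = 0 ∨ q = 1) with rfl | rfl
    · rw [zero_pow ha] at hK; omega
    · rw [one_pow] at hK; omega
  obtain ⟨f, hf⟩ := pow_of hp ha hq1 (hK.symm.trans hf')
  exact ⟨f, hf, hq1⟩

theorem te6 {q : ℕ} (hpp : IsPrimePow q) (hK : Fintype.card F = q ^ 2) : Good p (Nat.card (Cfsg.Lie.twistedE6 F q)) := by
  obtain ⟨f, hf, hq1⟩ := card_q hp two_ne_zero hK
  have h1 := Cfsg.Agent.S1066.result hpp hK
  refine main (N := 36) (e := 36 + 2 + (5 + 1) + 6 + 8 + (9 + 1) + 12 + 1) (d := Nat.gcd 3 (q + 1)) hp hf hq1 ?_ ?_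
    Nat.card_pos ?_ (by norm_num)
  · exact coprime_of' hp hf hq1 (x := 1) (by rw [pow_one]; exact Nat.gcd_dvd_right _ _) one_ne_zero
  · rw [h1]; simp only [mul_assoc]; exact Dvd.intro _ rfl
  · refine fin hq1 (Nat.gcd_pos_of_pos_left _ (by norm_num)) (h1.trans_le ?_)
    have h9 := ub (ub (ub (ub (ub (ub (le_refl (q ^ 36)) (um q 2)) (up hq1 5)) (um q 6)) (um q 8)) (up hq1 9)) (um q 12)
    exact h9

theorem td4 {q : ℕ} (hpp : IsPrimePow q) (hK : Fintype.card F = q ^ 3) : Good p (Nat.card (Cfsg.Lie.twistedD4 F q)) := by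
  obtain ⟨f, hf, hq1⟩ := card_q hp three_ne_zero hK
  have h1 := Cfsg.Agent.S1067.result hpp hK
  refine main (N := 12) (e := 12 + 2 + 6 + 10 + 1) (d := 1) hp hf hq1 (Nat.coprime_one_left _) ?_
    Nat.card_pos ?_ (by norm_num)
  · rw [one_mul, h1]; simp only [mul_assoc]; exact Dvd.intro _ rfl
  · refine fin hq1 one_pos ?_
    rw [one_mul, h1]
    have h9 : q ^ 8 + q ^ 4 + 1 ≤ q ^ 10 := by
      have e1 := up hq1 8
      have e2 : q ^ 4 ≤ q ^ 8 := Nat.pow_le_pow_right (by omega) (by norm_num)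
      have e3 : q ^ 8 + q ^ 9 ≤ q ^ 10 := by
        have e4 : 0 < q ^ 8 := by positivity
        have e5 : q ^ 9 = q * q ^ 8 := by ring
        have e6 : q ^ 10 = q * q * q ^ 8 := by ring
        have e7 : 1 + q ≤ q * q := by nlinarith
        rw [e5, e6]
        calc q ^ 8 + q * q ^ 8 = (1 + q) * q ^ 8 := by ring
          _ ≤ _ := Nat.mul_le_mul_right _ e7
      have e8 : q ^ (8 + 1) = q ^ 9 := rfl
      omega
    have h10 := ub (ub (ub (le_refl (q ^ 12)) (um q 2)) (um q 6)) h9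
    exact h10

end

theorem sz {F : Type*} [Field F] [Fintype F] {m : ℕ} (hm : 1 ≤ m) (hF : Fintype.card F = 2 ^ (2 * m + 1)) :
    Good 2 (Nat.card (Cfsg.Lie.Sz F (2 ^ (m + 1)))) := by
  have h1 := (Cfsg.Agent.S1163.result hm hF).1
  have hq1 : 1 < 2 ^ (2 * m + 1) := Nat.one_lt_pow (by omega) (by norm_num)
  refine main (q := 2 ^ (2 * m + 1)) (N := 2) (e := 5) (d := 1) Nat.prime_two rfl hq1 (Nat.coprime_one_left _) ?_
    Nat.card_pos ?_ (by norm_num)
  · rw [one_mul, h1, mul_assoc]; exact Dvd.intro _ rfl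
  · rw [h1]
    generalize 2 ^ (2 * m + 1) = q at hq1 ⊢
    obtain ⟨a, rfl⟩ := Nat.exists_eq_add_of_lt hq1
    have : 1 + a + 1 - 1 = a + 1 := by omega
    rw [this]
    have e1 : (1 + a + 1) ^ 5 = (1 + a + 1) ^ 2 * (1 + a + 1) ^ 3 := by ring
    rw [e1, mul_assoc]
    refine (Nat.mul_lt_mul_left (by positivity)).mpr ?_
    nlinarith [sq_nonneg a]

theorem ree {F : Type*} [Field F] [Fintype F] {m : ℕ} (hF : Fintype.card F = 3 ^ (2 * m + 1)) :
    Good 3 (Nat.card (Cfsg.Lie.twistedG2 F (3 ^ m))) := by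
  have h1 := Cfsg.Agent.S1069.result hF
  have hq1 : 1 < 3 ^ (2 * m + 1) := Nat.one_lt_pow (by omega) (by norm_num)
  refine main (q := 3 ^ (2 * m + 1)) (N := 3) (e := 7 + 1) (d := 1) Nat.prime_three rfl hq1 (Nat.coprime_one_left _) ?_
    Nat.card_pos ?_ (by norm_num)
  · rw [one_mul, h1, mul_assoc]; exact Dvd.intro _ rfl
  · rw [h1]
    generalize 3 ^ (2 * m + 1) = q at hq1 ⊢
    refine fin (d := 1) hq1 one_pos ?_
    rw [one_mul]
    obtain ⟨a, rfl⟩ := Nat.exists_eq_add_of_lt hq1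
    have : 1 + a + 1 - 1 = a + 1 := by omega
    rw [this]
    have e1 : (1 + a + 1) ^ 7 = (1 + a + 1) ^ 3 * (1 + a + 1) ^ 4 := by ring
    rw [e1, mul_assoc]
    refine Nat.mul_le_mul_left _ ?_
    have e2 : (1 + a + 1) ^ 4 = (a + 1) * (1 + a + 1) ^ 3 + (1 + a + 1) ^ 3 := by ring
    rw [e2, mul_add, mul_one]
    have e3 : a + 1 ≤ (1 + a + 1) ^ 3 := by nlinarith [sq_nonneg a]
    omega

theorem tf4 {K : Type*} [Field K] [Fintype K] {m : ℕ}
    (h1 : Nat.card ↥(Cfsg.Lie.twistedF4 K (2 ^ m)) =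
      (2 ^ (2 * m + 1)) ^ 12 * (2 ^ (2 * m + 1) - 1) * ((2 ^ (2 * m + 1)) ^ 3 + 1) * ((2 ^ (2 * m + 1)) ^ 4 - 1) *
        ((2 ^ (2 * m + 1)) ^ 6 + 1)) :
    Good 2 (Nat.card (Cfsg.Lie.twistedF4 K (2 ^ m))) := by
  have hq1 : 1 < 2 ^ (2 * m + 1) := Nat.one_lt_pow (by omega) (by norm_num)
  refine main (q := 2 ^ (2 * m + 1)) (N := 12) (e := 12 + 1 + (3 + 1) + 4 + (6 + 1) + 1) (d := 1) Nat.prime_two rfl hq1
    (Nat.coprime_one_left _) ?_ Nat.card_pos ?_ (by norm_num)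
  · rw [one_mul, h1]; simp only [mul_assoc]; exact Dvd.intro _ rfl
  · rw [h1]
    generalize 2 ^ (2 * m + 1) = q at hq1 ⊢
    refine fin (d := 1) hq1 one_pos ?_
    rw [one_mul]
    have h0 : q - 1 ≤ q ^ 1 := by rw [pow_one]; exact Nat.sub_le _ _
    have h9 := ub (ub (ub (ub (le_refl (q ^ 12)) (h0)) (up hq1 3)) (um q 4)) (up hq1 6)
    exact h9

theorem good_congr {p : ℕ} {G H : Type*} [Group G] [Group H] (e : G ≃* H) (h : Good p (Nat.card H)) :
    Good p (Nat.card G) := by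
  rw [Nat.card_congr e.toEquiv]; exact h

/-- the result, given the order of `²F₄` -/
theorem result (hF4 : ∀ (K : Type) [Field K] [Fintype K] (m : ℕ), Fintype.card K = 2 ^ (2 * m + 1) →
      Nat.card ↥(Cfsg.Lie.twistedF4 K (2 ^ m)) =
      (2 ^ (2 * m + 1)) ^ 12 * (2 ^ (2 * m + 1) - 1) * ((2 ^ (2 * m + 1)) ^ 3 + 1) * ((2 ^ (2 * m + 1)) ^ 4 - 1) *
        ((2 ^ (2 * m + 1)) ^ 6 + 1)) {G : Type*} [Group G] [Finite G] (p : ℕ) (hp : p.Prime) (hG : Cfsg.IsLieTypeChar p G) :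
    Nat.card G < p ^ (3 * (Nat.card G).factorization p) ∧
      ((¬ ∃ (F : Type) (_ : Field F) (_ : Fintype F), Fintype.card F = p ^ (Nat.card G).factorization p ∧
          Nonempty (G ≃* Matrix.ProjectiveSpecialLinearGroup (Fin 2) F)) →
        Nat.card G ^ 3 < p ^ (8 * (Nat.card G).factorization p)) := by
  by_cases h2 : ∃ (F : Type) (_ : Field F) (_ : Fintype F) (_ : CharP F p),
    Nonempty (G ≃* Matrix.ProjectiveSpecialLinearGroup (Fin 2) F)
  · obtain ⟨F, _, _, _, ⟨e⟩⟩ := h2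
    have h3 := psl_two (F := F) hp
    rw [Nat.card_congr e.toEquiv]
    exact ⟨h3.1, fun h => absurd ⟨F, _, _, h3.2, ⟨e⟩⟩ h⟩
  suffices h : Good p (Nat.card G) from ⟨h.1, fun _ => h.2⟩
  rcases hG with h | h | h | h | h | h | h | h | ⟨rfl, h⟩ | ⟨rfl, h⟩ | ⟨rfl, h⟩
  · obtain ⟨F, iF, iT, iC, n, hn, _, ⟨e⟩⟩ := h
    rcases Nat.lt_or_ge n 3 with h3 | h3
    · have h4 : n = 2 := by omega
      subst h4
      exact absurd ⟨F, iF, iT, iC, ⟨e⟩⟩ h2
    · exact good_congr e (psl hp h3)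
  · obtain ⟨F, _, _, _, m, hm, _, ⟨e⟩⟩ := h
    exact good_congr e (psp hp hm)
  · obtain ⟨F, _, _, _, n, q, hq, hn, _, ⟨e⟩⟩ := h
    exact good_congr e (psu hp hq hn)
  · obtain ⟨F, _, _, _, m, hm, ho, ⟨e⟩⟩ := h
    exact good_congr e (omegaOdd hp hm ho)
  · obtain ⟨F, _, _, _, m, hm, ⟨e⟩⟩ := h
    exact good_congr e (omegaPlus hp hm)
  · obtain ⟨F, _, _, _, m, a, b, hm, hab, ⟨e⟩⟩ := h
    exact good_congr e (omegaMinus hp hm a b hab)
  · obtain ⟨F, _, _, _, h⟩ := h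
    rcases h with ⟨_, ⟨e⟩⟩ | ⟨⟨e⟩⟩ | ⟨⟨e⟩⟩ | ⟨⟨e⟩⟩ | ⟨⟨e⟩⟩
    · exact good_congr e (g2 hp)
    · exact good_congr e (f4 hp)
    · exact good_congr e (e6 hp)
    · exact good_congr e (e7 hp)
    · exact good_congr e (e8 hp)
  · obtain ⟨K, _, _, _, q, hq, h⟩ := h
    rcases h with ⟨hK, ⟨e⟩⟩ | ⟨hK, ⟨e⟩⟩
    · exact good_congr e (te6 hp hq hK)
    · exact good_congr e (td4 hp hq hK)
  · obtain ⟨F, _, _, m, hm, hF, ⟨e⟩⟩ := h
    exact good_congr e (sz hm hF)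
  · obtain ⟨F, _, _, m, hm, hF, ⟨e⟩⟩ := h
    exact good_congr e (tf4 (hF4 F m hF))
  · obtain ⟨F, _, _, m, hm, hF, ⟨e⟩⟩ := h
    exact good_congr e (ree hF)

end H44.LieOrd
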