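import Mathlib

/-! Normal sets of involutions whose products have order `1`, `2` or `p`. -/

set_option autoImplicit false

namespace H44.PT

universe u

variable {G : Type u} [Group G]

/-- a normal set of `p`-transpositions (the identity is allowed) -/
structure PTr (p : ℕ) (D : Set G) : Prop where
  sq : ∀ d ∈ D, d * d = 1
  prod : ∀ d ∈ D, ∀ e ∈ D, (d * e) ^ 2 = 1 ∨ (d * e) ^ p = 1
  conj : ∀ d ∈ D, ∀ g : G, g * d * g⁻¹ ∈ D

theorem eq_one_of_sq_of_odd {x : G} (h2 : x * x = 1) {n : ℕ} (hn : Odd n) (h : x ^ n = 1) :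
    x = 1 := by
  obtain ⟨k, rfl⟩ := hn
  rw [pow_add, pow_mul, pow_two, h2, one_pow, one_mul, pow_one] at h
  exact h

theorem inv_eq {x : G} (h : x * x = 1) : x⁻¹ = x := inv_eq_of_mul_eq_one_left h

theorem comm_iff {x y : G} (hx : x * x = 1) (hy : y * y = 1) : (x * y) ^ 2 = 1 ↔ Commute x y := by
  have hx' := inv_eq hx
  have hy' := inv_eq hy
  constructor
  · intro h
    rw [pow_two] at h
    have h1 : x * y = (x * y)⁻¹ := eq_inv_of_mul_eq_one_left h
    rw [mul_inv_rev, hx', hy'] at h1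
    exact h1
  · intro h
    rw [h.mul_pow, pow_two, pow_two, hx, hy, mul_one]

theorem eq_one_of_sq_comm {x u : G} (hu : Commute x u) {n : ℕ} (hn : Odd n) (h : u ^ n = 1)
    (hi : x * u * x = u⁻¹) (hx : x * x = 1) : u = 1 := by
  refine eq_one_of_sq_of_odd ?_ hn h
  have h1 : x * u * x = u := by rw [hu.eq, mul_assoc, hx, mul_one]
  rw [h1] at hi
  nth_rewrite 1 [hi]
  exact inv_mul_cancel u

/-- roots of elements of odd order -/
theorem exists_root {u : G} {n : ℕ} (hn : Odd n) (h : u ^ n = 1) : ∃ k : ℕ, (u ^ k) * (u ^ k) = u := by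
  obtain ⟨k, rfl⟩ := hn
  refine ⟨k + 1, ?_⟩
  rw [← pow_add]
  have : k + 1 + (k + 1) = (2 * k + 1) + 1 := by ring
  rw [this, pow_succ, h, one_mul]

theorem conj_pow' {x u : G} (hx : x * x = 1) (hi : x * u * x = u⁻¹) (k : ℕ) :
    x * u ^ k * x = (u ^ k)⁻¹ := by
  have hx' := inv_eq hx
  have h1 := conj_pow (i := k) (a := x) (b := u)
  rw [hx', hi, inv_pow] at h1
  exact h1.symm

theorem conj_zpow' {x u : G} (hx : x * x = 1) (hi : x * u * x = u⁻¹) (k : ℤ) :
    x * u ^ k * x = (u ^ k)⁻¹ := by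
  have hx' := inv_eq hx
  have h1 := conj_zpow (i := k) (a := x) (b := u)
  rw [hx', hi, inv_zpow] at h1
  exact h1.symm

theorem inv_mul_left {x b : G} (hx : x * x = 1) (hb : b * b = 1) : x * (x * b) * x = (x * b)⁻¹ := by
  rw [mul_inv_rev, inv_eq hx, inv_eq hb, ← mul_assoc, hx, one_mul]

theorem inv_mul_right {x b : G} (hx : x * x = 1) (hb : b * b = 1) :
    b * (x * b) * b = (x * b)⁻¹ := by
  rw [mul_inv_rev, inv_eq hx, inv_eq hb, mul_assoc, mul_assoc, hb, mul_one]

namespace PTr

variable {p : ℕ} {D : Set G}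

theorem pow_of_not_comm (h : PTr p D) {x y : G} (hx : x ∈ D) (hy : y ∈ D) (hc : ¬ Commute x y) :
    (x * y) ^ p = 1 :=
  (h.prod x hx y hy).resolve_left fun h1 => hc ((comm_iff (h.sq x hx) (h.sq y hy)).mp h1)

theorem conj' (h : PTr p D) {x d : G} (hx : x ∈ D) (hd : d ∈ D) : d * x * d ∈ D := by
  have h1 := h.conj x hx d
  rwa [inv_eq (h.sq d hd)] at h1

/-- `x v ∈ D` if `x` inverts `v` of odd order -/
theorem mul_mem (h : PTr p D) {x v : G} (hx : x ∈ D) (hi : x * v * x = v⁻¹) {n : ℕ}
    (hn : Odd n) (hv : v ^ n = 1) : x * v ∈ D := by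
  have hxx := h.sq x hx
  obtain ⟨k, hk⟩ := exists_root hn hv
  have h1 := conj_pow' hxx hi k
  have h2 := h.conj x hx (v ^ k)⁻¹
  have h3 : (v ^ k)⁻¹ * x * ((v ^ k)⁻¹)⁻¹ = x * v := by
    rw [inv_inv, ← h1]
    calc x * v ^ k * x * x * v ^ k = x * v ^ k * (x * x) * v ^ k := by group
      _ = x * (v ^ k * v ^ k) := by rw [hxx]; group
      _ = x * v := by rw [hk]
  rwa [h3] at h2

theorem mul_zpow_mem (h : PTr p D) {x v : G} (hx : x ∈ D) (hi : x * v * x = v⁻¹) {n : ℕ}
    (hn : Odd n) (hv : v ^ n = 1) (j : ℤ) : x * v ^ j ∈ D := by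
  refine h.mul_mem hx (conj_zpow' (h.sq x hx) hi j) hn ?_
  rw [← zpow_natCast, ← zpow_mul, mul_comm, zpow_mul, zpow_natCast, hv, one_zpow]

/-- no nontrivial element of odd order is inverted by two commuting distinct members -/
theorem no_common (h : PTr p D) (hp : Odd p) {x a u : G} (hx : x ∈ D) (ha : a ∈ D)
    (hc : Commute x a) (hne : x ≠ a) (h1 : x * u * x = u⁻¹) (h2 : a * u * a = u⁻¹) {n : ℕ}
    (hn : Odd n) (hu : u ^ n = 1) : u = 1 := by
  have hxx := h.sq x hx
  have haa := h.sq a ha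
  have hxu : x * u ∈ D := h.mul_mem hx h1 hn hu
  have htt : (x * a) * (x * a) = 1 := by
    have := (comm_iff hxx haa).mpr hc
    rwa [pow_two] at this
  have htu : Commute (x * a) u := by
    change x * a * u = u * (x * a)
    have h3 : a * u = u⁻¹ * a := by rw [← h2, mul_assoc, haa, mul_one]
    have h4 : x * u⁻¹ = u * x := by
      rw [← h1]
      calc x * (x * u * x) = (x * x) * u * x := by group
        _ = u * x := by rw [hxx, one_mul]
    rw [mul_assoc, h3, ← mul_assoc, h4, mul_assoc]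
  have hne' : x * a ≠ 1 := by
    intro h5
    apply hne
    rw [← inv_eq haa]
    exact eq_inv_of_mul_eq_one_left h5
  have heq : a * (x * u) = (x * a) * u := by rw [← mul_assoc, hc.eq]
  rcases h.prod a ha _ hxu with h5 | h5
  · rw [heq, htu.mul_pow, pow_two, htt, one_mul, pow_two] at h5
    exact eq_one_of_sq_of_odd h5 hn hu
  · exfalso
    apply hne'
    rw [heq] at h5
    refine eq_one_of_sq_of_odd htt (hp.mul hn) ?_
    have h6 : ((x * a) * u) ^ (p * n) = 1 := by rw [pow_mul, h5, one_pow]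
    rw [htu.mul_pow, mul_comm p n, pow_mul u, hu, one_pow, mul_one, mul_comm n p] at h6
    exact h6

/-- `C_D(xa) = C_D(x) ∩ C_D(a)` for commuting `x`, `a` -/
theorem comm_of_mul (h : PTr p D) (hp : Odd p) {x a y : G} (hx : x ∈ D) (ha : a ∈ D)
    (hy : y ∈ D) (hc : Commute x a) (hne : x ≠ a) (hya : Commute y (x * a)) : Commute y x := by
  by_contra hcon
  have hxx := h.sq x hx
  have haa := h.sq a ha
  have hyy := h.sq y hy
  have hpow := h.pow_of_not_comm hy hx hcon
  have hx' : y * x * y ∈ D := h.conj' hx hy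
  have ha' : y * a * y ∈ D := h.conj' ha hy
  have h3 : (y * x * y) * (y * a * y) = x * a := by
    calc (y * x * y) * (y * a * y) = y * x * (y * y) * a * y := by group
      _ = y * (x * a) * y := by rw [hyy]; group
      _ = x * a := by rw [hya.eq, mul_assoc, hyy, mul_one]
  have h4 : (y * a * y) * a = (y * x * y) * x := by
    calc (y * a * y) * a = 1 * (y * a * y) * a := by group
      _ = (y * x * y) * ((y * x * y) * (y * a * y)) * a := by rw [← h.sq _ hx']; group
      _ = (y * x * y) * (x * a) * a := by rw [h3]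
      _ = (y * x * y) * x * (a * a) := by group
      _ = (y * x * y) * x := by rw [haa, mul_one]
  have h5 : x * ((y * x * y) * x) * x = ((y * x * y) * x)⁻¹ := inv_mul_right (h.sq _ hx') hxx
  have h6 : a * ((y * x * y) * x) * a = ((y * x * y) * x)⁻¹ := by
    rw [← h4]
    exact inv_mul_right (h.sq _ ha') haa
  have h7 : (y * x * y) * x = (y * x) ^ 2 := by rw [pow_two]; group
  have h8 : ((y * x * y) * x) ^ p = 1 := by
    rw [h7, ← pow_mul, mul_comm, pow_mul, hpow, one_pow]
  have h9 := h.no_common hp hx ha hc hne h5 h6 hp h8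
  rw [h7] at h9
  exact hcon ((comm_iff hyy hxx).mp h9)

theorem comm_of_mul' (h : PTr p D) (hp : Odd p) {x a y : G} (hx : x ∈ D) (ha : a ∈ D)
    (hy : y ∈ D) (hc : Commute x a) (hne : x ≠ a) (hya : Commute y (x * a)) : Commute y a := by
  rw [hc.eq] at hya
  exact h.comm_of_mul hp ha hx hy hc.symm (Ne.symm hne) hya

/-- a member centralising `u` commutes with every member inverting `u` -/
theorem comm_of_cent (h : PTr p D) (hp : Odd p) {d x u : G} (hd : d ∈ D) (hx : x ∈ D)
    (hdu : Commute d u) (hi : x * u * x = u⁻¹) {n : ℕ} (hn : Odd n) (hu : u ^ n = 1)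
    (hu1 : u ≠ 1) : Commute d x := by
  by_contra hcon
  have hxx := h.sq x hx
  have hpow := h.pow_of_not_comm hd hx hcon
  have h1 : (d * x) * u * (d * x)⁻¹ = u⁻¹ := by
    rw [mul_inv_rev, inv_eq hxx]
    calc d * x * u * (x * d⁻¹) = d * (x * u * x) * d⁻¹ := by group
      _ = u⁻¹ := by rw [hi, hdu.inv_right.eq, mul_inv_cancel_right]
  have h2 : Commute ((d * x) * (d * x)) u := by
    have h3 : (d * x) * (d * x) * u * ((d * x) * (d * x))⁻¹ = u := by
      calc (d * x) * (d * x) * u * ((d * x) * (d * x))⁻¹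
          = (d * x) * ((d * x) * u * (d * x)⁻¹) * (d * x)⁻¹ := by group
        _ = (d * x) * u⁻¹ * (d * x)⁻¹ := by rw [h1]
        _ = ((d * x) * u * (d * x)⁻¹)⁻¹ := by group
        _ = u := by rw [h1, inv_inv]
    exact mul_inv_eq_iff_eq_mul.mp h3
  obtain ⟨k, hk⟩ := hp
  have h4 : d * x = (((d * x) * (d * x)) ^ k)⁻¹ := by
    rw [eq_inv_iff_mul_eq_one, ← pow_two, ← pow_mul, ← pow_succ', ← hk, hpow]
  have h5 : Commute (d * x) u := by
    rw [h4]
    exact (h2.pow_left k).inv_left
  rw [h5.eq, mul_inv_cancel_right] at h1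
  apply hu1
  refine eq_one_of_sq_of_odd ?_ hn hu
  nth_rewrite 1 [h1]
  exact inv_mul_cancel u

/-- the midpoint -/
theorem exists_mid (h : PTr p D) (hp : Odd p) {x b : G} (hx : x ∈ D) (hb : b ∈ D)
    (hc : (x * b) ^ p = 1) : ∃ d ∈ D, d * x * d = b := by
  have hxx := h.sq x hx
  have hbb := h.sq b hb
  obtain ⟨k, hk⟩ := exists_root hp hc
  have hi := inv_mul_left hxx hbb
  have h1 := conj_pow' hxx hi k
  have h2 := h.mul_mem hx h1 hp (by rw [← pow_mul, mul_comm, pow_mul, hc, one_pow])
  refine ⟨_, h2, ?_⟩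
  calc x * (x * b) ^ k * x * (x * (x * b) ^ k)
      = x * (x * b) ^ k * (x * x) * (x * b) ^ k := by group
    _ = x * ((x * b) ^ k * (x * b) ^ k) := by rw [hxx]; group
    _ = x * x * b := by rw [hk]; group
    _ = b := by rw [hxx, one_mul]

theorem mid_unique (h : PTr p D) (hp : Odd p) {x d e : G} (hx : x ∈ D) (hd : d ∈ D) (he : e ∈ D)
    (hde : d * x * d = e * x * e) (hc : ¬ Commute x d) (hc' : ¬ Commute x e) : d = e := by
  have h1 := h.pow_of_not_comm hx hd hc
  have h2 := h.pow_of_not_comm hx he hc'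
  have h3 : (x * d) * (x * d) = (x * e) * (x * e) := by
    calc (x * d) * (x * d) = x * (d * x * d) := by group
      _ = x * (e * x * e) := by rw [hde]
      _ = _ := by group
  obtain ⟨k, hk⟩ := hp
  have h4 : ∀ y : G, y ^ p = 1 → y = (y * y) ^ (k + 1) := by
    intro y hy
    rw [← pow_two, ← pow_mul]
    have : 2 * (k + 1) = p + 1 := by omega
    rw [this, pow_succ, hy, one_mul]
  have h5 : x * d = x * e := by rw [h4 _ h1, h4 _ h2, h3]
  exact mul_left_cancel h5

/-- no member maps a member to a commuting different one -/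
theorem comm_of_conj (h : PTr p D) (hp : Odd p) {x d : G} (hx : x ∈ D) (hd : d ∈ D)
    (hc : Commute x (d * x * d)) : Commute x d := by
  by_contra hcon
  have h1 := h.pow_of_not_comm hx hd hcon
  have h2 := (comm_iff (h.sq x hx) (h.sq _ (h.conj' hx hd))).mpr hc
  have h3 : x * (d * x * d) = (x * d) * (x * d) := by group
  rw [h3] at h2
  have h4 : (x * d) * (x * d) = 1 := by
    refine eq_one_of_sq_of_odd ?_ hp ?_
    · rw [← pow_two]; exact h2
    · rw [← pow_two, ← pow_mul, mul_comm, pow_mul, h1, one_pow]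
  rw [← pow_two] at h4
  exact hcon ((comm_iff (h.sq x hx) (h.sq d hd)).mp h4)

end PTr

theorem comm_of_coprime {u t : G} {m n : ℕ} (hc : Commute (u ^ m) t) (hn : u ^ n = 1)
    (hmn : Nat.Coprime m n) : Commute u t := by
  have h1 : (1 : ℤ) = m * Nat.gcdA m n + n * Nat.gcdB m n := by
    rw [← Nat.gcd_eq_gcd_ab, hmn.gcd_eq_one]
    rfl
  have h2 : u = (u ^ m) ^ (Nat.gcdA m n) := by
    calc u = u ^ (1 : ℤ) := (zpow_one u).symm
      _ = u ^ ((m : ℤ) * Nat.gcdA m n + n * Nat.gcdB m n) := by rw [← h1]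
      _ = (u ^ m) ^ (Nat.gcdA m n) * (u ^ n) ^ (Nat.gcdB m n) := by
          rw [zpow_add, zpow_mul, zpow_mul, zpow_natCast, zpow_natCast]
      _ = _ := by rw [hn, one_zpow, mul_one]
  rw [h2]
  exact hc.zpow_left _

namespace PTr

variable {p : ℕ} {D : Set G}

theorem mul_ne_one_of_ne (h : PTr p D) {x a : G} (ha : a ∈ D) (hne : x ≠ a) : x * a ≠ 1 := by
  intro h5
  apply hne
  rw [← inv_eq (h.sq a ha)]
  exact eq_inv_of_mul_eq_one_left h5

theorem mul_sq (h : PTr p D) {x a : G} (hx : x ∈ D) (ha : a ∈ D) (hc : Commute x a) :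
    (x * a) * (x * a) = 1 := by
  have := (comm_iff (h.sq x hx) (h.sq a ha)).mpr hc
  rwa [pow_two] at this

theorem not_comm_root (h : PTr p D) (hp : Odd p) {x a b : G} (hx : x ∈ D) (ha : a ∈ D)
    (hb : b ∈ D) (hc : Commute x a) (hne : x ≠ a) (hxb : ¬ Commute x b) (hab : ¬ Commute a b) :
    ¬ Commute (x * b) (x * a) := by
  intro hcon
  have h1 : a * b = (x * a) * (x * b) := by
    rw [hc.eq]
    calc a * b = a * 1 * b := by group
      _ = a * x * (x * b) := by rw [← h.sq x hx]; group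
  have h2 := h.pow_of_not_comm ha hb hab
  rw [h1, hcon.symm.mul_pow, h.pow_of_not_comm hx hb hxb, mul_one] at h2
  exact h.mul_ne_one_of_ne ha hne (eq_one_of_sq_of_odd (h.mul_sq hx ha hc) hp h2)

/-- the quadruple -/
theorem quad (h : PTr p D) (hp : Odd p) (h3 : Nat.Coprime 3 p) {x a b : G} (hx : x ∈ D)
    (ha : a ∈ D) (hb : b ∈ D) (hc : Commute x a) (hne : x ≠ a) (hxb : ¬ Commute x b)
    (hab : ¬ Commute a b)
    (hT : ∀ j : ℤ, Commute (x * a) ((x * b) ^ j * (x * a) * ((x * b) ^ j)⁻¹))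
    {s : G} (hs : s = (x * b) * (x * a) * (x * b)⁻¹) :
    Commute x (s * x * s) ∧ Commute a (s * x * s) ∧ (s * x * s) * (s * a * s) = x * a ∧
      s * x * s ≠ x ∧ s * x * s ≠ a := by
  have hxx := h.sq x hx
  have haa := h.sq a ha
  have hbb := h.sq b hb
  have htt := h.mul_sq hx ha hc
  have hup := h.pow_of_not_comm hx hb hxb
  have hi := inv_mul_left hxx hbb
  have hut := h.not_comm_root hp hx ha hb hc hne hxb hab
  have hxt : Commute x (x * a) := (Commute.refl x).mul_right hc
  have hat : a = x * (x * a) := by rw [← mul_assoc, hxx, one_mul]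
  set t := x * a with ht
  set u := x * b with hu
  set s' := u⁻¹ * t * u with hs'
  have hxtx : x * t * x = t := by rw [hxt.eq, mul_assoc, hxx, mul_one]
  have hxux : x * u⁻¹ * x = u := by
    rw [← hi]
    calc x * (x * u * x) * x = (x * x) * u * (x * x) := by group
      _ = u := by rw [hxx]; group
  have hss : s * s = 1 := by
    rw [hs]
    calc u * t * u⁻¹ * (u * t * u⁻¹) = u * (t * t) * u⁻¹ := by group
      _ = 1 := by rw [htt]; group
  have hss2 : s' * s' = 1 := by
    rw [hs']
    calc u⁻¹ * t * u * (u⁻¹ * t * u) = u⁻¹ * (t * t) * u := by group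
      _ = 1 := by rw [htt]; group
  have hxs : x * s * x = s' := by
    rw [hs, hs']
    calc x * (u * t * u⁻¹) * x = x * u * 1 * t * 1 * u⁻¹ * x := by group
      _ = x * u * (x * x) * t * (x * x) * u⁻¹ * x := by rw [hxx]
      _ = (x * u * x) * (x * t * x) * (x * u⁻¹ * x) := by group
      _ = _ := by rw [hi, hxtx, hxux]
  have hxs' : x * s' * x = s := by
    rw [← hxs]
    calc x * (x * s * x) * x = (x * x) * s * (x * x) := by group
      _ = s := by rw [hxx]; group
  have hts : Commute t s := by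
    have := hT 1
    rwa [zpow_one, ← hs] at this
  have hts' : Commute t s' := by
    have := hT (-1)
    rwa [zpow_neg, zpow_one, inv_inv, ← hs'] at this
  have hcs : Commute s s' := by
    have h1 := (hT 2).map (MulAut.conj u⁻¹)
    have h2 : (MulAut.conj u⁻¹) t = s' := by
      rw [MulAut.conj_apply, inv_inv]
    have h3 : (MulAut.conj u⁻¹) (u ^ (2 : ℤ) * t * (u ^ (2 : ℤ))⁻¹) = s := by
      rw [MulAut.conj_apply, inv_inv, hs]
      group
    rw [h2, h3] at h1
    exact h1.symm
  have ha2 : s * x * s = s * s' * x := by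
    rw [← hxs]
    calc s * x * s = s * x * s * 1 := by group
      _ = s * x * s * (x * x) := by rw [hxx]
      _ = _ := by group
  have hxe : Commute x (s * s') := by
    have h1 : x * (s * s') * x = s * s' := by
      calc x * (s * s') * x = x * s * 1 * s' * x := by group
        _ = x * s * (x * x) * s' * x := by rw [hxx]
        _ = (x * s * x) * (x * s' * x) := by group
        _ = s * s' := by rw [hxs, hxs', hcs.eq]
    calc x * (s * s') = x * (s * s') * (x * x) := by rw [hxx, mul_one]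
      _ = (x * (s * s') * x) * x := by group
      _ = (s * s') * x := by rw [h1]
  have hae : Commute a (s * s') := by
    rw [hat]
    exact hxe.mul_left (hts.mul_right hts')
  refine ⟨?_, ?_, ?_, ?_, ?_⟩
  · rw [ha2]
    exact hxe.mul_right (Commute.refl x)
  · rw [ha2]
    exact hae.mul_right hc.symm
  · calc (s * x * s) * (s * a * s) = s * x * (s * s) * a * s := by group
      _ = s * (x * a) * s := by rw [hss]; group
      _ = s * t * s := rfl
      _ = t := by rw [← hts.eq, mul_assoc, hss, mul_one]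
  · intro h1
    rw [ha2] at h1
    have h2 : s * s' = 1 := by
      have := mul_eq_right.mp h1
      exact this
    have h4 : s = s' := by
      rw [← inv_eq hss2]
      exact eq_inv_of_mul_eq_one_left h2
    rw [hs, hs'] at h4
    have h5 : Commute (u ^ 2) t := by
      change u ^ 2 * t = t * u ^ 2
      calc u ^ 2 * t = u * (u * t * u⁻¹) * u := by rw [pow_two]; group
        _ = u * (u⁻¹ * t * u) * u := by rw [h4]
        _ = t * u ^ 2 := by rw [pow_two]; group
    exact hut (comm_of_coprime h5 hup (Nat.coprime_two_left.mpr hp))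
  · intro h1
    rw [ha2] at h1
    have h2 : s * s' = t := by
      have h4 : s * s' * x = t * x := by rw [h1, hat, hxt.eq]
      exact mul_right_cancel h4
    -- conjugates
    have h4 : (u * s * u⁻¹) * t = s := by
      calc (u * s * u⁻¹) * t = u * (s * s') * u⁻¹ := by rw [hs']; group
        _ = u * t * u⁻¹ := by rw [h2]
        _ = s := hs.symm
    have h5 : u * s * u⁻¹ = s * t := by
      calc u * s * u⁻¹ = u * s * u⁻¹ * (t * t) := by rw [htt, mul_one]
        _ = (u * s * u⁻¹ * t) * t := by group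
        _ = s * t := by rw [h4]
    have h6 : u * (u * s * u⁻¹) * u⁻¹ = t := by
      rw [h5]
      calc u * (s * t) * u⁻¹ = (u * s * u⁻¹) * (u * t * u⁻¹) := by group
        _ = (s * t) * s := by rw [h5, ← hs]
        _ = t := by rw [mul_assoc, hts.eq, ← mul_assoc, hss, one_mul]
    have h7 : Commute (u ^ 3) t := by
      have h8 : u ^ 3 * t * (u ^ 3)⁻¹ = u * (u * (u * t * u⁻¹) * u⁻¹) * u⁻¹ := by
        rw [pow_succ, pow_two]
        simp only [mul_inv_rev, mul_assoc]
      rw [← hs, h6] at h8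
      exact mul_inv_eq_iff_eq_mul.mp h8
    exact hut (comm_of_coprime h7 hup h3)

end PTr

end H44.PT
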