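import Cfsg.Agent.Lib.H44.PT1
import Cfsg.Agent.Lib.H55.BaerSuzuki
import Cfsg.Agent.Lib.H1.Cores
import Cfsg.Agent.Lib.H2.Solv

/-! The solvable case: commuting members are congruent modulo `O_2`. -/

set_option autoImplicit false

namespace H44.PT

universe u

open Cfsg

theorem eq_one_of_coprime_pow {G : Type*} [Group G] {x : G} {m n : ℕ} (hm : x ^ m = 1)
    (hn : x ^ n = 1) (hc : Nat.Coprime m n) : x = 1 := by
  have h1 := Nat.dvd_gcd (orderOf_dvd_of_pow_eq_one hm) (orderOf_dvd_of_pow_eq_one hn)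
  rw [hc.gcd_eq_one, Nat.dvd_one, orderOf_eq_one_iff] at h1
  exact h1

namespace PTr

variable {p : ℕ}

theorem map {G G' : Type*} [Group G] [Group G'] {D : Set G} (h : PTr p D) (f : G →* G')
    (hf : Function.Surjective f) : PTr p (f '' D) where
  sq := by
    rintro _ ⟨d, hd, rfl⟩
    rw [← map_mul, h.sq d hd, map_one]
  prod := by
    rintro _ ⟨d, hd, rfl⟩ _ ⟨e, he, rfl⟩
    rw [← map_mul, ← map_pow, ← map_pow]
    rcases h.prod d hd e he with h1 | h1
    · left; rw [h1, map_one]
    · right; rw [h1, map_one]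
  conj := by
    rintro _ ⟨d, hd, rfl⟩ g
    obtain ⟨g, rfl⟩ := hf g
    exact ⟨g * d * g⁻¹, h.conj d hd g, by simp⟩

variable {G : Type u} [Group G] {D : Set G}

theorem hT_of (h : PTr p D) {x a b : G} (hx : x ∈ D) (ha : a ∈ D) (hb : b ∈ D)
    (hc : Commute x a)
    (H : ∀ j : ℤ, Commute (x * a) ((x * (x * b) ^ j) * (x * a) * (x * (x * b) ^ j))) (j : ℤ) :
    Commute (x * a) ((x * b) ^ j * (x * a) * ((x * b) ^ j)⁻¹) := by
  have hxx := h.sq x hx
  have hi := conj_zpow' hxx (inv_mul_left hxx (h.sq b hb)) j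
  have hxt : Commute x (x * a) := (Commute.refl x).mul_right hc
  have h1 := (H j).map (MulAut.conj x)
  have h2 : (MulAut.conj x) (x * a) = x * a := by
    rw [MulAut.conj_apply, inv_eq hxx, hxt.eq, mul_assoc, hxx, mul_one]
  have h3 : (MulAut.conj x) ((x * (x * b) ^ j) * (x * a) * (x * (x * b) ^ j)) =
      (x * b) ^ j * (x * a) * ((x * b) ^ j)⁻¹ := by
    rw [MulAut.conj_apply, inv_eq hxx, ← hi]
    calc x * (x * (x * b) ^ j * (x * a) * (x * (x * b) ^ j)) * x
        = (x * x) * (x * b) ^ j * (x * a) * (x * (x * b) ^ j * x) := by group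
      _ = _ := by rw [hxx, one_mul]
  rwa [h2, h3] at h1

theorem comm_of_two_pow (h : PTr p D) (hp : Odd p) {t d : G} (htt : t * t = 1) (hd : d ∈ D)
    {k : ℕ} (hk : (t * (d * t * d)) ^ (2 ^ k) = 1) : Commute t (d * t * d) := by
  have hdd := h.sq d hd
  have h1 : t * d * t⁻¹ ∈ D := h.conj d hd t
  have h2 : t * (d * t * d) = (t * d * t⁻¹) * d := by rw [inv_eq htt]; group
  have h3 : (d * t * d) * (d * t * d) = 1 := by
    calc (d * t * d) * (d * t * d) = d * t * (d * d) * t * d := by group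
      _ = d * (t * t) * d := by rw [hdd]; group
      _ = 1 := by rw [htt, mul_one, hdd]
  rw [← comm_iff htt h3, h2]
  rcases h.prod _ h1 d hd with h4 | h4
  · exact h4
  · rw [h2] at hk
    rw [eq_one_of_coprime_pow hk h4 (Nat.Coprime.pow_left _ (Nat.coprime_two_left.mpr hp)),
      one_pow]

theorem lift_comm (h : PTr p D) (hp : Odd p) {G' : Type*} [Group G'] (f : G →* G') {y z : G}
    (hy : y ∈ D) (hz : z ∈ D) (hc : Commute (f y) (f z)) (hne : f y ≠ f z) : Commute y z := by
  have hyy := h.sq y hy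
  have hzz := h.sq z hz
  have h1 : f y * f y = 1 := by rw [← map_mul, hyy, map_one]
  have h2 : f z * f z = 1 := by rw [← map_mul, hzz, map_one]
  rcases h.prod y hy z hz with h3 | h3
  · exact (comm_iff hyy hzz).mp h3
  · exfalso
    have h4 : (f y * f z) ^ p = 1 := by rw [← map_mul, ← map_pow, h3, map_one]
    have h5 := (comm_iff h1 h2).mpr hc
    rw [pow_two] at h5
    have h6 := eq_one_of_sq_of_odd h5 hp h4
    apply hne
    rw [← inv_eq h2]
    exact eq_inv_of_mul_eq_one_left h6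

theorem cent_N (h : PTr p D) (hp : Odd p) {x a a₂ a₃ : G} (hx : x ∈ D) (ha : a ∈ D)
    (ha₂ : a₂ ∈ D) (ha₃ : a₃ ∈ D) (h1 : Commute x a) (h2 : Commute x a₂) (h3 : Commute x a₃)
    (n1 : x ≠ a) (n2 : x ≠ a₂) (n3 : x ≠ a₃) (hprod : a * a₂ * a₃ = x)
    {N : Subgroup G} [hN : N.Normal] (hab : ∀ c ∈ N, ∀ d ∈ N, c * d = d * c)
    (hodd : ∀ c ∈ N, ∃ n, Odd n ∧ c ^ n = 1) {c : G} (hc : c ∈ N) : x * c * x = c := by
  have hxx := h.sq x hx
  have conjN : ∀ y ∈ D, ∀ c ∈ N, y * c * y ∈ N := by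
    intro y hy c hc
    have := hN.conj_mem c hc y
    rwa [inv_eq (h.sq y hy)] at this
  have key : ∀ y ∈ D, ∀ c : G, y * (c⁻¹ * (y * c * y)) * y = (c⁻¹ * (y * c * y))⁻¹ := by
    intro y hy c
    have hyy := h.sq y hy
    calc y * (c⁻¹ * (y * c * y)) * y = y * c⁻¹ * y * c * (y * y) := by group
      _ = y * c⁻¹ * y * c := by rw [hyy, mul_one]
      _ = _ := by simp only [mul_inv_rev, inv_inv, inv_eq hyy, mul_assoc]
  set f := c⁻¹ * (x * c * x) with hf
  have hfN : f ∈ N := N.mul_mem (N.inv_mem hc) (conjN x hx c hc)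
  have hxf : x * f * x = f⁻¹ := key x hx c
  have fix : ∀ y ∈ D, Commute x y → x ≠ y → y * f * y = f := by
    intro y hy hxy hne
    have hyy := h.sq y hy
    set g := f⁻¹ * (y * f * y) with hg
    have hyf := conjN y hy f hfN
    have hgN : g ∈ N := N.mul_mem (N.inv_mem hfN) hyf
    have hyg : y * g * y = g⁻¹ := key y hy f
    have hxg : x * g * x = g⁻¹ := by
      have h4 : x * f⁻¹ * x = f := by
        rw [← hxf]
        calc x * (x * f * x) * x = (x * x) * f * (x * x) := by group
          _ = f := by rw [hxx]; group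
      have h5 : x * (y * f * y) * x = (y * f * y)⁻¹ := by
        have h6 : (y * f * y)⁻¹ = y * f⁻¹ * y := by
          simp only [mul_inv_rev, inv_eq hyy, mul_assoc]
        rw [h6, ← hxf]
        calc x * (y * f * y) * x = (x * y) * f * (y * x) := by group
          _ = (y * x) * f * (x * y) := by rw [hxy.eq]
          _ = _ := by group
      calc x * g * x = (x * f⁻¹ * x) * (x * (y * f * y) * x) := by
            rw [hg]
            calc x * (f⁻¹ * (y * f * y)) * x = x * f⁻¹ * 1 * (y * f * y) * x := by group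
              _ = x * f⁻¹ * (x * x) * (y * f * y) * x := by rw [hxx]
              _ = _ := by group
        _ = f * (y * f * y)⁻¹ := by rw [h4, h5]
        _ = g⁻¹ := by
            rw [hg, mul_inv_rev (f⁻¹), inv_inv f]
            exact hab _ hfN _ (N.inv_mem hyf)
    obtain ⟨n, hn, hn1⟩ := hodd g hgN
    have h7 := h.no_common hp hx hy hxy hne hxg hyg hn hn1
    rw [hg] at h7
    exact (inv_mul_eq_one.mp h7).symm
  have hxf2 : x * f * x = f := by
    have hinv : x = a₃ * a₂ * a := by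
      calc x = x⁻¹ := (inv_eq hxx).symm
        _ = (a * a₂ * a₃)⁻¹ := by rw [hprod]
        _ = a₃ * a₂ * a := by
          simp only [mul_inv_rev, inv_eq (h.sq _ ha), inv_eq (h.sq _ ha₂), inv_eq (h.sq _ ha₃),
            mul_assoc]
    calc x * f * x = (a * a₂ * a₃) * f * (a₃ * a₂ * a) := by rw [hprod, ← hinv]
      _ = a * (a₂ * (a₃ * f * a₃) * a₂) * a := by group
      _ = f := by rw [fix a₃ ha₃ h3 n3, fix a₂ ha₂ h2 n2, fix a ha h1 n1]
  obtain ⟨n, hn, hn1⟩ := hodd f hfN
  have h8 : f = 1 := by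
    refine eq_one_of_sq_of_odd ?_ hn hn1
    rw [hxf2] at hxf
    nth_rewrite 1 [hxf]
    exact inv_mul_cancel f
  rw [hf] at h8
  exact (inv_mul_eq_one.mp h8).symm

end PTr

/-- commuting members are congruent modulo `O_2` in a solvable group -/
theorem solv_case (p : ℕ) (hp : Odd p) (h3 : Nat.Coprime 3 p) (n : ℕ) :
    ∀ (G : Type u) [Group G] [Finite G] (D : Set G), Nat.card G = n → Group.IsSolvable G →
      PTr p D → ∀ x ∈ D, ∀ a ∈ D, ∀ b ∈ D, Commute x a → ¬ Commute x b → ¬ Commute a b →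
      x * a ∈ pCore 2 G := by
  induction n using Nat.strong_induction_on with
  | _ n ih =>
  intro G _ _ D hn hsol h x hx a ha b hb hc hxb hab
  have hxx := h.sq x hx
  have haa := h.sq a ha
  have hbb := h.sq b hb
  by_cases hne : x = a
  · rw [← hne, hxx]; exact one_mem _
  have htt := h.mul_sq hx ha hc
  have ht1 := h.mul_ne_one_of_ne ha hne
  by_cases hO : pCore 2 G = ⊥
  swap
  · -- pass to the quotient by `O_2`
    set N := pCore 2 G with hNdef
    have hNn : N.Normal := inferInstance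
    have hNp : IsPGroup 2 N := H1.Cores.isPGroup_pCore 2
    set f := QuotientGroup.mk' N with hf
    have hfs : Function.Surjective f := QuotientGroup.mk'_surjective N
    have hcard : Nat.card (G ⧸ N) < n := by
      rw [← hn, N.card_eq_card_quotient_mul_card_subgroup]
      have h1 : 1 < Nat.card N := by
        rw [Subgroup.one_lt_card_iff_ne_bot]; exact hO
      have h2 : 0 < Nat.card (G ⧸ N) := Nat.card_pos
      nlinarith
    have hmap := h.map f hfs
    have hnc : ∀ y ∈ D, ∀ z ∈ D, ¬ Commute y z → ¬ Commute (f y) (f z) := by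
      intro y hy z hz hyz hcon
      have h1 := (comm_iff (hmap.sq _ ⟨y, hy, rfl⟩) (hmap.sq _ ⟨z, hz, rfl⟩)).mpr hcon
      rw [← map_mul, ← map_pow] at h1
      have h2 : (y * z) ^ 2 ∈ N := by
        rwa [hf, QuotientGroup.mk'_apply, QuotientGroup.eq_one_iff] at h1
      obtain ⟨k, hk⟩ := hNp ⟨_, h2⟩
      have hk' : ((y * z) ^ 2) ^ (2 ^ k) = 1 := congrArg Subtype.val hk
      have h4 : ((y * z) ^ 2) ^ p = 1 := by
        rw [← pow_mul, mul_comm, pow_mul, h.pow_of_not_comm hy hz hyz, one_pow]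
      have h5 := eq_one_of_coprime_pow hk' h4
        (Nat.Coprime.pow_left _ (Nat.coprime_two_left.mpr hp))
      exact hyz ((comm_iff (h.sq y hy) (h.sq z hz)).mp h5)
    have h1 := ih _ hcard (G ⧸ N) (f '' D) rfl inferInstance hmap (f x) ⟨x, hx, rfl⟩ (f a)
      ⟨a, ha, rfl⟩ (f b) ⟨b, hb, rfl⟩ (hc.map f) (hnc x hx b hb hxb) (hnc a ha b hb hab)
    have hq : pCore 2 (G ⧸ N) = ⊥ := H1.Cores.pCore_quotient_pCore 2
    rw [hq, Subgroup.mem_bot, ← map_mul] at h1
    rwa [hf, QuotientGroup.mk'_apply, QuotientGroup.eq_one_iff] at h1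
  · -- a normal abelian subgroup of odd order
    have hnt : Nontrivial G := ⟨x, a, hne⟩
    obtain ⟨r, hr, N, hNn, hN1, hNp, hNc⟩ := H2.Solv.exists_normal_abelian_pgroup G hsol
    have hr2 : r ≠ 2 := by
      rintro rfl
      exact hN1 (le_bot_iff.mp (hO ▸ H1.Cores.le_pCore hNn hNp))
    have hrodd : Odd r := hr.odd_of_ne_two hr2
    have habN : ∀ c ∈ N, ∀ d ∈ N, c * d = d * c := by
      intro c hc d hd
      have := hNc.is_comm.comm (⟨c, hc⟩ : N) ⟨d, hd⟩
      exact congrArg Subtype.val this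
    have hoddN : ∀ c ∈ N, ∃ n, Odd n ∧ c ^ n = 1 := by
      intro c hc
      obtain ⟨k, hk⟩ := hNp ⟨c, hc⟩
      exact ⟨r ^ k, hrodd.pow, congrArg Subtype.val hk⟩
    set f := QuotientGroup.mk' N with hf
    have hfs : Function.Surjective f := QuotientGroup.mk'_surjective N
    have hfk : ∀ y : G, f y = 1 ↔ y ∈ N := by
      intro y
      rw [hf, QuotientGroup.mk'_apply, QuotientGroup.eq_one_iff]
    have hcard : Nat.card (G ⧸ N) < n := by
      rw [← hn, N.card_eq_card_quotient_mul_card_subgroup]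
      have h1 : 1 < Nat.card N := by
        rw [Subgroup.one_lt_card_iff_ne_bot]; exact hN1
      have h2 : 0 < Nat.card (G ⧸ N) := Nat.card_pos
      nlinarith
    have hmap := h.map f hfs
    -- elements of `N` of order dividing two
    have hN2 : ∀ y ∈ N, y * y = 1 → y = 1 := by
      intro y hy hyy
      obtain ⟨m, hm, hm1⟩ := hoddN y hy
      exact eq_one_of_sq_of_odd hyy hm hm1
    have htN : f (x * a) ≠ 1 := by
      intro h1
      exact ht1 (hN2 _ ((hfk _).mp h1) htt)
    have hnc : ∀ y ∈ D, ∀ z ∈ D, Commute y z → y ≠ z → ¬ Commute y b → ¬ Commute z b →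
        ¬ Commute (f y) (f b) := by
      intro y hy z hz hyz hne' hyb hzb hcon
      have hyy := h.sq y hy
      have h1 := (comm_iff (hmap.sq _ ⟨y, hy, rfl⟩) (hmap.sq _ ⟨b, hb, rfl⟩)).mpr hcon
      have h2 : (f (y * b)) ^ p = 1 := by
        rw [← map_pow, h.pow_of_not_comm hy hb hyb, map_one]
      rw [← map_mul, pow_two] at h1
      have h4 := eq_one_of_sq_of_odd h1 hp h2
      have h5 : f (z * b) = f (y * z) := by
        have h6 : z * b = (y * z) * (y * b) := by
          rw [hyz.eq]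
          calc z * b = z * 1 * b := by group
            _ = z * y * (y * b) := by rw [← hyy]; group
        rw [h6, map_mul, h4, mul_one]
      have h6 : (f (z * b)) ^ p = 1 := by
        rw [← map_pow, h.pow_of_not_comm hz hb hzb, map_one]
      rw [h5] at h6
      have h7 : f (y * z) * f (y * z) = 1 := by
        rw [← map_mul, h.mul_sq hy hz hyz, map_one]
      have h8 := eq_one_of_sq_of_odd h7 hp h6
      exact h.mul_ne_one_of_ne hz hne' (hN2 _ ((hfk _).mp h8) (h.mul_sq hy hz hyz))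
    have hxb' := hnc x hx a ha hc hne hxb hab
    have hab' := hnc a ha x hx hc.symm (Ne.symm hne) hab hxb
    have hxa' : f x ≠ f a := by
      intro h1
      apply htN
      rw [map_mul, h1, ← map_mul, haa, map_one]
    have hcore := ih _ hcard (G ⧸ N) (f '' D) rfl inferInstance hmap (f x) ⟨x, hx, rfl⟩ (f a)
      ⟨a, ha, rfl⟩ (f b) ⟨b, hb, rfl⟩ (hc.map f) hxb' hab'
    rw [← map_mul] at hcore
    have hcore2 : ∀ y : G ⧸ N, y ∈ pCore 2 (G ⧸ N) → ∃ k : ℕ, y ^ (2 ^ k) = 1 := by
      intro y hy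
      obtain ⟨k, hk⟩ := (H1.Cores.isPGroup_pCore (G := G ⧸ N) 2) ⟨y, hy⟩
      exact ⟨k, congrArg Subtype.val hk⟩
    -- the quadruple in the quotient
    have hT : ∀ j : ℤ, Commute (f x * f a)
        ((f x * f b) ^ j * (f x * f a) * ((f x * f b) ^ j)⁻¹) := by
      apply hmap.hT_of ⟨x, hx, rfl⟩ ⟨a, ha, rfl⟩ ⟨b, hb, rfl⟩ (hc.map f)
      intro j
      have hup := hmap.pow_of_not_comm ⟨x, hx, rfl⟩ ⟨b, hb, rfl⟩ hxb'
      have hi := inv_mul_left (hmap.sq _ ⟨x, hx, rfl⟩) (hmap.sq _ ⟨b, hb, rfl⟩)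
      have hbj := hmap.mul_zpow_mem ⟨x, hx, rfl⟩ hi hp hup j
      have h1 : (f x * f a) * (f x * f a) = 1 := by rw [← map_mul, ← map_mul, htt, map_one]
      have h2 : (f x * f a) * ((f x * (f x * f b) ^ j) * (f x * f a) * (f x * (f x * f b) ^ j)) ∈
          pCore 2 (G ⧸ N) := by
        refine mul_mem (by rwa [← map_mul]) ?_
        have h4 := (inferInstance : (pCore 2 (G ⧸ N)).Normal).conj_mem _ hcore
          (f x * (f x * f b) ^ j)
        rwa [inv_eq (hmap.sq _ hbj), map_mul] at h4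
      obtain ⟨k, hk⟩ := hcore2 _ h2
      exact hmap.comm_of_two_pow hp h1 hbj hk
    set s := (x * b) * (x * a) * (x * b)⁻¹ with hs
    have hfs' : f s = (f x * f b) * (f x * f a) * (f x * f b)⁻¹ := by
      rw [hs]; simp
    obtain ⟨q1, q2, q3, q4, q5⟩ := hmap.quad hp h3 ⟨x, hx, rfl⟩ ⟨a, ha, rfl⟩ ⟨b, hb, rfl⟩
      (hc.map f) hxa' hxb' hab' hT hfs'
    have hss : s * s = 1 := by
      rw [hs]
      calc x * b * (x * a) * (x * b)⁻¹ * (x * b * (x * a) * (x * b)⁻¹)
          = (x * b) * ((x * a) * (x * a)) * (x * b)⁻¹ := by group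
        _ = 1 := by rw [htt]; group
    have hconj : ∀ y ∈ D, s * y * s ∈ D := by
      intro y hy
      have := h.conj y hy s
      rwa [inv_eq hss] at this
    set a₂ := s * x * s with ha₂
    set a₃ := s * a * s with ha₃
    have m2 : a₂ ∈ D := hconj x hx
    have m3 : a₃ ∈ D := hconj a ha
    have e2 : f s * f x * f s = f a₂ := by rw [ha₂]; simp
    have e3 : f s * f a * f s = f a₃ := by rw [ha₃]; simp
    rw [e2] at q1 q2 q3 q4 q5
    rw [e3] at q3
    have sq' : ∀ y ∈ D, f y * f y = 1 := fun y hy => hmap.sq _ ⟨y, hy, rfl⟩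
    have e3' : f a₃ = f a₂ * (f x * f a) := by
      rw [← q3, ← mul_assoc, sq' a₂ m2, one_mul]
    have c1 : Commute x a₂ := h.lift_comm hp f hx m2 q1 (Ne.symm q4)
    have c2 : Commute a a₂ := h.lift_comm hp f ha m2 q2 (Ne.symm q5)
    have hcf := hc.map f
    have n3x : f x ≠ f a₃ := by
      intro h1
      apply q5
      have h4 : f a₂ * (f x * f a) = f x := by rw [← e3', ← h1]
      calc f a₂ = f a₂ * (f x * f a) * (f a * f x) := by
            calc f a₂ = f a₂ * 1 := (mul_one _).symm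
              _ = f a₂ * (f x * 1 * f x) := by rw [mul_one (f x), sq' x hx]
              _ = f a₂ * (f x * (f a * f a) * f x) := by rw [sq' a ha]
              _ = _ := by group
        _ = f x * (f a * f x) := by rw [h4]
        _ = f x * (f x * f a) := by rw [hcf.eq]
        _ = f a := by rw [← mul_assoc, sq' x hx, one_mul]
    have n3a : f a ≠ f a₃ := by
      intro h1
      apply q4
      have h4 : f a₂ * (f x * f a) = f a := by rw [← e3', ← h1]
      calc f a₂ = f a₂ * (f x * f a) * (f a * f x) := by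
            calc f a₂ = f a₂ * 1 := (mul_one _).symm
              _ = f a₂ * (f x * 1 * f x) := by rw [mul_one (f x), sq' x hx]
              _ = f a₂ * (f x * (f a * f a) * f x) := by rw [sq' a ha]
              _ = _ := by group
        _ = f a * (f a * f x) := by rw [h4]
        _ = f x := by rw [← mul_assoc, sq' a ha, one_mul]
    have c3 : Commute x a₃ := by
      refine h.lift_comm hp f hx m3 ?_ n3x
      rw [e3']
      exact q1.mul_right ((Commute.refl _).mul_right hcf)
    have c4 : Commute a a₃ := by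
      refine h.lift_comm hp f ha m3 ?_ n3a
      rw [e3']
      exact q2.mul_right (hcf.symm.mul_right (Commute.refl _))
    have c5 : Commute a₂ a₃ := by
      have h1 := hc.map (MulAut.conj s)
      simp only [MulAut.conj_apply, inv_eq hss] at h1
      exact h1
    have hw : (x * a) * (a₂ * a₃) = 1 := by
      have ht2 := h.mul_sq m2 m3 c5
      refine hN2 _ ?_ ?_
      · rw [← hfk, map_mul, map_mul f a₂, q3, ← map_mul, ← map_mul, htt, map_one]
      · have h1 : Commute (x * a) (a₂ * a₃) :=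
          (c1.mul_right c3).mul_left (c2.mul_right c4)
        calc (x * a) * (a₂ * a₃) * ((x * a) * (a₂ * a₃))
            = (x * a) * ((a₂ * a₃) * (x * a)) * (a₂ * a₃) := by group
          _ = (x * a) * ((x * a) * (a₂ * a₃)) * (a₂ * a₃) := by rw [h1.eq]
          _ = ((x * a) * (x * a)) * ((a₂ * a₃) * (a₂ * a₃)) := by group
          _ = 1 := by rw [htt, ht2, one_mul]
    have hw1 : a * a₂ * a₃ = x := by
      calc a * a₂ * a₃ = x * x * a * a₂ * a₃ := by rw [hxx]; group
        _ = x * ((x * a) * (a₂ * a₃)) := by group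
        _ = x := by rw [hw, mul_one]
    have hw2 : x * a₂ * a₃ = a := by
      calc x * a₂ * a₃ = (a * a) * x * (a₂ * a₃) := by rw [haa]; group
        _ = a * ((a * x) * (a₂ * a₃)) := by group
        _ = a * ((x * a) * (a₂ * a₃)) := by rw [hc.eq]
        _ = a := by rw [hw, mul_one]
    have ne2 : x ≠ a₂ := fun h1 => q4 (congrArg f h1).symm
    have ne3 : x ≠ a₃ := fun h1 => n3x (congrArg f h1)
    have ne4 : a ≠ a₂ := fun h1 => q5 (congrArg f h1).symm
    have ne5 : a ≠ a₃ := fun h1 => n3a (congrArg f h1)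
    have cx : ∀ c ∈ N, x * c * x = c := fun c hcN =>
      h.cent_N hp hx ha m2 m3 hc c1 c3 hne ne2 ne3 hw1 habN hoddN hcN
    have ca : ∀ c ∈ N, a * c * a = c := fun c hcN =>
      h.cent_N hp ha hx m2 m3 hc.symm c2 c4 (Ne.symm hne) ne4 ne5 hw2 habN hoddN hcN
    have ht' : (x * a)⁻¹ = x * a := inv_eq htt
    obtain ⟨M, hM1, hM2, hM3⟩ := H55.BaerSuzuki.exists_normal_of_involution (x * a) htt (by
      intro y hy hty
      have hy1 : y ^ orderOf y = 1 := pow_orderOf_eq_one y
      have h1 : f (y⁻¹ * y⁻¹) ∈ pCore 2 (G ⧸ N) := by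
        have h2 : f (y⁻¹ * y⁻¹) = f (x * a) * (f y * f (x * a) * (f y)⁻¹) := by
          rw [← map_inv, ← map_mul, ← map_mul, ← map_mul]
          congr 1
          calc y⁻¹ * y⁻¹ = (x * a * y * (x * a)⁻¹) * y⁻¹ := by rw [hty]
            _ = (x * a * y * (x * a)) * y⁻¹ := by rw [ht']
            _ = x * a * (y * (x * a) * y⁻¹) := by group
        rw [h2]
        exact mul_mem hcore ((inferInstance : (pCore 2 (G ⧸ N)).Normal).conj_mem _ hcore (f y))
      obtain ⟨k, hk⟩ := hcore2 _ h1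
      have h2 : (f (y⁻¹ * y⁻¹)) ^ (orderOf y) = 1 := by
        rw [← map_pow, ← pow_two, ← pow_mul, mul_comm, pow_mul, inv_pow, hy1]; simp
      have h4 := eq_one_of_coprime_pow hk h2
        (Nat.Coprime.pow_left _ (Nat.coprime_two_left.mpr hy))
      have h5 : f y⁻¹ = 1 := by
        refine eq_one_of_sq_of_odd (by rw [← map_mul]; exact h4) hy ?_
        rw [← map_pow, inv_pow, hy1]; simp
      have hyN : y ∈ N := by
        rw [hfk, inv_mem_iff] at h5
        exact h5
      have h6 : x * a * y * (x * a)⁻¹ = y := by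
        rw [ht', hc.eq]
        calc a * x * y * (a * x) = a * x * y * (x * a) := by rw [hc.eq]
          _ = a * (x * y * x) * a := by group
          _ = y := by rw [cx y hyN, ca y hyN]
      rw [h6] at hty
      refine eq_one_of_sq_of_odd ?_ hy hy1
      nth_rewrite 1 [hty]
      exact inv_mul_cancel y)
    exact H1.Cores.le_pCore hM1 hM2 hM3

end H44.PT
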