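import Cfsg.Agent.Lib.H44.PT2
import Cfsg.Agent.Lib.H33.Fischer1

/-! The minimal counterexample: commuting is an equivalence relation, products of commuting
members are members. -/

set_option autoImplicit false

namespace H44.PT

universe u

open Cfsg

structure Mn (p : ℕ) {G : Type u} [Group G] [Finite G] (D : Set G) : Prop where
  pt : PTr p D
  prime : p.Prime
  odd : Odd p
  cop : Nat.Coprime 3 p
  gen : Subgroup.closure D = ⊤
  ne1 : ∀ d ∈ D, d ≠ 1
  trans : ∀ d ∈ D, ∀ e ∈ D, ∃ g : G, g * d * g⁻¹ = e
  rad : ∀ N : Subgroup G, N.Normal → Group.IsSolvable N → N = ⊥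
  sub : ∀ x ∈ D, ∀ a ∈ D, ∀ b ∈ D, Subgroup.closure {x, a, b} ≠ ⊤ →
    Group.IsSolvable (Subgroup.closure {x, a, b} : Subgroup G)
  ns : ¬ Group.IsSolvable G

namespace Mn

variable {p : ℕ} {G : Type u} [Group G] [Finite G] {D : Set G}

theorem two_bot (h : Mn p D) {N : Subgroup G} (hN : N.Normal) (h2 : IsPGroup 2 N) : N = ⊥ := by
  have : Fact (Nat.Prime 2) := ⟨Nat.prime_two⟩
  have : Group.IsNilpotent N := h2.isNilpotent
  exact h.rad N hN inferInstance

theorem center_bot (h : Mn p D) : Subgroup.center G = ⊥ :=
  h.rad _ inferInstance (Group.isSolvable_of_comm fun a b =>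
    Subtype.ext (Subgroup.mem_center_iff.mp b.2 a.1))

theorem typ (h : Mn p D) {x a b : G} (hx : x ∈ D) (ha : a ∈ D) (hb : b ∈ D)
    (hc : Commute x a) (hne : x ≠ a) (hxb : ¬ Commute x b) (hab : ¬ Commute a b) :
    Commute (x * a) (b * (x * a) * b) ∨ x * a ∈ D := by
  have P := h.pt
  have hbb := P.sq b hb
  have htt := P.mul_sq hx ha hc
  by_cases hH : Subgroup.closure {x, a, b} = ⊤
  swap
  · left
    set H : Subgroup G := Subgroup.closure {x, a, b} with hHdef
    have hsol := h.sub x hx a ha b hb hH
    have mx : x ∈ H := Subgroup.subset_closure (by simp)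
    have ma : a ∈ H := Subgroup.subset_closure (by simp)
    have mb : b ∈ H := Subgroup.subset_closure (by simp)
    have hPT : PTr p (Subtype.val ⁻¹' D : Set H) :=
      { sq := fun d hd => Subtype.ext (P.sq d.1 hd)
        prod := fun d hd e he => by
          rcases P.prod d.1 hd e.1 he with h1 | h1
          · left; exact Subtype.ext h1
          · right; exact Subtype.ext h1
        conj := fun d hd g => P.conj d.1 hd g.1 }
    have h1 := solv_case p h.odd h.cop _ H (Subtype.val ⁻¹' D : Set H) rfl hsol hPT ⟨x, mx⟩ hx
      ⟨a, ma⟩ ha ⟨b, mb⟩ hb (Subtype.ext hc.eq) (fun hcon => hxb (congrArg Subtype.val hcon.eq))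
      (fun hcon => hab (congrArg Subtype.val hcon.eq))
    have h2 : (⟨x, mx⟩ * ⟨a, ma⟩ : H) * (⟨b, mb⟩ * (⟨x, mx⟩ * ⟨a, ma⟩) * ⟨b, mb⟩⁻¹) ∈
        pCore 2 H :=
      mul_mem h1 ((inferInstance : (pCore 2 H).Normal).conj_mem _ h1 _)
    obtain ⟨k, hk⟩ := (H1.Cores.isPGroup_pCore (G := H) 2) ⟨_, h2⟩
    have hk' : ((x * a) * (b * (x * a) * b⁻¹)) ^ (2 ^ k) = 1 :=
      congrArg (fun z : pCore 2 H => ((z : H) : G)) hk
    rw [inv_eq hbb] at hk'
    exact P.comm_of_two_pow h.odd htt hb hk'
  · rw [or_iff_not_imp_left]
    intro hcon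
    set t := x * a with ht
    have htinv := inv_eq htt
    have hb' : t * b * t ∈ D := by
      have := P.conj b hb t
      rwa [htinv] at this
    have hbb' : ¬ Commute b (t * b * t) := by
      intro h1
      apply hcon
      have h2 := h1.map (MulAut.conj t)
      rw [MulAut.conj_apply, MulAut.conj_apply, htinv] at h2
      have h3 : t * (t * b * t) * t = b := by
        calc t * (t * b * t) * t = (t * t) * b * (t * t) := by group
          _ = b := by rw [htt]; group
      rw [h3] at h2
      -- `t b t` commutes with `b`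
      change t * (b * t * b) = (b * t * b) * t
      calc t * (b * t * b) = (t * b * t) * b := by group
        _ = b * (t * b * t) := h2.eq
        _ = (b * t * b) * t := by group
    obtain ⟨z, hz, hzb⟩ := P.exists_mid h.odd hb hb' (P.pow_of_not_comm hb hb' hbb')
    have hzz := P.sq z hz
    have hbz : ¬ Commute b z := by
      intro h1
      apply hbb'
      rw [← hzb]
      have : z * b * z = b := by rw [← h1.eq, mul_assoc, hzz, mul_one]
      rw [this]
    have hz' : t * z * t ∈ D := by
      have := P.conj z hz t
      rwa [htinv] at this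
    have hz'b : (t * z * t) * b * (t * z * t) = t * b * t := by
      calc (t * z * t) * b * (t * z * t) = t * z * (t * b * t) * z * t := by group
        _ = t * z * (z * b * z) * z * t := by rw [hzb]
        _ = t * (z * z) * b * (z * z) * t := by group
        _ = t * b * t := by rw [hzz]; group
    have hbz' : ¬ Commute b (t * z * t) := by
      intro h1
      apply hbb'
      rw [← hz'b]
      have : (t * z * t) * b * (t * z * t) = b := by
        rw [← h1.eq, mul_assoc, P.sq _ hz', mul_one]
      rw [this]
    have hzt : t * z * t = z := P.mid_unique h.odd hb hz' hz (by rw [hz'b, hzb]) hbz' hbz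
    have hczt : Commute z t := by
      change z * t = t * z
      calc z * t = (t * z * t) * t := by rw [hzt]
        _ = t * z * (t * t) := by group
        _ = t * z := by rw [htt, mul_one]
    have hzx := P.comm_of_mul h.odd hx ha hz hc hne hczt
    have hza := P.comm_of_mul' h.odd hx ha hz hc hne hczt
    have g1 : Commute (t * z) x := ((Commute.refl x).mul_left hc.symm).mul_left hzx
    have g2 : Commute (t * z) a := (hc.mul_left (Commute.refl a)).mul_left hza
    have g3 : Commute (t * z) b := by
      change t * z * b = b * (t * z)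
      calc t * z * b = t * (z * b * z) * z⁻¹ := by group
        _ = t * (t * b * t) * z := by rw [hzb, inv_eq hzz]
        _ = (t * t) * b * (t * z) := by group
        _ = b * (t * z) := by rw [htt, one_mul]
    have hcen : t * z ∈ Subgroup.center G := by
      rw [Subgroup.mem_center_iff]
      intro g
      have h1 : Subgroup.closure {x, a, b} ≤ Subgroup.centralizer ({t * z} : Set G) := by
        rw [Subgroup.closure_le]
        rintro y hy
        rw [SetLike.mem_coe, Subgroup.mem_centralizer_singleton_iff]
        rcases hy with rfl | rfl | rfl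
        · exact g1.symm.eq
        · exact g2.symm.eq
        · exact g3.symm.eq
      have h2 : g ∈ Subgroup.centralizer ({t * z} : Set G) := h1 (by rw [hH]; trivial)
      rw [Subgroup.mem_centralizer_singleton_iff] at h2
      exact h2
    rw [h.center_bot, Subgroup.mem_bot] at hcen
    have h3 : t = z := by
      rw [← inv_eq hzz]
      exact eq_inv_of_mul_eq_one_left hcen
    rw [h3]
    exact hz

theorem sub_comm (h : Mn p D) {x a b y : G} (hx : x ∈ D) (ha : a ∈ D) (hb : b ∈ D)
    (hy : y ∈ D) (hc : Commute x a) (hne : x ≠ a) (hxb : ¬ Commute x b) (hab : ¬ Commute a b)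
    (hyx : Commute y x) : Commute y a := by
  have P := h.pt
  have hxx := P.sq x hx
  have haa := P.sq a ha
  by_cases ht : x * a ∈ D
  · have h1 : a * (x * a) = x := by
      rw [hc.eq, ← mul_assoc, haa, one_mul]
    have h2 : a ≠ x * a := by
      intro h3
      have : x = 1 := by
        have h4 : x * a = a := h3.symm
        exact mul_eq_right.mp h4
      exact h.ne1 x hx this
    have h3 : Commute a (x * a) := hc.symm.mul_right (Commute.refl a)
    exact P.comm_of_mul h.odd ha ht hy h3 h2 (by rw [h1]; exact hyx)
  · by_contra hcon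
    have htt := P.mul_sq hx ha hc
    have hup := P.pow_of_not_comm hx hb hxb
    have hi := inv_mul_left hxx (P.sq b hb)
    have hT : ∀ j : ℤ, Commute (x * a) ((x * b) ^ j * (x * a) * ((x * b) ^ j)⁻¹) := by
      apply P.hT_of hx ha hb hc
      intro j
      have hbj := P.mul_zpow_mem hx hi h.odd hup j
      by_cases hj : (x * b) ^ j = 1
      · rw [hj, mul_one]
        have : Commute x (x * a) := (Commute.refl x).mul_right hc
        exact ((this.symm.mul_right (Commute.refl _)).mul_right this.symm)
      have hupj : ((x * b) ^ j) ^ p = 1 := by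
        rw [← zpow_natCast, ← zpow_mul, mul_comm, zpow_mul, zpow_natCast, hup, one_zpow]
      have hxbj : ¬ Commute x (x * (x * b) ^ j) := by
        intro h1
        have h2 : Commute x ((x * b) ^ j) := by
          have h3 := (Commute.refl x).mul_right h1
          rwa [← mul_assoc, hxx, one_mul] at h3
        exact hj (eq_one_of_sq_comm h2 h.odd hupj (conj_zpow' hxx hi j) hxx)
      have habj : ¬ Commute a (x * (x * b) ^ j) := by
        intro h1
        have h2 : Commute a ((x * b) ^ j) := by
          have h3 := hc.symm.mul_right h1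
          rwa [← mul_assoc, hxx, one_mul] at h3
        -- the powers of `(x b)^j` contain `x b`
        have h3 : (x * b) ∈ Subgroup.zpowers ((x * b) ^ j) := by
          have : Fact p.Prime := ⟨h.prime⟩
          have ho : orderOf (x * b) = p := by
            refine orderOf_eq_prime hup ?_
            intro h4
            apply hj
            rw [h4, one_zpow]
          have hcard : Nat.card (Subgroup.zpowers (x * b)) = p := by
            rw [Nat.card_zpowers, ho]
          have ho2 : orderOf ((x * b) ^ j) = p := orderOf_eq_prime hupj hj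
          have hle : Subgroup.zpowers ((x * b) ^ j) ≤ Subgroup.zpowers (x * b) := by
            rw [Subgroup.zpowers_le]; exact Subgroup.zpow_mem _ (Subgroup.mem_zpowers _) _
          have heq := Subgroup.eq_of_le_of_card_ge hle (by
            rw [hcard, Nat.card_zpowers, ho2])
          rw [heq]; exact Subgroup.mem_zpowers _
        obtain ⟨k, hk⟩ := h3
        have h4 : Commute a (x * b) := by
          rw [← hk]
          exact h2.zpow_right k
        apply hab
        have h5 := hc.symm.mul_right h4
        rwa [← mul_assoc, hxx, one_mul] at h5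
      exact (h.typ hx ha hbj hc hne hxbj habj).resolve_right ht
    set s := (x * b) * (x * a) * (x * b)⁻¹ with hs
    obtain ⟨q1, q2, q3, q4, q5⟩ := P.quad h.odd h.cop hx ha hb hc hne hxb hab hT hs
    have hss : s * s = 1 := by
      rw [hs]
      calc x * b * (x * a) * (x * b)⁻¹ * (x * b * (x * a) * (x * b)⁻¹)
          = (x * b) * ((x * a) * (x * a)) * (x * b)⁻¹ := by group
        _ = 1 := by rw [htt]; group
    have hconj : ∀ y ∈ D, s * y * s ∈ D := by
      intro y hy
      have := P.conj y hy s
      rwa [inv_eq hss] at this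
    set a₂ := s * x * s with ha₂
    set a₃ := s * a * s with ha₃
    have m2 : a₂ ∈ D := hconj x hx
    have m3 : a₃ ∈ D := hconj a ha
    have sq2 := P.sq _ m2
    have sq3 := P.sq _ m3
    have c5 : Commute a₂ a₃ := by
      have h1 := hc.map (MulAut.conj s)
      simp only [MulAut.conj_apply, inv_eq hss] at h1
      exact h1
    have ht1 := P.mul_ne_one_of_ne ha hne
    have n23 : a₂ ≠ a₃ := by
      intro h1
      apply ht1
      rw [← q3, ← h1, sq2]
    have e3 : a₃ = a₂ * (x * a) := by rw [← q3, ← mul_assoc, sq2, one_mul]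
    have c3 : Commute x a₃ := by
      rw [e3]; exact q1.mul_right ((Commute.refl x).mul_right hc)
    have c4 : Commute a a₃ := by
      rw [e3]; exact q2.mul_right (hc.symm.mul_right (Commute.refl a))
    -- `x a₂ = a a₃`
    have r1 : x * a₂ = a * a₃ := by
      rw [e3]
      calc x * a₂ = a₂ * x := q1.eq
        _ = a₂ * (a * (a * x)) := by rw [← mul_assoc a, haa, one_mul]
        _ = (a₂ * a) * (x * a) := by rw [← hc.eq]; group
        _ = (a * a₂) * (x * a) := by rw [q2.eq]
        _ = a * (a₂ * (x * a)) := by group
    have r2 : x * a₃ = a * a₂ := by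
      have h1 : a₂ = a₃ * (x * a) := by rw [← q3, c5.eq, ← mul_assoc, sq3, one_mul]
      calc x * a₃ = a₃ * x := c3.eq
        _ = a₃ * (a * (a * x)) := by rw [← mul_assoc a, haa, one_mul]
        _ = (a₃ * a) * (x * a) := by rw [← hc.eq]; group
        _ = (a * a₃) * (x * a) := by rw [c4.eq]
        _ = a * (a₃ * (x * a)) := by group
        _ = a * a₂ := by rw [← h1]
    have n3 : a ≠ a₃ := by
      intro h1
      apply q4
      have h4 : x * a₂ = 1 := by rw [r1, ← h1, haa]
      rw [← inv_eq hxx]
      exact (eq_inv_of_mul_eq_one_right h4)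
    by_cases k2 : Commute y a₂
    · apply hcon
      have h1 : Commute y (a * a₃) := by rw [← r1]; exact hyx.mul_right k2
      exact P.comm_of_mul h.odd ha m3 hy c4 n3 h1
    · by_cases k3 : Commute y a₃
      · apply hcon
        have h1 : Commute y (a * a₂) := by rw [← r2]; exact hyx.mul_right k3
        exact P.comm_of_mul h.odd ha m2 hy q2 (Ne.symm q5) h1
      · have h1 := h.typ m2 m3 hy c5 n23 (fun h2 => k2 h2.symm) (fun h2 => k3 h2.symm)
        rw [q3] at h1
        have h2 := h1.resolve_right ht
        have hyy := P.sq y hy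
        -- `y t y = x (y a y)`
        have h3 : y * (x * a) * y = x * (y * a * y) := by
          calc y * (x * a) * y = (y * x) * a * y := by group
            _ = x * (y * a * y) := by rw [hyx.eq]; group
        have h4 : (y * (x * a) * y) * (y * (x * a) * y) = 1 := by
          calc (y * (x * a) * y) * (y * (x * a) * y) = y * (x * a) * (y * y) * (x * a) * y := by
                group
            _ = y * ((x * a) * (x * a)) * y := by rw [hyy]; group
            _ = 1 := by rw [htt, mul_one, hyy]
        have h5 := (comm_iff htt h4).mpr h2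
        have h6 : (x * a) * (y * (x * a) * y) = (a * y) * (a * y) := by
          rw [h3, hc.eq]
          calc a * x * (x * (y * a * y)) = a * (x * x) * (y * a * y) := by group
            _ = _ := by rw [hxx]; group
        rw [h6, pow_two] at h5
        have h7 := P.pow_of_not_comm ha hy (fun h8 => hcon h8.symm)
        have h8 : (a * y) * (a * y) = 1 := by
          refine eq_one_of_sq_of_odd h5 h.odd ?_
          rw [← pow_two, ← pow_mul, mul_comm, pow_mul, h7, one_pow]
        rw [← pow_two] at h8
        exact hcon ((comm_iff haa hyy).mp h8).symm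

/-- commuting members commute with the same members -/
theorem eqv (h : Mn p D) {x a y : G} (hx : x ∈ D) (ha : a ∈ D) (hy : y ∈ D)
    (hc : Commute x a) (hyx : Commute y x) : Commute y a := by
  have P := h.pt
  set S : Set G := {y | y ∈ D ∧ (¬ Commute x y ∨ ∀ z ∈ D, Commute z x ↔ Commute z y)} with hS
  have cl1 : ∀ y ∈ S, ∀ d ∈ D, ¬ Commute y d → d ∈ S := by
    rintro y ⟨hy, hy'⟩ d hd hyd
    refine ⟨hd, ?_⟩
    by_cases hxd : Commute x d
    swap
    · left; exact hxd
    right
    rcases hy' with hy' | hy'
    · by_cases hne : x = d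
      · rw [← hne]; exact fun z _ => Iff.rfl
      · intro z hz
        constructor
        · intro hzx
          exact h.sub_comm hx hd hy hz hxd hne hy' (fun h1 => hyd h1.symm) hzx
        · intro hzd
          exact h.sub_comm hd hx hy hz hxd.symm (Ne.symm hne) (fun h1 => hyd h1.symm) hy' hzd
    · exact absurd ((hy' d hd).mp hxd.symm).symm hyd
  have cl2 : ∀ d ∈ D, ∀ y ∈ S, d * y * d ∈ S := by
    intro d hd y hy
    have hdd := P.sq d hd
    by_cases hc' : Commute y d
    · have : d * y * d = y := by rw [← hc'.eq, mul_assoc, hdd, mul_one]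
      rw [this]; exact hy
    · refine cl1 d (cl1 y hy d hd hc') _ (P.conj' hy.1 hd) ?_
      intro h1
      apply hc'
      have h2 := h1.map (MulAut.conj d)
      rw [MulAut.conj_apply, MulAut.conj_apply, inv_eq hdd] at h2
      have h3 : d * (d * y * d) * d = y := by
        calc d * (d * y * d) * d = (d * d) * y * (d * d) := by group
          _ = y := by rw [hdd]; group
      have h4 : d * d * d = d := by rw [hdd, one_mul]
      rw [h3, h4] at h2
      exact h2.symm
  have cl3 : ∀ g ∈ Subgroup.closure D, ∀ y ∈ S, g * y * g⁻¹ ∈ S := by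
    intro g hg
    induction hg using Subgroup.closure_induction with
    | mem d hd =>
      intro y hy
      rw [inv_eq (P.sq d hd)]
      exact cl2 d hd y hy
    | one => intro y hy; simpa using hy
    | mul g k _ _ hg hk =>
      intro y hy
      have := hg _ (hk y hy)
      have h1 : g * k * y * (g * k)⁻¹ = g * (k * y * k⁻¹) * g⁻¹ := by group
      rw [h1]; exact this
    | inv g _ hg =>
      -- finite order
      intro y hy
      have h1 : ∀ n : ℕ, ∀ y ∈ S, g ^ n * y * (g ^ n)⁻¹ ∈ S := by
        intro n
        induction n with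
        | zero => intro y hy; simpa using hy
        | succ n ih =>
          intro y hy
          have h2 : g ^ (n + 1) * y * (g ^ (n + 1))⁻¹ = g * (g ^ n * y * (g ^ n)⁻¹) * g⁻¹ := by
            rw [pow_succ']; group
          rw [h2]
          exact hg _ (ih y hy)
      have h2 := h1 (orderOf g - 1) y hy
      have h3 : g ^ (orderOf g - 1) = g⁻¹ := by
        rw [eq_inv_iff_mul_eq_one, ← pow_succ, Nat.sub_add_cancel (orderOf_pos g),
          pow_orderOf_eq_one]
      rwa [h3] at h2
  have hxS : x ∈ S := ⟨hx, Or.inr fun z _ => Iff.rfl⟩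
  obtain ⟨g, hg⟩ := h.trans x hx a ha
  have haS : a ∈ S := by
    rw [← hg]
    exact cl3 g (by rw [h.gen]; trivial) x hxS
  exact ((haS.2.resolve_left (not_not.mpr hc)) y hy).mp hyx

theorem comm_conj_t (h : Mn p D) {x a : G} (hx : x ∈ D) (ha : a ∈ D) (hc : Commute x a)
    (hne : x ≠ a) (ht : x * a ∉ D) {b : G} (hb : b ∈ D) :
    Commute b ((x * a) * b * (x * a)⁻¹) := by
  have P := h.pt
  have htt := P.mul_sq hx ha hc
  have hbb := P.sq b hb
  rw [inv_eq htt]
  by_cases hbx : Commute b x
  · have hba := h.eqv hx ha hb hc hbx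
    have h1 : Commute b (x * a) := hbx.mul_right hba
    have h2 : (x * a) * b * (x * a) = b := by rw [← h1.eq, mul_assoc, htt, mul_one]
    rw [h2]
  · have hba : ¬ Commute b a := fun h1 => hbx (h.eqv ha hx hb hc.symm h1)
    have h1 := (h.typ hx ha hb hc hne (fun h2 => hbx h2.symm) (fun h2 => hba h2.symm)).resolve_right ht
    have h2 := h1.map (MulAut.conj b)
    rw [MulAut.conj_apply, MulAut.conj_apply, inv_eq hbb] at h2
    have h3 : b * (b * (x * a) * b) * b = x * a := by
      calc b * (b * (x * a) * b) * b = (b * b) * (x * a) * (b * b) := by group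
        _ = x * a := by rw [hbb]; group
    rw [h3] at h2
    change b * ((x * a) * b * (x * a)) = ((x * a) * b * (x * a)) * b
    calc b * ((x * a) * b * (x * a)) = (b * (x * a) * b) * (x * a) := by group
      _ = (x * a) * (b * (x * a) * b) := h2.eq
      _ = _ := by group

/-- products of commuting members are members -/
theorem mul_mem (h : Mn p D) {x a : G} (hx : x ∈ D) (ha : a ∈ D) (hc : Commute x a)
    (hne : x ≠ a) : x * a ∈ D := by
  by_contra ht
  have P := h.pt
  have htt := P.mul_sq hx ha hc
  obtain ⟨N, hN1, hN2, hN3⟩ := H55.BaerSuzuki.exists_normal_of_involution (x * a) htt (by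
    intro y hy hty
    set t := x * a with htdef
    set s := y * t * y⁻¹ with hs
    have hss : s * s = 1 := by
      rw [hs]
      calc y * t * y⁻¹ * (y * t * y⁻¹) = y * (t * t) * y⁻¹ := by group
        _ = 1 := by rw [htt]; group
    have hprop : ∀ b ∈ D, Commute b (s * b * s⁻¹) := by
      intro b hb
      have h1 := h.comm_conj_t hx ha hc hne ht (P.conj b hb y⁻¹)
      have h2 := h1.map (MulAut.conj y)
      rw [MulAut.conj_apply, MulAut.conj_apply] at h2
      have h3 : y * (y⁻¹ * b * y⁻¹⁻¹) * y⁻¹ = b := by group
      have h4 : y * (x * a * (y⁻¹ * b * y⁻¹⁻¹) * (x * a)⁻¹) * y⁻¹ = s * b * s⁻¹ := by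
        rw [hs, htdef]; group
      rwa [h3, h4] at h2
    have m1 := P.conj x hx s
    have m2 := P.conj a ha s
    have k1 := hprop x hx
    have k2 := hprop a ha
    have k3 : Commute (s * x * s⁻¹) a := h.eqv hx ha m1 hc k1.symm
    have k4 : Commute (s * a * s⁻¹) x := h.eqv ha hx m2 hc.symm k2.symm
    have h5 : Commute t (s * t * s⁻¹) := by
      have h6 : s * t * s⁻¹ = (s * x * s⁻¹) * (s * a * s⁻¹) := by rw [htdef]; group
      rw [h6]
      exact (k1.mul_right k4.symm).mul_left (k3.symm.mul_right k2)
    rw [inv_eq hss] at h5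
    have h6 : (s * t * s) * (s * t * s) = 1 := by
      calc (s * t * s) * (s * t * s) = s * t * (s * s) * t * s := by group
        _ = s * (t * t) * s := by rw [hss]; group
        _ = 1 := by rw [htt, mul_one, hss]
    have h7 := (comm_iff htt h6).mpr h5
    have h8 : t * (s * t * s) = (y⁻¹ * y⁻¹) * (y⁻¹ * y⁻¹) := by
      have h9 : t * s = y⁻¹ * y⁻¹ := by
        rw [hs]
        calc t * (y * t * y⁻¹) = (t * y * t) * y⁻¹ := by group
          _ = (t * y * t⁻¹) * y⁻¹ := by rw [inv_eq htt]
          _ = _ := by rw [hty]
      calc t * (s * t * s) = (t * s) * (t * s) := by group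
        _ = _ := by rw [h9]
    rw [h8] at h7
    have h10 : y ^ 8 = 1 := by
      have h11 : ((y⁻¹ * y⁻¹) * (y⁻¹ * y⁻¹)) ^ 2 = (y ^ 8)⁻¹ := by group
      rw [h11] at h7
      exact inv_eq_one.mp h7
    refine eq_one_of_coprime_pow h10 (pow_orderOf_eq_one y) ?_
    have : (8 : ℕ) = 2 ^ 3 := by norm_num
    rw [this]
    exact Nat.Coprime.pow_left _ (Nat.coprime_two_left.mpr hy))
  rw [h.two_bot hN1 hN2, Subgroup.mem_bot] at hN3
  exact P.mul_ne_one_of_ne ha hne hN3

theorem nonempty (h : Mn p D) : D.Nonempty := by
  by_contra hcon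
  rw [Set.not_nonempty_iff_eq_empty] at hcon
  have h1 := h.gen
  rw [hcon, Subgroup.closure_empty] at h1
  apply h.ns
  have : Subsingleton G := by
    constructor
    intro a b
    have ha : a ∈ (⊥ : Subgroup G) := by rw [h1]; trivial
    have hb : b ∈ (⊥ : Subgroup G) := by rw [h1]; trivial
    rw [Subgroup.mem_bot] at ha hb
    rw [ha, hb]
  exact inferInstance

theorem exists_comm (h : Mn p D) : ∃ x ∈ D, ∃ a ∈ D, x ≠ a ∧ Commute x a := by
  by_contra hcon
  push Not at hcon
  have P := h.pt
  obtain ⟨d, hd⟩ := h.nonempty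
  have hD : D = conjugatesOf d := by
    ext y
    constructor
    · intro hy
      obtain ⟨g, hg⟩ := h.trans d hd y hy
      exact isConj_iff.mpr ⟨g, hg⟩
    · intro hy
      obtain ⟨g, hg⟩ := isConj_iff.mp (show IsConj d y from hy)
      rw [← hg]
      exact P.conj d hd g
  have hnil := H33.Fischer1.nilpotent p h.prime (by
      rintro rfl
      exact (Nat.not_odd_iff_even.mpr even_two) h.odd) (D := D)
    (fun d hd => orderOf_eq_prime (by rw [pow_two]; exact P.sq d hd) (h.ne1 d hd))
    ⟨d, hd, hD⟩ h.gen (by
      intro x hx y hy hxy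
      have h1 := P.pow_of_not_comm hx hy (hcon x hx y hy hxy)
      have h2 := (Nat.dvd_prime h.prime).mp (orderOf_dvd_of_pow_eq_one h1)
      rcases h2 with h2 | h2
      · exact ⟨0, by rw [h2, pow_zero]⟩
      · exact ⟨1, by rw [h2, pow_one]⟩)
  apply h.ns
  have h3 : Group.IsSolvable (commutator G) := inferInstance
  have h4 : Group.IsSolvable (G ⧸ commutator G) := by
    have : ∀ a b : G ⧸ commutator G, a * b = b * a := fun a b => mul_comm (G := Abelianization G) a b
    exact Group.isSolvable_of_comm this
  exact Group.isSolvable_of_ker_le_range (commutator G).subtype (QuotientGroup.mk' (commutator G)) (by simp)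

end Mn

end H44.PT
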