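import Cfsg.Agent.Lib.H44.PT3

/-! Sets without commuting pairs; the action on the cliques. -/

set_option autoImplicit false

namespace H44.PT

universe u

open Cfsg
open scoped commutatorElement

theorem mersenne {p j f : ℕ} (hp : Odd p) (h : p ^ j + 1 = 2 ^ f) (h2 : 2 ≤ p ^ j) : j = 1 := by
  have hf : 2 ≤ f := by
    by_contra hcon
    interval_cases f
    · omega
    · omega
  have h4 : 4 ∣ p ^ j + 1 := by
    rw [h]
    exact pow_dvd_pow 2 hf
  have key : ∀ i : ℕ, ∃ S : ℕ, Odd S ∧ p ^ (2 * i + 1) + 1 = (p + 1) * S := by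
    intro i
    induction i with
    | zero => exact ⟨1, odd_one, by ring⟩
    | succ i ih =>
      obtain ⟨S, hS, hS2⟩ := ih
      obtain ⟨m, hm⟩ := hp
      have hSpos : 1 ≤ S := hS.pos
      refine ⟨p ^ 2 * S - (p - 1), ?_, ?_⟩
      · obtain ⟨l, hl⟩ := hS
        subst hm hl
        have h5 : (2 * m + 1) ^ 2 * (2 * l + 1) - (2 * m + 1 - 1) =
            2 * (l * (2 * m + 1) ^ 2 + 2 * m ^ 2 + m) + 1 := by
          have : (2 * m + 1) ^ 2 * (2 * l + 1) =
            2 * (l * (2 * m + 1) ^ 2 + 2 * m ^ 2 + m) + 1 + (2 * m) := by ring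
          rw [this]
          omega
        rw [h5]
        exact ⟨_, rfl⟩
      · have h6 : p - 1 ≤ p ^ 2 * S := by
          calc p - 1 ≤ p := by omega
            _ ≤ p ^ 2 := by rw [pow_two]; exact Nat.le_mul_self p
            _ ≤ p ^ 2 * S := Nat.le_mul_of_pos_right _ hSpos
        zify [h6]
        have h7 : (p : ℤ) ^ (2 * i + 1) + 1 = (p + 1) * S := by exact_mod_cast hS2
        have h8 : ((p - 1 : ℕ) : ℤ) = (p : ℤ) - 1 := by
          rw [Nat.cast_sub (by omega)]; rfl
        rw [h8]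
        have h9 : (p : ℤ) ^ (2 * (i + 1) + 1) = p ^ 2 * p ^ (2 * i + 1) := by ring
        rw [h9]
        have h10 : (p : ℤ) ^ (2 * i + 1) = (p + 1) * S - 1 := by linarith
        rw [h10]
        ring
  rcases Nat.even_or_odd j with hj | hj
  · exfalso
    obtain ⟨i, rfl⟩ := hj
    obtain ⟨m, hm⟩ : Odd (p ^ i) := hp.pow
    rw [pow_add, hm] at h4
    have h5 : (2 * m + 1) * (2 * m + 1) + 1 = 4 * (m * m + m) + 2 := by ring
    rw [h5] at h4
    omega
  · obtain ⟨i, rfl⟩ := hj
    obtain ⟨S, hS, hS2⟩ := key i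
    have h5 : S ∣ 2 ^ f := by rw [← h, hS2]; exact Dvd.intro_left _ rfl
    have h6 : S = 1 := by
      have h7 : Nat.Coprime S (2 ^ f) := Nat.Coprime.pow_right _ (Nat.coprime_two_right.mpr hS)
      exact Nat.eq_one_of_dvd_coprimes h7 dvd_rfl h5
    rw [h6, mul_one] at hS2
    have h7 : p ^ (2 * i + 1) = p ^ 1 := by rw [pow_one]; omega
    have hp2 : 2 ≤ p := by
      by_contra hcon
      have : p = 1 := by obtain ⟨m, hm⟩ := hp; omega
      rw [this, one_pow] at h2
      omega
    exact Nat.pow_right_injective hp2 h7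

/-- a set of involutions without commuting pairs has `p`-power order -/
theorem card_pow {p : ℕ} (hp : p.Prime) (hodd : Odd p) {G : Type u} [Group G] [Finite G]
    {E : Set G} (hne : E.Nonempty) (hsq : ∀ d ∈ E, d * d = 1) (h1 : ∀ d ∈ E, d ≠ 1)
    (hconj : ∀ d ∈ E, ∀ e ∈ E, e * d * e ∈ E)
    (hprod : ∀ d ∈ E, ∀ e ∈ E, d ≠ e → (d * e) ^ p = 1) : ∃ k, E.ncard = p ^ k := by
  classical
  have : Fact p.Prime := ⟨hp⟩
  obtain ⟨d, hd⟩ := hne
  set L : Subgroup G := Subgroup.closure E with hL
  set E' : Set L := Subtype.val ⁻¹' E with hE'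
  have hsub : ∀ e ∈ E, e ∈ L := fun e he => Subgroup.subset_closure he
  have hconjL : ∀ g ∈ L, ∀ e ∈ E, g * e * g⁻¹ ∈ E := by
    intro g hg
    induction hg using Subgroup.closure_induction with
    | mem d hd => intro e he; rw [inv_eq (hsq d hd)]; exact hconj e he d hd
    | one => intro y hy; simpa using hy
    | mul g k _ _ hg hk =>
      intro y hy
      have h3 : g * k * y * (g * k)⁻¹ = g * (k * y * k⁻¹) * g⁻¹ := by group
      rw [h3]; exact hg _ (hk y hy)
    | inv g _ hg =>
      intro y hy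
      have h3 : ∀ n : ℕ, ∀ y ∈ E, g ^ n * y * (g ^ n)⁻¹ ∈ E := by
        intro n
        induction n with
        | zero => intro y hy; simpa using hy
        | succ n ih =>
          intro y hy
          have h2 : g ^ (n + 1) * y * (g ^ (n + 1))⁻¹ = g * (g ^ n * y * (g ^ n)⁻¹) * g⁻¹ := by
            rw [pow_succ']; group
          rw [h2]
          exact hg _ (ih y hy)
      have h4 := h3 (orderOf g - 1) y hy
      have h5 : g ^ (orderOf g - 1) = g⁻¹ := by
        rw [eq_inv_iff_mul_eq_one, ← pow_succ, Nat.sub_add_cancel (orderOf_pos g),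
          pow_orderOf_eq_one]
      rwa [h5] at h4
  have hmid : ∀ e ∈ E, ∃ k : ℕ, ((e * d) ^ k) * d * ((e * d) ^ k)⁻¹ = e := by
    intro e he
    by_cases hde : e = d
    · exact ⟨0, by simp [hde]⟩
    obtain ⟨k, hk⟩ := exists_root hodd (hprod e he d hd hde)
    refine ⟨k, ?_⟩
    have h3 := conj_pow' (hsq d hd) (inv_mul_right (hsq e he) (hsq d hd)) k
    rw [← h3]
    calc (e * d) ^ k * d * (d * (e * d) ^ k * d) = (e * d) ^ k * (d * d) * (e * d) ^ k * d := by
          group
      _ = ((e * d) ^ k * (e * d) ^ k) * d := by rw [hsq d hd]; group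
      _ = e * (d * d) := by rw [hk]; group
      _ = e := by rw [hsq d hd, mul_one]
  have hcl : ∃ d ∈ E', E' = conjugatesOf d := by
    refine ⟨⟨d, hsub d hd⟩, hd, ?_⟩
    ext ⟨y, hy⟩
    constructor
    · intro hyE
      obtain ⟨k, hk⟩ := hmid y hyE
      refine isConj_iff.mpr ⟨(⟨y, hy⟩ * ⟨d, hsub d hd⟩) ^ k, ?_⟩
      exact Subtype.ext hk
    · intro hc
      obtain ⟨g, hg⟩ := isConj_iff.mp (show IsConj _ _ from hc)
      have := hconjL g.1 g.2 d hd
      have h3 : y = g.1 * d * g.1⁻¹ := (congrArg Subtype.val hg).symm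
      change y ∈ E
      rw [h3]; exact this
  have hgen : Subgroup.closure E' = ⊤ := by
    have := Subgroup.closure_preimage_eq_top E
    exact this
  obtain ⟨P, hPn, hPp, hPc⟩ := H33.Fischer1.conclusion p hp (by
      rintro rfl
      exact (Nat.not_odd_iff_even.mpr even_two) hodd) (D := E')
    (fun e he => orderOf_eq_prime (by rw [pow_two]; exact Subtype.ext (hsq e.1 he))
      (fun h3 => h1 e.1 he (congrArg Subtype.val h3))) hcl hgen (by
      intro x hx y hy hxy
      have h3 : (x * y) ^ p = 1 := Subtype.ext (hprod x.1 hx y.1 hy (fun h4 => hxy (Subtype.ext h4)))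
      have h2 := (Nat.dvd_prime hp).mp (orderOf_dvd_of_pow_eq_one h3)
      rcases h2 with h2 | h2
      · exact ⟨0, by rw [h2, pow_zero]⟩
      · exact ⟨1, by rw [h2, pow_one]⟩)
  -- `P` is transitive
  let P' : Subgroup (ConjAct L) := P.map (ConjAct.toConjAct (G := L)).toMonoidHom
  have hP' : IsPGroup p P' := hPp.map _
  set d' : L := ⟨d, hsub d hd⟩ with hd'
  obtain ⟨k, hk⟩ := hP'.card_orbit d'
  refine ⟨k, ?_⟩
  rw [← hk]
  have horb : MulAction.orbit P' d' = E' := by
    ext y
    constructor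
    · rintro ⟨⟨_, g, hg, rfl⟩, rfl⟩
      change ((ConjAct.toConjAct g) • d' : L) ∈ E'
      rw [ConjAct.toConjAct_smul]
      exact hconjL g.1 g.2 d hd
    · intro hy
      obtain ⟨j, hj⟩ := hmid y.1 hy
      have h3 : y * d' ∈ P := by
        by_cases hyd : y = d'
        · have : y * d' = 1 := by
            rw [hyd]; exact Subtype.ext (hsq d hd)
          rw [this]; exact one_mem _
        · have h4 : y = (y * d') ^ j * d' * ((y * d') ^ j)⁻¹ := Subtype.ext hj.symm
          have h5 : ⁅(y * d') ^ j, d'⁆ ∈ P :=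
            hPc (Subgroup.commutator_mem_commutator (Subgroup.mem_top _) (Subgroup.mem_top _))
          rw [commutatorElement_def] at h5
          rw [← h4] at h5
          have h6 : d'⁻¹ = d' := inv_eq (Subtype.ext (hsq d hd))
          rwa [h6] at h5
      refine ⟨⟨ConjAct.toConjAct ((y * d') ^ j), ⟨_, P.pow_mem h3 j, rfl⟩⟩, ?_⟩
      change (ConjAct.toConjAct ((y * d') ^ j)) • d' = y
      rw [ConjAct.toConjAct_smul]
      exact Subtype.ext hj
  rw [horb, Nat.card_coe_set_eq, hE', Set.ncard_preimage_of_injective_subset_range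
    Subtype.val_injective]
  rw [Subtype.range_coe]
  exact fun e he => hsub e he

end H44.PT
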