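import Cfsg.Agent.Lib.H44.PT4

/-! The action on the cliques: counting. -/

set_option autoImplicit false

namespace H44.PT

universe u v

open Cfsg

structure Cl {G : Type u} [Group G] (D : Set G) {Ω : Type v} [MulAction G Ω] (r : Ω → G) :
    Prop where
  mem : ∀ ω, r ω ∈ D
  inj : ∀ ω ω', Commute (r ω) (r ω') → ω = ω'
  smul : ∀ (g : G) (ω : Ω), Commute (r (g • ω)) (g * r ω * g⁻¹)
  cover : ∀ d ∈ D, ∃ ω, Commute d (r ω)

namespace Cl

variable {p : ℕ} {G : Type u} [Group G] [Finite G] {D : Set G} {Ω : Type v} [MulAction G Ω]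
  {r : Ω → G}

def E (D : Set G) (r : Ω → G) (ω : Ω) : Set G := {d | d ∈ D ∧ Commute d (r ω)}

def T (D : Set G) (ω ω' : Ω) : Set G := {d | d ∈ D ∧ d • ω = ω'}

theorem smul_iff (c : Cl D r) (h : Mn p D) (g : G) (ω ω' : Ω) :
    g • ω = ω' ↔ Commute (g * r ω * g⁻¹) (r ω') := by
  have h1 := h.pt.conj _ (c.mem ω) g
  constructor
  · rintro rfl
    exact (c.smul g ω).symm
  · intro h2
    exact c.inj _ _ (h.eqv h1 (c.mem ω') (c.mem _) h2 (c.smul g ω))

theorem fix_iff (c : Cl D r) (h : Mn p D) {d : G} (hd : d ∈ D) (ω : Ω) :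
    d • ω = ω ↔ Commute d (r ω) := by
  have hdd := h.pt.sq d hd
  rw [c.smul_iff h, inv_eq hdd]
  constructor
  · intro h1
    exact (h.pt.comm_of_conj h.odd (c.mem ω) hd h1.symm).symm
  · intro h1
    have : d * r ω * d = r ω := by rw [h1.eq, mul_assoc, hdd, mul_one]
    rw [this]

theorem card_T (c : Cl D r) (h : Mn p D) {ω ω' : Ω} (hne : ω ≠ ω') :
    (T D ω ω').ncard = (E D r ω').ncard := by
  have P := h.pt
  have hnc : ∀ d ∈ T D ω ω', ¬ Commute (r ω) d := by
    rintro d ⟨hd, hd'⟩ hcon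
    rw [(c.fix_iff h hd ω).mpr hcon.symm] at hd'
    exact hne hd'
  refine Set.ncard_congr (fun d _ => d * r ω * d) ?_ ?_ ?_
  · rintro d ⟨hd, hd'⟩
    refine ⟨P.conj' (c.mem ω) hd, ?_⟩
    rw [c.smul_iff h, inv_eq (P.sq d hd)] at hd'
    exact hd'
  · intro d e hd he hde
    exact P.mid_unique h.odd (c.mem ω) hd.1 he.1 hde (hnc d hd) (hnc e he)
  · rintro y ⟨hy, hy'⟩
    have h1 : ¬ Commute (r ω) y := by
      intro hcon
      exact hne (c.inj _ _ (h.eqv hy (c.mem ω') (c.mem ω) hy' hcon))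
    obtain ⟨d, hd, hdy⟩ := P.exists_mid h.odd (c.mem ω) hy (P.pow_of_not_comm (c.mem ω) hy h1)
    refine ⟨d, ⟨hd, ?_⟩, hdy⟩
    rw [c.smul_iff h, inv_eq (P.sq d hd), hdy]
    exact hy'

theorem card_E (c : Cl D r) (h : Mn p D) [MulAction.IsPretransitive G Ω] (ω ω' : Ω) :
    (E D r ω).ncard = (E D r ω').ncard := by
  have P := h.pt
  obtain ⟨g, hg⟩ := MulAction.exists_smul_eq G ω ω'
  rw [c.smul_iff h] at hg
  refine Set.ncard_congr (fun d _ => g * d * g⁻¹) ?_ ?_ ?_
  · rintro d ⟨hd, hd'⟩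
    refine ⟨P.conj d hd g, ?_⟩
    have h1 := hd'.map (MulAut.conj g)
    rw [MulAut.conj_apply, MulAut.conj_apply] at h1
    exact h.eqv (P.conj _ (c.mem ω) g) (c.mem ω') (P.conj d hd g) hg h1
  · intro d e _ _ hde
    simpa using hde
  · rintro y ⟨hy, hy'⟩
    refine ⟨g⁻¹ * y * g, ⟨?_, ?_⟩, by group⟩
    · have := P.conj y hy g⁻¹
      rwa [inv_inv] at this
    · have h1 := h.eqv (c.mem ω') (P.conj _ (c.mem ω) g) hy hg.symm hy'
      have h2 := h1.map (MulAut.conj g⁻¹)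
      rw [MulAut.conj_apply, MulAut.conj_apply, inv_inv] at h2
      have h3 : g⁻¹ * (g * r ω * g⁻¹) * g = r ω := by group
      rwa [h3] at h2

theorem two_pow (c : Cl D r) (h : Mn p D) (ω : Ω) : ∃ f, (E D r ω).ncard + 1 = 2 ^ f := by
  classical
  have P := h.pt
  have : Fact (Nat.Prime 2) := ⟨Nat.prime_two⟩
  let U : Subgroup G :=
    { carrier := insert 1 (E D r ω)
      one_mem' := Set.mem_insert _ _
      mul_mem' := by
        rintro a b (rfl | ha) (rfl | hb)
        · left; exact one_mul 1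
        · right; rw [one_mul]; exact hb
        · right; rw [mul_one]; exact ha
        · have hab : Commute a b := h.eqv (c.mem ω) hb.1 ha.1 hb.2.symm ha.2
          by_cases hne : a = b
          · left; rw [hne]; exact P.sq b hb.1
          · right
            exact ⟨h.mul_mem ha.1 hb.1 hab hne, ha.2.mul_left hb.2⟩
      inv_mem' := by
        rintro a (rfl | ha)
        · left; exact inv_one
        · right; rw [inv_eq (P.sq a ha.1)]; exact ha }
  have hU : IsPGroup 2 U := by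
    rintro ⟨a, ha⟩
    refine ⟨1, ?_⟩
    apply Subtype.ext
    change a ^ 2 ^ 1 = 1
    rcases ha with rfl | ha
    · exact one_pow _
    · rw [pow_one, pow_two]; exact P.sq a ha.1
  obtain ⟨f, hf⟩ := IsPGroup.iff_card.mp hU
  refine ⟨f, ?_⟩
  rw [← hf]
  have h1 : Nat.card U = (insert 1 (E D r ω)).ncard := rfl
  rw [h1, Set.ncard_insert_of_notMem (fun h2 => h.ne1 1 h2.1 rfl)]

theorem not_comm_T (c : Cl D r) (h : Mn p D) {ω ω' : Ω} (hne : ω ≠ ω') {d e : G}
    (hd : d ∈ T D ω ω') (he : e ∈ T D ω ω') (hde : d ≠ e) : ¬ Commute d e := by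
  intro hcon
  have P := h.pt
  have h1 := h.mul_mem hd.1 he.1 hcon hde
  have h2 : (d * e) • ω = ω := by
    rw [mul_smul, he.2, ← hd.2, ← mul_smul, P.sq d hd.1, one_smul]
  have h3 := (c.fix_iff h h1 ω).mp h2
  have h4 := P.comm_of_mul h.odd hd.1 he.1 (c.mem ω) hcon hde h3.symm
  have h5 := (c.fix_iff h hd.1 ω).mpr h4.symm
  rw [hd.2] at h5
  exact hne h5.symm

theorem exists_ne (c : Cl D r) (h : Mn p D) : ∃ ω ω' : Ω, ω ≠ ω' := by
  by_contra hcon
  push Not at hcon
  obtain ⟨d, hd⟩ := h.nonempty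
  have h1 : Subgroup.closure D ≤ Subgroup.centralizer ({d} : Set G) := by
    rw [Subgroup.closure_le]
    intro y hy
    rw [SetLike.mem_coe, Subgroup.mem_centralizer_singleton_iff]
    obtain ⟨ω, hω⟩ := c.cover d hd
    obtain ⟨ω', hω'⟩ := c.cover y hy
    rw [hcon ω' ω] at hω'
    exact (h.eqv (c.mem ω) hd hy hω.symm hω').eq
  rw [h.gen] at h1
  have h2 : d ∈ Subgroup.center G := by
    rw [Subgroup.mem_center_iff]
    intro g
    have := h1 (Subgroup.mem_top g)
    rw [Subgroup.mem_centralizer_singleton_iff] at this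
    exact this
  rw [h.center_bot, Subgroup.mem_bot] at h2
  exact h.ne1 d hd h2

theorem T_pow (c : Cl D r) (h : Mn p D) {ω ω' : Ω} (hne : ω ≠ ω') :
    ∀ d ∈ T D ω ω', ∀ e ∈ T D ω ω', d ≠ e → (d * e) ^ p = 1 := fun d hd e he hde =>
  h.pt.pow_of_not_comm hd.1 he.1 (c.not_comm_T h hne hd he hde)

theorem T_conj (h : Mn p D) {ω ω' : Ω} : ∀ d ∈ T D ω ω', ∀ e ∈ T D ω ω', e * d * e ∈ T D ω ω' := by
  rintro d ⟨hd, hd'⟩ e ⟨he, he'⟩
  have P := h.pt
  refine ⟨P.conj' hd he, ?_⟩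
  have h1 : d • ω' = ω := by rw [← hd', ← mul_smul, P.sq d hd, one_smul]
  rw [mul_smul, he', mul_smul, h1, he']

/-- the cliques have `p` elements -/
theorem card_E_eq (c : Cl D r) (h : Mn p D) [MulAction.IsPretransitive G Ω] (ω : Ω) :
    (E D r ω).ncard = p := by
  have P := h.pt
  obtain ⟨x, hx, a, ha, hne, hc⟩ := h.exists_comm
  obtain ⟨ω₀, h0⟩ := c.cover x hx
  have h1 : 2 ≤ (E D r ω₀).ncard := by
    have h2 : ({x, a} : Set G) ⊆ E D r ω₀ := by
      rintro y (rfl | rfl)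
      · exact ⟨hx, h0⟩
      · exact ⟨ha, (h.eqv hx ha (c.mem ω₀) hc h0.symm).symm⟩
    have h3 := Set.ncard_le_ncard h2
    rwa [Set.ncard_pair hne] at h3
  rw [c.card_E h ω₀ ω] at h1
  obtain ⟨f, hf⟩ := c.two_pow h ω
  obtain ⟨ω₁, ω₂, h12⟩ := c.exists_ne h
  have h4 := c.card_T h h12
  rw [c.card_E h ω₂ ω] at h4
  have h5 : (T D ω₁ ω₂).Nonempty := by
    rw [← Set.ncard_pos, h4]; omega
  obtain ⟨j, hj⟩ := card_pow h.prime h.odd h5 (fun d hd => P.sq d hd.1) (fun d hd => h.ne1 d hd.1)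
    (T_conj h) (c.T_pow h h12)
  rw [h4] at hj
  rw [hj] at hf h1 ⊢
  rw [mersenne h.odd hf h1, pow_one]

theorem card_T_eq (c : Cl D r) (h : Mn p D) [MulAction.IsPretransitive G Ω] {ω ω' : Ω}
    (hne : ω ≠ ω') : (T D ω ω').ncard = p := by
  rw [c.card_T h hne, c.card_E_eq h]

/-- some product of two members has no fixed point -/
theorem exists_free (c : Cl D r) (h : Mn p D) [MulAction.IsPretransitive G Ω] [Finite Ω] :
    ∃ g : G, g ^ p = 1 ∧ ∀ ω : Ω, g • ω ≠ ω := by
  classical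
  have := Fintype.ofFinite Ω
  have := Fintype.ofFinite G
  have P := h.pt
  by_contra hcon
  push Not at hcon
  obtain ⟨x, hx⟩ := h.nonempty
  obtain ⟨ω₀, h0⟩ := c.cover x hx
  have hxx := P.sq x hx
  -- the set of members not commuting with `x`
  set B : Finset G := (Finset.univ.filter fun b => b ∈ D ∧ ¬ Commute x b) with hB
  have h1 : B = (Finset.univ.erase ω₀).biUnion (fun ω => (E D r ω).toFinset) := by
    ext b
    simp only [hB, Finset.mem_filter, Finset.mem_univ, true_and, Finset.mem_biUnion,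
      Finset.mem_erase, and_true, Set.mem_toFinset]
    constructor
    · rintro ⟨hb, hxb⟩
      obtain ⟨ω, hω⟩ := c.cover b hb
      refine ⟨ω, ?_, hb, hω⟩
      rintro rfl
      exact hxb (h.eqv (c.mem ω) hb hx hω.symm h0)
    · rintro ⟨ω, hω, hb, hbω⟩
      refine ⟨hb, fun hxb => hω ?_⟩
      have h2 : Commute (r ω) x := h.eqv hb hx (c.mem ω) hxb.symm hbω.symm
      exact c.inj _ _ (h.eqv hx (c.mem ω₀) (c.mem ω) h0 h2)
  have hcardB : B.card = (Fintype.card Ω - 1) * p := by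
    rw [h1, Finset.card_biUnion]
    · have : ∀ ω ∈ Finset.univ.erase ω₀, (E D r ω).toFinset.card = p := by
        intro ω _
        rw [← Set.ncard_eq_toFinset_card']
        exact c.card_E_eq h ω
      rw [Finset.sum_congr rfl this, Finset.sum_const, Finset.card_erase_of_mem (Finset.mem_univ _),
        Finset.card_univ, smul_eq_mul]
    · intro ω _ ω' _ hne
      change Disjoint (E D r ω).toFinset (E D r ω').toFinset
      rw [Finset.disjoint_left]
      intro y hy hy'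
      rw [Set.mem_toFinset] at hy hy'
      exact hne (c.inj _ _ (h.eqv hy.1 (c.mem ω') (c.mem ω) hy'.2 hy.2.symm))
  have h2 : B ⊆ (Finset.univ.erase ω₀).biUnion
      (fun ω => (T D ω (x • ω)).toFinset.erase x) := by
    intro b hb
    simp only [hB, Finset.mem_filter, Finset.mem_univ, true_and] at hb
    obtain ⟨hb, hxb⟩ := hb
    obtain ⟨ω, hω⟩ := hcon (x * b) (P.pow_of_not_comm hx hb hxb)
    have h3 : b • ω = x • ω := by
      have := congrArg (fun z => x • z) hω
      simp only [mul_smul] at this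
      rwa [← mul_smul x x, hxx, one_smul] at this
    simp only [Finset.mem_biUnion, Finset.mem_erase, Finset.mem_univ, and_true, Set.mem_toFinset]
    refine ⟨ω, ?_, ?_, hb, h3⟩
    · rintro rfl
      have h4 : x • ω = ω := (c.fix_iff h hx ω).mpr h0
      rw [h4] at h3
      have h5 := (c.fix_iff h hb ω).mp h3
      exact hxb (h.eqv (c.mem ω) hb hx h5.symm h0)
    · rintro rfl
      exact hxb (Commute.refl _)
  have h3 := (Finset.card_le_card h2).trans Finset.card_biUnion_le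
  have h4 : ∀ ω ∈ Finset.univ.erase ω₀, ((T D ω (x • ω)).toFinset.erase x).card = p - 1 := by
    intro ω hω
    rw [Finset.mem_erase] at hω
    have hne : ω ≠ x • ω := by
      intro h5
      have h6 := (c.fix_iff h hx ω).mp h5.symm
      exact hω.1 (c.inj _ _ (h.eqv hx (c.mem ω₀) (c.mem ω) h0 h6.symm))
    rw [Finset.card_erase_of_mem, ← Set.ncard_eq_toFinset_card', c.card_T_eq h hne]
    rw [Set.mem_toFinset]
    exact ⟨hx, rfl⟩
  rw [Finset.sum_congr rfl h4, Finset.sum_const, Finset.card_erase_of_mem (Finset.mem_univ _),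
    Finset.card_univ, smul_eq_mul, hcardB] at h3
  obtain ⟨ω₁, ω₂, h12⟩ := c.exists_ne h
  have h5 : 2 ≤ Fintype.card Ω := by
    have : Nontrivial Ω := ⟨ω₁, ω₂, h12⟩
    exact Fintype.one_lt_card
  have h6 := h.prime.two_le
  obtain ⟨m, hm⟩ : ∃ m, Fintype.card Ω - 1 = m + 1 := ⟨Fintype.card Ω - 2, by omega⟩
  obtain ⟨q, hq⟩ : ∃ q, p = q + 1 := ⟨p - 1, by omega⟩
  rw [hm, hq] at h3
  have h7 : q + 1 - 1 = q := by omega
  rw [h7] at h3
  nlinarith

theorem dvd_card (c : Cl D r) (h : Mn p D) [MulAction.IsPretransitive G Ω] [Finite Ω] :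
    p ∣ Nat.card Ω := by
  have : Fact p.Prime := ⟨h.prime⟩
  obtain ⟨g, hg, hfree⟩ := c.exists_free h
  have hP : IsPGroup p (Subgroup.zpowers g) := by
    have h1 : orderOf g ∣ p ^ 1 := orderOf_dvd_of_pow_eq_one (by rw [pow_one]; exact hg)
    exact IsPGroup.of_card_dvd_pow (n := 1) (by rw [Nat.card_zpowers]; exact h1)
  have h1 := hP.card_modEq_card_fixedPoints Ω
  have h2 : IsEmpty (MulAction.fixedPoints (Subgroup.zpowers g) Ω) := by
    constructor
    rintro ⟨ω, hω⟩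
    exact hfree ω (hω ⟨g, Subgroup.mem_zpowers g⟩)
  have h3 : Nat.card (MulAction.fixedPoints (Subgroup.zpowers g) Ω) = 0 := Nat.card_of_isEmpty
  rw [h3] at h1
  exact (Nat.modEq_zero_iff_dvd.mp h1)

end Cl

end H44.PT
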