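import Cfsg.Agent.Lib.H44.PT5

/-! The final contradiction. -/

set_option autoImplicit false

namespace H44.PT

universe u v

open Cfsg

/-- a `p`-element normalising a subgroup of order `p` centralises it -/
theorem comm_of_norm {G : Type u} [Group G] {p : ℕ} (hp : p.Prime) {u q : G} (hu : u ^ p = 1)
    {m : ℕ} (hq : q ^ (p ^ m) = 1) (hn : q * u * q⁻¹ ∈ Subgroup.zpowers u) : Commute q u := by
  have : Fact p.Prime := ⟨hp⟩
  by_cases hu1 : u = 1
  · rw [hu1]; exact Commute.one_right q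
  have ho : orderOf u = p := orderOf_eq_prime hu hu1
  obtain ⟨c, hc⟩ := hn
  have h1 : ∀ n : ℕ, q ^ n * u * (q ^ n)⁻¹ = u ^ (c ^ n) := by
    intro n
    induction n with
    | zero => simp
    | succ n ih =>
      have h2 : q ^ (n + 1) * u * (q ^ (n + 1))⁻¹ = q * (q ^ n * u * (q ^ n)⁻¹) * q⁻¹ := by
        rw [pow_succ']; group
      rw [h2, ih, ← conj_zpow, ← hc]
      change (u ^ c) ^ (c ^ n) = _
      rw [← zpow_mul, pow_succ']
  have h2 := h1 (p ^ m)
  rw [hq, one_mul, inv_one, mul_one] at h2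
  have h3 : ((c ^ (p ^ m) : ℤ) : ZMod p) = ((1 : ℤ) : ZMod p) := by
    rw [ZMod.intCast_eq_intCast_iff_dvd_sub]
    have h5 : ((orderOf u : ℕ) : ℤ) ∣ 1 - c ^ (p ^ m) := by
      rw [orderOf_dvd_iff_zpow_eq_one, zpow_sub, zpow_one, ← h2, mul_inv_cancel]
    rwa [ho] at h5
  have h4 : ((c : ℤ) : ZMod p) = ((1 : ℤ) : ZMod p) := by
    rw [← h3]
    push_cast
    rw [ZMod.pow_card_pow]
  have h5 : u ^ c = u := by
    rw [ZMod.intCast_eq_intCast_iff_dvd_sub, ← ho, orderOf_dvd_iff_zpow_eq_one, zpow_sub,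
      zpow_one] at h4
    exact (mul_inv_eq_one.mp h4).symm
  have h6 : q * u * q⁻¹ = u := by rw [← hc]; exact h5
  exact mul_inv_eq_iff_eq_mul.mp h6

namespace Cl

variable {p : ℕ} {G : Type u} [Group G] [Finite G] {D : Set G} {Ω : Type v} [MulAction G Ω]
  {r : Ω → G}

/-- the rotation attached to a pair of points -/
theorem T_eq (c : Cl D r) (h : Mn p D) [MulAction.IsPretransitive G Ω] {ω ω' : Ω}
    (hne : ω ≠ ω') {d e : G} (hd : d ∈ T D ω ω') (he : e ∈ T D ω ω') (hde : d ≠ e) :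
    ∀ y ∈ T D ω ω', ∃ v ∈ Subgroup.zpowers (d * e), y = d * v := by
  have P := h.pt
  have hdd := P.sq d hd.1
  have hee := P.sq e he.1
  have hu := c.T_pow h hne d hd e he hde
  have hu1 : d * e ≠ 1 := P.mul_ne_one_of_ne he.1 hde
  have : Fact p.Prime := ⟨h.prime⟩
  have ho : orderOf (d * e) = p := orderOf_eq_prime hu hu1
  have hfix : (d * e) • ω = ω := by
    rw [mul_smul, he.2, ← hd.2, ← mul_smul, hdd, one_smul]
  have hfix' : ∀ v ∈ Subgroup.zpowers (d * e), v • ω = ω := by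
    have h1 : Subgroup.zpowers (d * e) ≤ MulAction.stabilizer G ω := by
      rw [Subgroup.zpowers_le]; exact hfix
    exact fun v hv => h1 hv
  set A : Set G := (fun v => d * v) '' (Subgroup.zpowers (d * e) : Set G) with hA
  have hAT : A ⊆ T D ω ω' := by
    rintro _ ⟨v, hv, rfl⟩
    refine ⟨?_, ?_⟩
    · obtain ⟨k, rfl⟩ := hv
      exact P.mul_zpow_mem hd.1 (inv_mul_left hdd hee) h.odd hu k
    · change (d * v) • ω = ω'
      rw [mul_smul, hfix' v hv, hd.2]
  have hAcard : A.ncard = p := by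
    rw [hA, Set.ncard_image_of_injective _ (mul_right_injective d)]
    change Nat.card (Subgroup.zpowers (d * e)) = p
    rw [Nat.card_zpowers, ho]
  have hAT' : A = T D ω ω' := Set.eq_of_subset_of_ncard_le hAT (by
    rw [hAcard, c.card_T_eq h hne])
  intro y hy
  rw [← hAT'] at hy
  obtain ⟨v, hv, rfl⟩ := hy
  exact ⟨v, hv, rfl⟩

theorem exists_two (c : Cl D r) (h : Mn p D) [MulAction.IsPretransitive G Ω] {ω ω' : Ω}
    (hne : ω ≠ ω') (d : G) : ∃ e ∈ T D ω ω', e ≠ d := by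
  have h1 : 1 < (T D ω ω').ncard := by rw [c.card_T_eq h hne]; exact h.prime.one_lt
  exact Set.exists_ne_of_one_lt_ncard h1 d

theorem final (c : Cl D r) (h : Mn p D) [MulAction.IsPretransitive G Ω] [Finite Ω] : False := by
  classical
  have := Fintype.ofFinite Ω
  have P := h.pt
  have hpF : Fact p.Prime := ⟨h.prime⟩
  -- a maximal `p`-subgroup with a fixed point
  obtain ⟨Q, ⟨hQp, ω₁, hω₁⟩, hQmax⟩ : ∃ Q : Subgroup G, (IsPGroup p Q ∧ ∃ ω : Ω, ∀ q ∈ Q,
      q • ω = ω) ∧ ∀ R : Subgroup G, (IsPGroup p R ∧ ∃ ω : Ω, ∀ q ∈ R, q • ω = ω) → Q ≤ R →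
      R ≤ Q := by
    have h1 : {R : Subgroup G | IsPGroup p R ∧ ∃ ω : Ω, ∀ q ∈ R, q • ω = ω}.Nonempty := by
      obtain ⟨ω, -, -⟩ := c.exists_ne h
      exact ⟨⊥, IsPGroup.of_bot, ω, fun q hq => by
        rw [Subgroup.mem_bot.mp hq, one_smul]⟩
    obtain ⟨Q, hQ⟩ := (Set.toFinite _).exists_maximal h1
    exact ⟨Q, hQ.1, fun R hR hQR => hQ.2 hR hQR⟩
  have hQel : ∀ q ∈ Q, ∃ m, q ^ (p ^ m) = 1 := by
    intro q hq
    obtain ⟨m, hm⟩ := hQp ⟨q, hq⟩
    exact ⟨m, congrArg Subtype.val hm⟩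
  set Φ : Finset Ω := Finset.univ.filter fun ω => ∀ q ∈ Q, q • ω = ω with hΦ
  have memΦ : ∀ ω, ω ∈ Φ ↔ ∀ q ∈ Q, q • ω = ω := by intro ω; simp [hΦ]
  have hΦp : p ∣ Φ.card := by
    have h1 := hQp.card_modEq_card_fixedPoints Ω
    have h2 : Nat.card (MulAction.fixedPoints Q Ω) = Φ.card := by
      rw [Nat.card_coe_set_eq, ← Set.ncard_coe_finset]
      congr 1
      ext ω
      rw [MulAction.mem_fixedPoints, Finset.mem_coe, memΦ]
      exact ⟨fun h3 q hq => h3 ⟨q, hq⟩, fun h3 q => h3 q.1 q.2⟩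
    rw [h2] at h1
    have h3 := c.dvd_card h
    exact (h1.dvd_iff dvd_rfl).mp h3
  have hω₁Φ : ω₁ ∈ Φ := (memΦ _).mpr hω₁
  -- the main local fact
  have key : ∀ ω ∈ Φ, ∀ ω' ∈ Φ, ω ≠ ω' → ∀ d ∈ T D ω ω', ∀ e ∈ T D ω ω', d ≠ e →
      d * e ∈ Q ∧ ∀ q ∈ Q, ∃ v ∈ Subgroup.zpowers (d * e), d * q * d = v * q := by
    intro ω hω ω' hω' hne d hd e he hde
    have hdd := P.sq d hd.1
    have hee := P.sq e he.1
    have hu := c.T_pow h hne d hd e he hde
    have hT := c.T_eq h hne hd he hde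
    have hQT : ∀ q ∈ Q, ∀ y ∈ T D ω ω', q * y * q⁻¹ ∈ T D ω ω' := by
      intro q hq y hy
      refine ⟨P.conj y hy.1 q, ?_⟩
      have h1 : q⁻¹ • ω = ω := (memΦ ω).mp hω _ (Q.inv_mem hq)
      rw [mul_smul, h1, mul_smul, hy.2]
      exact (memΦ ω').mp hω' q hq
    have hcomm : ∀ q ∈ Q, Commute q (d * e) := by
      intro q hq
      obtain ⟨m, hm⟩ := hQel q hq
      refine comm_of_norm h.prime hu hm ?_
      obtain ⟨v, hv, hv'⟩ := hT _ (hQT q hq d hd)
      obtain ⟨w, hw, hw'⟩ := hT _ (hQT q hq e he)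
      have h1 : q * (d * e) * q⁻¹ = (q * d * q⁻¹) * (q * e * q⁻¹) := by group
      rw [h1, hv', hw']
      obtain ⟨k, rfl⟩ := hv
      have h2 := conj_zpow' hdd (inv_mul_left hdd hee) k
      have h3 : d * (d * e) ^ k * (d * w) = (d * (d * e) ^ k * d) * w := by group
      change d * (d * e) ^ k * (d * w) ∈ _
      rw [h3, h2]
      exact mul_mem (inv_mem (Subgroup.zpow_mem _ (Subgroup.mem_zpowers _) k)) hw
    have hfixω : (d * e) • ω = ω := by
      rw [mul_smul, he.2, ← hd.2, ← mul_smul, hdd, one_smul]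
    have huQ : d * e ∈ Q := by
      have hup : IsPGroup p (Subgroup.zpowers (d * e)) := by
        have h1 : orderOf (d * e) ∣ p ^ 1 := orderOf_dvd_of_pow_eq_one (by rw [pow_one]; exact hu)
        exact IsPGroup.of_card_dvd_pow (n := 1) (by rw [Nat.card_zpowers]; exact h1)
      have hnorm : Q ≤ Subgroup.normalizer (Subgroup.zpowers (d * e) : Set G) := by
        intro q hq
        rw [Subgroup.mem_normalizer_iff]
        intro y
        constructor
        · rintro ⟨k, rfl⟩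
          have h1 := ((hcomm q hq).zpow_right k).eq
          change q * (d * e) ^ k * q⁻¹ ∈ _
          rw [h1, mul_inv_cancel_right]
          exact Subgroup.zpow_mem _ (Subgroup.mem_zpowers _) k
        · rintro ⟨k, hk⟩
          have h1 := ((hcomm q hq).zpow_right k).eq
          have h2 : y = (d * e) ^ k := by
            have h3 : q * y * q⁻¹ = q * (d * e) ^ k * q⁻¹ := by
              rw [h1, mul_inv_cancel_right]; exact hk.symm
            simpa using h3
          rw [h2]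
          exact Subgroup.zpow_mem _ (Subgroup.mem_zpowers _) k
      have hsup : IsPGroup p ↥(Q ⊔ Subgroup.zpowers (d * e)) :=
        hQp.to_sup_of_normal_right' hup hnorm
      have h1 := hQmax (Q ⊔ Subgroup.zpowers (d * e)) ⟨hsup, ω, by
        have h2 : Q ⊔ Subgroup.zpowers (d * e) ≤ MulAction.stabilizer G ω := by
          rw [sup_le_iff]
          refine ⟨fun q hq => (memΦ ω).mp hω q hq, ?_⟩
          rw [Subgroup.zpowers_le]
          exact hfixω
        exact fun q hq => h2 hq⟩ le_sup_left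
      exact h1 (Subgroup.mem_sup_right (Subgroup.mem_zpowers _))
    refine ⟨huQ, ?_⟩
    intro q hq
    obtain ⟨v, hv, hv'⟩ := hT _ (hQT q hq d hd)
    refine ⟨v, hv, ?_⟩
    have h1 : q * d = d * v * q := by rw [← hv']; group
    calc d * q * d = d * (q * d) := by group
      _ = (d * d) * v * q := by rw [h1]; group
      _ = v * q := by rw [hdd, one_mul]
  -- the members normalising `Q`
  set DQ : Finset G := (Set.toFinite {d | d ∈ D ∧ ∀ q ∈ Q, d * q * d ∈ Q}).toFinset with hDQ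
  have memDQ : ∀ d, d ∈ DQ ↔ d ∈ D ∧ ∀ q ∈ Q, d * q * d ∈ Q := by
    intro d; simp [hDQ]
  have T_sub : ∀ ω ∈ Φ, ∀ ω' ∈ Φ, ω ≠ ω' → ∀ d ∈ T D ω ω', d ∈ DQ := by
    intro ω hω ω' hω' hne d hd
    obtain ⟨e, he, hed⟩ := c.exists_two h hne d
    obtain ⟨k1, k2⟩ := key ω hω ω' hω' hne d hd e he (Ne.symm hed)
    rw [memDQ]
    refine ⟨hd.1, fun q hq => ?_⟩
    obtain ⟨v, hv, hv'⟩ := k2 q hq
    rw [hv']
    exact Q.mul_mem ((Subgroup.zpowers_le.mpr k1) hv) hq
  have DQ_map : ∀ d ∈ DQ, ∀ ω ∈ Φ, d • ω ∈ Φ := by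
    intro d hd ω hω
    rw [memDQ] at hd
    rw [memΦ]
    intro q hq
    have h1 : q • d • ω = d • (d * q * d) • ω := by
      rw [← mul_smul, ← mul_smul]
      congr 1
      calc q * d = 1 * q * d := by group
        _ = (d * d) * q * d := by rw [P.sq d hd.1]
        _ = d * (d * q * d) := by group
    rw [h1, (memΦ ω).mp hω _ (hd.2 q hq)]
  have hΦne : ∃ ω₂ ∈ Φ, ω₁ ≠ ω₂ := by
    by_contra hcon
    push Not at hcon
    have h1 : Φ = {ω₁} := by
      ext ω
      rw [Finset.mem_singleton]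
      constructor
      · intro h2; exact (hcon ω h2).symm
      · rintro rfl; exact hω₁Φ
    rw [h1, Finset.card_singleton] at hΦp
    exact h.prime.one_lt.ne' (Nat.dvd_one.mp hΦp)
  obtain ⟨ω₂, hω₂Φ, h12⟩ := hΦne
  have DQ_free : ∀ d ∈ DQ, ∀ ω ∈ Φ, d • ω ≠ ω := by
    intro d hd ω hω hfix
    rw [memDQ] at hd
    obtain ⟨hd, hdQ⟩ := hd
    have hdd := P.sq d hd
    obtain ⟨d₁, hd₁, -⟩ := c.exists_two h h12 1
    obtain ⟨d₂, hd₂, hd₂₁⟩ := c.exists_two h h12 d₁
    obtain ⟨k1, -⟩ := key ω₁ hω₁Φ ω₂ hω₂Φ h12 d₁ hd₁ d₂ hd₂ (Ne.symm hd₂₁)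
    have hQd : ∀ q ∈ Q, Commute d q := by
      intro q hq
      have h1 : (q * d * q⁻¹) • ω = ω := by
        have h2 : q⁻¹ • ω = ω := (memΦ ω).mp hω _ (Q.inv_mem hq)
        rw [mul_smul, h2, mul_smul, hfix]
        exact (memΦ ω).mp hω q hq
      have m1 := P.conj d hd q
      have h2 := (c.fix_iff h hd ω).mp hfix
      have h3 := (c.fix_iff h m1 ω).mp h1
      have h4 : Commute d (q * d * q⁻¹) := h.eqv (c.mem ω) m1 hd h3.symm h2
      have h5 : d * (q * d * q⁻¹) ∈ Q := by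
        have : d * (q * d * q⁻¹) = (d * q * d) * q⁻¹ := by group
        rw [this]
        exact Q.mul_mem (hdQ q hq) (Q.inv_mem hq)
      have h6 := P.mul_sq hd m1 h4
      obtain ⟨m, hm⟩ := hQel _ h5
      have h7 := eq_one_of_sq_of_odd h6 h.odd.pow hm
      have h8 : q * d * q⁻¹ = d := by
        have := eq_inv_of_mul_eq_one_right h7
        rwa [inv_eq hdd] at this
      exact (mul_inv_eq_iff_eq_mul.mp h8).symm
    have hu := c.T_pow h h12 d₁ hd₁ d₂ hd₂ (Ne.symm hd₂₁)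
    have hu1 := P.mul_ne_one_of_ne hd₂.1 (Ne.symm hd₂₁)
    have e1 := P.sq d₁ hd₁.1
    have e2 := P.sq d₂ hd₂.1
    have g1 := P.comm_of_cent h.odd hd hd₁.1 (hQd _ k1) (inv_mul_left e1 e2) h.odd hu hu1
    have g2 := P.comm_of_cent h.odd hd hd₂.1 (hQd _ k1) (inv_mul_right e1 e2) h.odd hu hu1
    exact c.not_comm_T h h12 hd₁ hd₂ (Ne.symm hd₂₁) (h.eqv hd hd₂.1 hd₁.1 g2 g1.symm)
  have cardDQ : DQ.card = (Φ.card - 1) * p := by
    have h1 : DQ = (Φ.erase ω₁).biUnion (fun ω => (Set.toFinite (T D ω₁ ω)).toFinset) := by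
      ext d
      simp only [Finset.mem_biUnion, Finset.mem_erase, Set.Finite.mem_toFinset]
      constructor
      · intro hd
        exact ⟨d • ω₁, ⟨DQ_free d hd ω₁ hω₁Φ, DQ_map d hd ω₁ hω₁Φ⟩, ((memDQ d).mp hd).1, rfl⟩
      · rintro ⟨ω, ⟨hω, hω'⟩, hd⟩
        exact T_sub ω₁ hω₁Φ ω hω' (Ne.symm hω) d hd
    rw [h1, Finset.card_biUnion]
    · have h2 : ∀ ω ∈ Φ.erase ω₁, ((Set.toFinite (T D ω₁ ω)).toFinset).card = p := by
        intro ω hω
        rw [Finset.mem_erase] at hω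
        rw [← Set.ncard_eq_toFinset_card]
        exact c.card_T_eq h (Ne.symm hω.1)
      rw [Finset.sum_congr rfl h2, Finset.sum_const, Finset.card_erase_of_mem hω₁Φ, smul_eq_mul]
    · intro ω _ ω' _ hne
      change Disjoint (Set.toFinite (T D ω₁ ω)).toFinset (Set.toFinite (T D ω₁ ω')).toFinset
      rw [Finset.disjoint_left]
      intro y hy hy'
      rw [Set.Finite.mem_toFinset] at hy hy'
      exact hne (hy.2.symm.trans hy'.2)
  have DQ_nc : ∀ d ∈ DQ, ∀ d' ∈ DQ, d ≠ d' → ¬ Commute d d' := by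
    intro d hd d' hd' hne hcon
    have hdT : d ∈ T D ω₁ (d • ω₁) := ⟨((memDQ d).mp hd).1, rfl⟩
    have hne1 : ω₁ ≠ d • ω₁ := Ne.symm (DQ_free d hd ω₁ hω₁Φ)
    obtain ⟨d₀, hd₀, hd₀d⟩ := c.exists_two h hne1 d
    obtain ⟨k1, k2⟩ := key ω₁ hω₁Φ _ (DQ_map d hd ω₁ hω₁Φ) hne1 d hdT d₀ hd₀ (Ne.symm hd₀d)
    have hdd := P.sq d hdT.1
    have hdd0 := P.sq d₀ hd₀.1
    have hd'D := ((memDQ d').mp hd').1
    have hdd' := P.sq d' hd'D
    have hu := c.T_pow h hne1 d hdT d₀ hd₀ (Ne.symm hd₀d)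
    have hu1 := P.mul_ne_one_of_ne hd₀.1 (Ne.symm hd₀d)
    set w := d * d₀ with hw
    have hi := inv_mul_left hdd hdd0
    have hi0 := inv_mul_right hdd hdd0
    rw [← hw] at hi hi0
    set q := d' * w * d' with hq
    have hqQ : q ∈ Q := ((memDQ d').mp hd').2 _ k1
    have hqp : q ^ p = 1 := by
      have h1 := conj_pow (i := p) (a := d') (b := w)
      rw [inv_eq hdd', ← hq, hu, mul_one, hdd'] at h1
      exact h1
    obtain ⟨v, hv, hv'⟩ := k2 q hqQ
    have h1 : d * q * d = q⁻¹ := by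
      calc d * q * d = (d * d') * w * (d' * d) := by rw [hq]; group
        _ = (d' * d) * w * (d * d') := by rw [hcon.eq]
        _ = d' * (d * w * d) * d' := by group
        _ = (d' * w * d')⁻¹ := by rw [hi]; simp only [mul_inv_rev, inv_eq hdd', mul_assoc]
    rw [h1] at hv'
    have h2 : q * q = v⁻¹ := by
      have h3 : v = q⁻¹ * q⁻¹ := eq_mul_inv_of_mul_eq hv'.symm
      rw [h3, mul_inv_rev, inv_inv]
    have hqz : q ∈ Subgroup.zpowers w := by
      obtain ⟨k, hk⟩ := h.odd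
      have h3 : q = (q * q) ^ (k + 1) := by
        rw [← pow_two, ← pow_mul]
        have : 2 * (k + 1) = p + 1 := by omega
        rw [this, pow_succ, hqp, one_mul]
      rw [h3, h2]
      exact Subgroup.pow_mem _ (inv_mem hv) _
    have hd'w : d' * w * d' = w⁻¹ := by
      by_contra hcon2
      rw [← hq] at hcon2
      have hwq : w * q ≠ 1 := fun h3 => hcon2 (eq_inv_of_mul_eq_one_right h3)
      obtain ⟨j, hj⟩ := hqz
      have hj' : w ^ j = q := hj
      have hwqj : w * q = w ^ (1 + j) := by rw [zpow_add, zpow_one, hj']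
      have hcwq : Commute w q := by
        rw [← hj']; exact (Commute.refl w).zpow_right j
      have c1 : Commute d' (w * q) := by
        have h4 : d' * (w * q) * d' = w * q := by
          calc d' * (w * q) * d' = (d' * w * d') * (d' * q * d') := by
                calc d' * (w * q) * d' = d' * w * 1 * q * d' := by group
                  _ = d' * w * (d' * d') * q * d' := by rw [hdd']
                  _ = _ := by group
            _ = q * w := by
                have h5 : d' * q * d' = w := by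
                  rw [hq]
                  calc d' * (d' * w * d') * d' = (d' * d') * w * (d' * d') := by group
                    _ = w := by rw [hdd']; group
                rw [h5]
            _ = w * q := hcwq.eq.symm
        change d' * (w * q) = (w * q) * d'
        calc d' * (w * q) = d' * (w * q) * (d' * d') := by rw [hdd', mul_one]
          _ = (d' * (w * q) * d') * d' := by group
          _ = (w * q) * d' := by rw [h4]
      have hpw : (w * q) ^ p = 1 := by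
        rw [hcwq.mul_pow, hu, hqp, one_mul]
      have i0 : d₀ * (w * q) * d₀ = (w * q)⁻¹ := by
        rw [hwqj]; exact conj_zpow' hdd0 hi0 _
      have g1 := P.comm_of_cent h.odd hd'D hd₀.1 c1 i0 h.odd hpw hwq
      have g2 : Commute d d₀ := h.eqv hd'D hd₀.1 hdT.1 g1 hcon
      exact c.not_comm_T h hne1 hdT hd₀ (Ne.symm hd₀d) g2
    exact hu1 (P.no_common h.odd hdT.1 hd'D hcon hne hi hd'w h.odd hu)
  -- the contradiction
  obtain ⟨k, hk⟩ := card_pow h.prime h.odd (E := (DQ : Set G)) (by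
      obtain ⟨d, hd, -⟩ := c.exists_two h h12 1
      exact ⟨d, T_sub ω₁ hω₁Φ ω₂ hω₂Φ h12 d hd⟩)
    (fun d hd => P.sq d ((memDQ d).mp hd).1) (fun d hd => h.ne1 d ((memDQ d).mp hd).1)
    (by
      intro d hd e he
      have hd' := (memDQ d).mp hd
      have he' := (memDQ e).mp he
      rw [Finset.mem_coe, memDQ]
      refine ⟨P.conj' hd'.1 he'.1, fun q hq => ?_⟩
      have h1 : e * d * e * q * (e * d * e) = e * (d * (e * q * e) * d) * e := by group
      rw [h1]
      exact he'.2 _ (hd'.2 _ (he'.2 q hq)))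
    (fun d hd e he hde => P.pow_of_not_comm ((memDQ d).mp hd).1 ((memDQ e).mp he).1
      (DQ_nc d hd e he hde))
  rw [Set.ncard_coe_finset, cardDQ] at hk
  obtain ⟨m, hm⟩ := hΦp
  have hm1 : 1 ≤ m := by
    rcases Nat.eq_zero_or_pos m with h0 | h0
    · rw [h0, mul_zero] at hm
      exact absurd hω₁Φ (by rw [Finset.card_eq_zero.mp hm]; simp)
    · exact h0
  have hp3 : 3 ≤ p := by
    have h1 := h.prime.two_le
    rcases Nat.lt_or_ge p 3 with h2 | h2
    · exfalso
      have : p = 2 := by omega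
      rw [this] at h
      have := h.odd
      exact absurd this (by decide)
    · exact h2
  have h1 : Φ.card - 1 ∣ p ^ k := ⟨p, hk.symm⟩
  obtain ⟨i, -, hi⟩ := (Nat.dvd_prime_pow h.prime).mp h1
  have h2 : 3 ≤ Φ.card := by rw [hm]; nlinarith
  rcases Nat.eq_zero_or_pos i with h0 | h0
  · rw [h0, pow_zero] at hi
    omega
  · have h3 : p ∣ Φ.card - 1 := by rw [hi]; exact dvd_pow_self p (by omega)
    have h4 : p ∣ Φ.card := ⟨m, hm⟩
    have h5 : p ∣ 1 := by
      have h6 := Nat.dvd_sub h4 h3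
      have h7 : Φ.card - (Φ.card - 1) = 1 := by omega
      rwa [h7] at h6
    exact h.prime.one_lt.ne' (Nat.dvd_one.mp h5)

end Cl

end H44.PT
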