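import Cfsg.Agent.Lib.H44.PT6

/-! A finite group generated by a normal set of involutions with products of order `1`, `2`, `p`
for a prime `p ≥ 5` is solvable. -/

set_option autoImplicit false

namespace H44.PT

universe u

open Cfsg

theorem Mn.false {p : ℕ} {G : Type u} [Group G] [Finite G] {D : Set G} (h : Mn p D) : False := by
  have P := h.pt
  obtain ⟨x, hx⟩ := h.nonempty
  let M : Subgroup G :=
    { carrier := {g | Commute x (g * x * g⁻¹)}
      one_mem' := by simp
      mul_mem' := by
        intro a b ha hb
        change Commute x (a * b * x * (a * b)⁻¹)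
        have h1 : a * b * x * (a * b)⁻¹ = a * (b * x * b⁻¹) * a⁻¹ := by group
        rw [h1]
        have h2 : Commute (a * x * a⁻¹) (a * (b * x * b⁻¹) * a⁻¹) := by
          have := (show Commute x (b * x * b⁻¹) from hb).map (MulAut.conj a)
          rwa [MulAut.conj_apply, MulAut.conj_apply] at this
        exact (h.eqv (P.conj x hx a) hx (P.conj _ (P.conj x hx b) a)
          (show Commute x (a * x * a⁻¹) from ha).symm h2.symm).symm
      inv_mem' := by
        intro a ha
        have h1 := (show Commute x (a * x * a⁻¹) from ha).map (MulAut.conj a⁻¹)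
        rw [MulAut.conj_apply, MulAut.conj_apply] at h1
        have h2 : a⁻¹ * (a * x * a⁻¹) * a⁻¹⁻¹ = x := by group
        rw [h2] at h1
        exact h1.symm }
  have memM : ∀ g, g ∈ M ↔ Commute x (g * x * g⁻¹) := fun g => Iff.rfl
  have hmk : ∀ g k : G, (g : G ⧸ M) = (k : G ⧸ M) ↔ Commute (g * x * g⁻¹) (k * x * k⁻¹) := by
    intro g k
    rw [QuotientGroup.eq, memM]
    constructor
    · intro h1
      have h2 := h1.map (MulAut.conj g)
      rw [MulAut.conj_apply, MulAut.conj_apply] at h2
      have h3 : g * (g⁻¹ * k * x * (g⁻¹ * k)⁻¹) * g⁻¹ = k * x * k⁻¹ := by group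
      rwa [h3] at h2
    · intro h1
      have h2 := h1.map (MulAut.conj g⁻¹)
      rw [MulAut.conj_apply, MulAut.conj_apply] at h2
      have h3 : g⁻¹ * (g * x * g⁻¹) * g⁻¹⁻¹ = x := by group
      have h4 : g⁻¹ * (k * x * k⁻¹) * g⁻¹⁻¹ = g⁻¹ * k * x * (g⁻¹ * k)⁻¹ := by group
      rwa [h3, h4] at h2
  let r : G ⧸ M → G := fun ω => ω.out * x * ω.out⁻¹
  have c : Cl D r :=
    { mem := fun ω => P.conj x hx _
      inj := by
        intro ω ω' h1
        have := (hmk ω.out ω'.out).mpr h1
        rwa [QuotientGroup.out_eq', QuotientGroup.out_eq'] at this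
      smul := by
        intro g ω
        have h1 : (((g • ω).out : G) : G ⧸ M) = ((g * ω.out : G) : G ⧸ M) := by
          rw [QuotientGroup.out_eq']
          nth_rewrite 1 [← QuotientGroup.out_eq' ω]
          rfl
        have h2 := (hmk _ _).mp h1
        have h3 : g * r ω * g⁻¹ = g * ω.out * x * (g * ω.out)⁻¹ := by
          change g * (ω.out * x * ω.out⁻¹) * g⁻¹ = _
          group
        rw [h3]
        exact h2
      cover := by
        intro d hd
        obtain ⟨g, rfl⟩ := h.trans x hx d hd
        refine ⟨(g : G ⧸ M), ?_⟩
        exact (hmk _ _).mp (QuotientGroup.out_eq' _).symm }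
  exact c.final h

/-- **Theorem.** -/
theorem solvable {p : ℕ} (hp : p.Prime) (h5 : 5 ≤ p) (n : ℕ) :
    ∀ (G : Type u) [Group G] [Finite G] (D : Set G), Nat.card G = n → PTr p D →
      Subgroup.closure D = ⊤ → Group.IsSolvable G := by
  induction n using Nat.strong_induction_on with
  | _ n ih =>
  intro G _ _ D hn P hgen
  by_contra hns
  have hodd : Odd p := hp.odd_of_ne_two (by omega)
  have hcop : Nat.Coprime 3 p := by
    rw [Nat.coprime_primes Nat.prime_three hp]; omega
  have rad : ∀ N : Subgroup G, N.Normal → Group.IsSolvable N → N = ⊥ := by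
    intro N hN hs
    by_contra hne
    set f := QuotientGroup.mk' N with hf
    have hfs : Function.Surjective f := QuotientGroup.mk'_surjective N
    have hcard : Nat.card (G ⧸ N) < n := by
      rw [← hn, N.card_eq_card_quotient_mul_card_subgroup]
      have h1 : 1 < Nat.card N := by
        rw [Subgroup.one_lt_card_iff_ne_bot]; exact hne
      have h2 : 0 < Nat.card (G ⧸ N) := Nat.card_pos
      nlinarith
    have h1 := ih _ hcard (G ⧸ N) (f '' D) rfl (P.map f hfs) (by
      rw [← MonoidHom.map_closure, hgen, ← MonoidHom.range_eq_map, MonoidHom.range_eq_top]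
      exact hfs)
    exact hns (Group.isSolvable_of_ker_le_range N.subtype f (by
      rw [hf, QuotientGroup.ker_mk', Subgroup.range_subtype]))
  obtain ⟨d, hd, hdns⟩ : ∃ d ∈ D, ¬ Group.IsSolvable (Subgroup.normalClosure {d} : Subgroup G) := by
    by_contra hcon
    push Not at hcon
    apply hns
    have h1 : Subgroup.closure D ≤ ⊥ := by
      rw [Subgroup.closure_le]
      intro d hd
      have h2 := rad _ inferInstance (hcon d hd)
      have h3 : d ∈ (Subgroup.normalClosure {d} : Subgroup G) :=
        Subgroup.subset_normalClosure rfl
      rw [h2] at h3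
      exact h3
    rw [hgen] at h1
    have : Subsingleton G := by
      constructor
      intro a b
      have ha := h1 (Subgroup.mem_top a)
      have hb := h1 (Subgroup.mem_top b)
      rw [Subgroup.mem_bot] at ha hb
      rw [ha, hb]
    exact inferInstance
  have hcs : Group.conjugatesOfSet {d} = conjugatesOf d := by
    ext y
    rw [Group.mem_conjugatesOfSet_iff]
    constructor
    · rintro ⟨z, rfl, hz⟩
      exact hz
    · intro hy
      exact ⟨d, rfl, hy⟩
  have hcl : Subgroup.normalClosure {d} = Subgroup.closure (conjugatesOf d) := by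
    rw [Subgroup.normalClosure, hcs]
  have hsubD : conjugatesOf d ⊆ D := by
    intro y hy
    obtain ⟨g, rfl⟩ := isConj_iff.mp (show IsConj d y from hy)
    exact P.conj d hd g
  have P1 : PTr p (conjugatesOf d) :=
    { sq := fun e he => P.sq e (hsubD he)
      prod := fun e he f hf => P.prod e (hsubD he) f (hsubD hf)
      conj := by
        intro e he g
        obtain ⟨k, rfl⟩ := isConj_iff.mp (show IsConj d e from he)
        exact isConj_iff.mpr ⟨g * k, by group⟩ }
  -- solvability of proper subgroups generated by members
  have subs : ∀ S : Set G, S ⊆ D → Subgroup.closure S ≠ ⊤ →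
      Group.IsSolvable (Subgroup.closure S : Subgroup G) := by
    intro S hS hne
    have hcard : Nat.card (Subgroup.closure S) < n := by
      rw [← hn]
      exact lt_of_le_of_ne (Subgroup.card_le_card_group _)
        (fun h1 => hne (Subgroup.eq_top_of_card_eq _ h1))
    refine ih _ hcard (Subgroup.closure S) (Subtype.val ⁻¹' D) rfl
      { sq := fun e he => Subtype.ext (P.sq e.1 he)
        prod := fun e he f hf => by
          rcases P.prod e.1 he f.1 hf with h1 | h1
          · left; exact Subtype.ext h1
          · right; exact Subtype.ext h1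
        conj := fun e he g => P.conj e.1 he g.1 } ?_
    rw [eq_top_iff, ← Subgroup.closure_preimage_eq_top S]
    exact Subgroup.closure_mono (Set.preimage_mono hS)
  have htop : Subgroup.closure (conjugatesOf d) = ⊤ := by
    by_contra hne
    apply hdns
    rw [hcl]
    exact subs _ hsubD hne
  have hd1 : d ≠ 1 := by
    rintro rfl
    apply hdns
    have h1 : Subgroup.normalClosure {(1 : G)} = ⊥ := by
      rw [Subgroup.normalClosure_eq_bot_iff]
    rw [h1]
    exact inferInstance
  have hMn : Mn p (conjugatesOf d) :=
    { pt := P1
      prime := hp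
      odd := hodd
      cop := hcop
      gen := htop
      ne1 := by
        intro e he h1
        obtain ⟨g, hg⟩ := isConj_iff.mp (show IsConj d e from he)
        apply hd1
        rw [h1] at hg
        have : d = g⁻¹ * 1 * g := by rw [← hg]; group
        rw [this]; group
      trans := by
        intro e he f hf
        exact isConj_iff.mp ((show IsConj d e from he).symm.trans (show IsConj d f from hf))
      rad := rad
      sub := by
        intro x hx a ha b hb hne
        refine subs _ ?_ hne
        rintro y (rfl | rfl | rfl)
        · exact hsubD hx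
        · exact hsubD ha
        · exact hsubD hb
      ns := hns }
  exact hMn.false

end H44.PT
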