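import Cfsg.Agent.Lib.H44.PT7
import Cfsg.Agent.Lib.H18.OddOrder
import Cfsg.Prelude.Def_SporadicB

/-! Rank three classes of involutions. -/

set_option autoImplicit false

namespace H44.PT

universe u

open Cfsg

section

variable {G : Type u} [Group G] [Finite G]

/-- a class of involutions whose products have at most two nontrivial orders -/
theorem rank3' (hsol : ∀ N : Subgroup G, N.Normal → Group.IsSolvable N → N = ⊥) {D : Set G}
    (hinv : ∀ d ∈ D, orderOf d = 2) (hconj : ∃ d ∈ D, D = conjugatesOf d)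
    (hgen : Subgroup.closure D = ⊤) {α β : ℕ}
    (hord : ∀ d ∈ D, ∀ e ∈ D, orderOf (d * e) = 1 ∨ orderOf (d * e) = α ∨ orderOf (d * e) = β) :
    ∀ d ∈ D, ∀ e ∈ D, (d * e) ^ 2 = 1 ∨ (d * e) ^ 3 = 1 := by
  have sq : ∀ d ∈ D, d * d = 1 := fun d hd => H5.Dihedral.mul_self (hinv d hd)
  have ne1 : ∀ d ∈ D, d ≠ 1 := fun d hd => H5.Dihedral.ne_one (hinv d hd)
  obtain ⟨d₀, hd₀, hD⟩ := hconj
  have conj : ∀ d ∈ D, ∀ g : G, g * d * g⁻¹ ∈ D := by
    intro d hd g
    rw [hD] at hd ⊢
    obtain ⟨k, rfl⟩ := isConj_iff.mp (show IsConj d₀ d from hd)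
    exact isConj_iff.mpr ⟨g * k, by group⟩
  have center_bot : Subgroup.center G = ⊥ :=
    hsol _ inferInstance (Group.isSolvable_of_comm fun a b =>
      Subtype.ext (Subgroup.mem_center_iff.mp b.2 a.1))
  have two_bot : ∀ N : Subgroup G, N.Normal → IsPGroup 2 N → N = ⊥ := by
    intro N hN h2
    have : Fact (Nat.Prime 2) := ⟨Nat.prime_two⟩
    have : Group.IsNilpotent N := h2.isNilpotent
    exact hsol N hN inferInstance
  -- products of odd order: the powers are products
  have podd : ∀ d ∈ D, ∀ e ∈ D, Odd (orderOf (d * e)) → ∀ k : ℕ, ∃ f ∈ D, (d * e) ^ k = d * f := by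
    intro d hd e he hodd k
    have hdd := sq d hd
    have hee := sq e he
    obtain ⟨j, hj⟩ := exists_root hodd (pow_orderOf_eq_one (d * e))
    have h1 := conj_pow' hdd (inv_mul_left hdd hee) (j * k)
    have h2 := conj d hd ((d * e) ^ (j * k))⁻¹
    refine ⟨_, h2, ?_⟩
    rw [inv_inv, ← h1]
    calc (d * e) ^ k = ((d * e) ^ j * (d * e) ^ j) ^ k := by rw [hj]
      _ = (d * e) ^ (j * k) * (d * e) ^ (j * k) := by
          rw [← pow_add, ← pow_mul, ← pow_add]; congr 1; ring
      _ = (d * d) * (d * e) ^ (j * k) * (d * d) * (d * e) ^ (j * k) := by rw [hdd]; group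
      _ = _ := by group
  -- there is a commuting pair
  have hcomm : ∃ d ∈ D, ∃ e ∈ D, d ≠ e ∧ Commute d e := by
    by_contra hcon
    push Not at hcon
    have hodd : ∀ d ∈ D, ∀ e ∈ D, Odd (orderOf (d * e)) := by
      intro d hd e he
      by_contra hno
      rw [Nat.not_odd_iff_even] at hno
      have hdd := sq d hd
      have hee := sq e he
      obtain ⟨m, hm⟩ := hno
      have hpos := orderOf_pos (d * e)
      have hr1 : (d * e) ^ m ≠ 1 := by
        intro h1
        have := Nat.le_of_dvd (by omega) (orderOf_dvd_of_pow_eq_one h1)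
        omega
      have hr2 : (d * e) ^ m * (d * e) ^ m = 1 := by
        rw [← pow_add, ← hm, pow_orderOf_eq_one]
      have h1 := conj_pow' hdd (inv_mul_left hdd hee) m
      rw [inv_eq hr2] at h1
      have h1' : Commute d ((d * e) ^ m) := by
        change d * (d * e) ^ m = (d * e) ^ m * d
        calc d * (d * e) ^ m = d * (d * e) ^ m * (d * d) := by rw [hdd, mul_one]
          _ = (d * (d * e) ^ m * d) * d := by group
          _ = _ := by rw [h1]
      -- `d r ^ m` is a member
      have h2 : d * (d * e) ^ m ∈ D := by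
        rcases Nat.even_or_odd m with hme | hmo
        · obtain ⟨k, hk⟩ := hme
          have h3 := conj_pow' hdd (inv_mul_left hdd hee) k
          have h4 := conj d hd ((d * e) ^ k)⁻¹
          rw [inv_inv, ← h3] at h4
          have h5 : d * (d * e) ^ k * d * d * (d * e) ^ k = d * (d * e) ^ m := by
            calc d * (d * e) ^ k * d * d * (d * e) ^ k = d * (d * e) ^ k * (d * d) * (d * e) ^ k := by
                  group
              _ = d * ((d * e) ^ k * (d * e) ^ k) := by rw [hdd]; group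
              _ = _ := by rw [← pow_add, ← hk]
          rwa [h5] at h4
        · obtain ⟨k, hk⟩ := hmo
          have h3 := conj_pow' hee (inv_mul_right hdd hee) k
          have h4 := conj e he ((d * e) ^ k)⁻¹
          rw [inv_inv, ← h3] at h4
          have h5 : e * (d * e) ^ k * e * e * (d * e) ^ k = d * (d * e) ^ m := by
            calc e * (d * e) ^ k * e * e * (d * e) ^ k = e * (d * e) ^ k * (e * e) * (d * e) ^ k := by
                  group
              _ = e * ((d * e) ^ k * (d * e) ^ k) := by rw [hee]; group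
              _ = (d * d) * e * (d * e) ^ (k + k) := by rw [hdd, ← pow_add]; group
              _ = d * ((d * e) * (d * e) ^ (k + k)) := by simp only [mul_assoc]
              _ = d * (d * e) ^ m := by
                  rw [← pow_succ', hk]
                  congr 2
                  ring
          rwa [h5] at h4
      refine hcon d hd _ h2 ?_ ((Commute.refl d).mul_right h1')
      intro h3
      apply hr1
      have : d * (d * e) ^ m = d * 1 := by rw [← h3, mul_one]
      exact mul_left_cancel this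
    have hiso : H5.ZStar1.IsoInv d₀ := ⟨hinv d₀ hd₀, fun g => hodd d₀ hd₀ _ (conj d₀ hd₀ g)⟩
    have hz := H5.ZStar.zstar hiso
    have hNodd : Odd (Nat.card (pPrimeCore 2 G)) := by
      have := H1.Cores.coprime_card_pPrimeCore (G := G) 2
      rw [Nat.coprime_two_right] at this
      exact this
    have hN := hsol (pPrimeCore 2 G) inferInstance (H18.OddOrder.solvable hNodd)
    rw [hN] at hz
    have hcen : d₀ ∈ Subgroup.center G := by
      rw [Subgroup.mem_center_iff]
      intro g
      have h1 := hz g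
      rw [Subgroup.mem_bot] at h1
      have h2 : g * d₀ * g⁻¹ = d₀ := by
        have := eq_inv_of_mul_eq_one_right h1
        rwa [inv_eq (sq d₀ hd₀)] at this
      exact mul_inv_eq_iff_eq_mul.mp h2
    rw [center_bot, Subgroup.mem_bot] at hcen
    exact ne1 d₀ hd₀ hcen
  -- all orders are `1`, `2`, `n`
  obtain ⟨n, hn⟩ : ∃ n : ℕ, ∀ d ∈ D, ∀ e ∈ D, orderOf (d * e) = 1 ∨ orderOf (d * e) = 2 ∨
      orderOf (d * e) = n := by
    obtain ⟨d, hd, e, he, hne, hc⟩ := hcomm
    have h1 : orderOf (d * e) = 2 := by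
      refine orderOf_eq_prime ((comm_iff (sq d hd) (sq e he)).mpr hc) ?_
      intro h2
      apply hne
      rw [← inv_eq (sq e he)]
      exact eq_inv_of_mul_eq_one_left h2
    have h2 := hord d hd e he
    rw [h1] at h2
    rcases h2 with h2 | h2 | h2
    · omega
    · refine ⟨β, fun d hd e he => ?_⟩
      have := hord d hd e he
      rwa [← h2] at this
    · refine ⟨α, fun d hd e he => ?_⟩
      have := hord d hd e he
      rw [← h2] at this
      tauto
  by_cases hall : ∀ d ∈ D, ∀ e ∈ D, (d * e) ^ 2 = 1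
  · exact fun d hd e he => Or.inl (hall d hd e he)
  push Not at hall
  obtain ⟨d, hd, e, he, hde⟩ := hall
  have hdn : orderOf (d * e) = n := by
    rcases hn d hd e he with h1 | h1 | h1
    · exact absurd (by rw [orderOf_eq_one_iff.mp h1, one_pow]) hde
    · exact absurd (by rw [← h1, pow_orderOf_eq_one]) hde
    · exact h1
  have hn2 : ¬ n ∣ 2 := by
    intro h1
    exact hde (orderOf_dvd_iff_pow_eq_one.mp (hdn ▸ h1))
  have hpos : 0 < n := hdn ▸ orderOf_pos (d * e)
  have hnodd : Odd n := by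
    by_contra hno
    rw [Nat.not_odd_iff_even] at hno
    obtain ⟨m, hm⟩ := hno
    -- the square is a product
    have hee := sq e he
    have h1 : (d * e) ^ 2 = d * (e * d * e⁻¹) := by rw [pow_two, inv_eq hee]; group
    have h2 := hn d hd _ (conj d hd e)
    have h3 : orderOf ((d * e) ^ 2) = m := by
      rw [orderOf_pow_of_dvd (by norm_num) (by rw [hdn, hm]; exact ⟨m, by ring⟩), hdn, hm]
      omega
    rw [← h1, h3] at h2
    have hm2 : m = 2 := by
      rcases h2 with h2 | h2 | h2
      · exfalso; apply hn2; rw [hm, h2]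
      · exact h2
      · omega
    have hn4 : n = 4 := by omega
    obtain ⟨N, hN1, hN2, hN3⟩ := H55.BaerSuzuki.exists_normal_of_involution d₀ (sq d₀ hd₀) (by
      intro y hy hdy
      have h4 : d₀ * (y * d₀ * y⁻¹) = y⁻¹ * y⁻¹ := by
        calc d₀ * (y * d₀ * y⁻¹) = (d₀ * y * d₀) * y⁻¹ := by group
          _ = (d₀ * y * d₀⁻¹) * y⁻¹ := by rw [inv_eq (sq d₀ hd₀)]
          _ = _ := by rw [hdy]
      have h5 : (y⁻¹ * y⁻¹) ^ 4 = 1 := by
        rw [← h4]
        rcases hn d₀ hd₀ _ (conj d₀ hd₀ y) with h6 | h6 | h6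
        · rw [orderOf_eq_one_iff.mp h6, one_pow]
        · exact orderOf_dvd_iff_pow_eq_one.mp (by rw [h6]; norm_num)
        · exact orderOf_dvd_iff_pow_eq_one.mp (by rw [h6, hn4])
      have h6 : y ^ 8 = 1 := by
        have h7 : (y⁻¹ * y⁻¹) ^ 4 = (y ^ 8)⁻¹ := by group
        rw [h7] at h5
        exact inv_eq_one.mp h5
      refine eq_one_of_coprime_pow h6 (pow_orderOf_eq_one y) ?_
      have : (8 : ℕ) = 2 ^ 3 := by norm_num
      rw [this]
      exact Nat.Coprime.pow_left _ (Nat.coprime_two_left.mpr hy))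
    rw [two_bot N hN1 hN2, Subgroup.mem_bot] at hN3
    exact ne1 d₀ hd₀ hN3
  -- `n` is prime
  have hprime : n.Prime := by
    have hn1 : n ≠ 1 := by
      rintro rfl
      exact hn2 (one_dvd _)
    obtain ⟨q, hq, hqn⟩ := Nat.exists_prime_and_dvd hn1
    obtain ⟨k, hk⟩ := hqn
    have hqodd : Odd q := Odd.of_dvd_nat hnodd ⟨k, hk⟩
    obtain ⟨f, hf, hf2⟩ := podd d hd e he (hdn ▸ hnodd) k
    have h1 : orderOf ((d * e) ^ k) = q := by
      have hk0 : 0 < k := Nat.pos_of_ne_zero (by rintro rfl; omega)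
      rw [orderOf_pow_of_dvd (by omega) (by rw [hdn, hk]; exact ⟨q, by ring⟩), hdn, hk]
      exact Nat.mul_div_cancel _ hk0
    have h2 := hn d hd f hf
    rw [← hf2, h1] at h2
    rcases h2 with h2 | h2 | h2
    · exact absurd h2 hq.one_lt.ne'
    · rw [h2] at hqodd; exact absurd hqodd (by decide)
    · rwa [← h2]
  have hcases : n = 3 ∨ 5 ≤ n := by
    have h1 := hprime.two_le
    rcases Nat.lt_or_ge n 5 with h2 | h2
    · left
      have : n ≠ 2 := by rintro rfl; exact hn2 dvd_rfl
      have : n ≠ 4 := by rintro rfl; exact absurd hnodd (by decide)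
      omega
    · right; exact h2
  rcases hcases with h3 | h5
  · intro d hd e he
    rcases hn d hd e he with h6 | h6 | h6
    · left; rw [orderOf_eq_one_iff.mp h6, one_pow]
    · left; rw [← h6, pow_orderOf_eq_one]
    · right; rw [← h3, ← h6, pow_orderOf_eq_one]
  · exfalso
    have P : PTr n D :=
      { sq := sq
        prod := by
          intro d hd e he
          rcases hn d hd e he with h6 | h6 | h6
          · left; rw [orderOf_eq_one_iff.mp h6, one_pow]
          · left
            have := pow_orderOf_eq_one (d * e)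
            rwa [h6] at this
          · right
            have := pow_orderOf_eq_one (d * e)
            rwa [h6] at this
        conj := conj }
    have hs := solvable hprime h5 _ G D rfl P hgen
    have hs' : Group.IsSolvable (⊤ : Subgroup G) := inferInstance
    have htop := hsol ⊤ inferInstance hs'
    have : d₀ ∈ (⊤ : Subgroup G) := trivial
    rw [htop, Subgroup.mem_bot] at this
    exact ne1 d₀ hd₀ this

theorem rank3 (hsol : ∀ N : Subgroup G, N.Normal → Group.IsSolvable ↥N → N = ⊥) {D : Set G}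
    (hinv : ∀ d ∈ D, orderOf d = 2) (hconj : ∃ d ∈ D, D = conjugatesOf d)
    (hgen : Subgroup.closure D = ⊤)
    (hrank : ∀ x ∈ D, ∃ y ∈ D, ∃ z ∈ D, {w : G | ∃ g : G, Commute g x ∧ g * y * g⁻¹ = w} ≠ {w : G | ∃ g : G, Commute g x ∧ g * x * g⁻¹ = w} ∧ {w : G | ∃ g : G, Commute g x ∧ g * z * g⁻¹ = w} ≠ {w : G | ∃ g : G, Commute g x ∧ g * x * g⁻¹ = w} ∧ {w : G | ∃ g : G, Commute g x ∧ g * y * g⁻¹ = w} ≠ {w : G | ∃ g : G, Commute g x ∧ g * z * g⁻¹ = w} ∧ D = {w : G | ∃ g : G, Commute g x ∧ g * x * g⁻¹ = w} ∪ {w : G | ∃ g : G, Commute g x ∧ g * y * g⁻¹ = w} ∪ {w : G | ∃ g : G, Commute g x ∧ g * z * g⁻¹ = w}) :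
    Cfsg.IsThreeTranspositionClass D := by
  refine ⟨⟨hinv, ?_⟩, hconj, hgen⟩
  obtain ⟨d₀, hd₀, hD⟩ := id hconj
  obtain ⟨y, hy, z, hz, -, -, -, hU⟩ := hrank d₀ hd₀
  refine rank3' hsol hinv hconj hgen (α := orderOf (d₀ * y)) (β := orderOf (d₀ * z)) ?_
  intro d hd e he
  -- move `d` to `d₀`
  rw [hD] at hd
  obtain ⟨g, hg⟩ := isConj_iff.mp (show IsConj d₀ d from hd).symm
  have he' : g * e * g⁻¹ ∈ D := by
    rw [hD] at he ⊢
    obtain ⟨k, rfl⟩ := isConj_iff.mp (show IsConj d₀ e from he)
    exact isConj_iff.mpr ⟨g * k, by group⟩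
  have h1 : orderOf (d * e) = orderOf (d₀ * (g * e * g⁻¹)) := by
    have h2 : d₀ * (g * e * g⁻¹) = g * (d * e) * g⁻¹ := by rw [← hg]; group
    rw [h2, H5.Dihedral.orderOf_conj]
  rw [h1]
  have key : ∀ v w : G, (∃ k : G, Commute k d₀ ∧ k * v * k⁻¹ = w) →
      orderOf (d₀ * w) = orderOf (d₀ * v) := by
    rintro v w ⟨k, hk, rfl⟩
    have h2 : d₀ * (k * v * k⁻¹) = k * (d₀ * v) * k⁻¹ := by
      calc d₀ * (k * v * k⁻¹) = (d₀ * k) * v * k⁻¹ := by group
        _ = (k * d₀) * v * k⁻¹ := by rw [hk.eq]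
        _ = _ := by group
    rw [h2, H5.Dihedral.orderOf_conj]
  rw [hU] at he'
  rcases he' with (h2 | h2) | h2
  · left
    rw [key _ _ h2, H5.Dihedral.mul_self (hinv d₀ hd₀), orderOf_one]
  · right; left; exact key _ _ h2
  · right; right; exact key _ _ h2

end

end H44.PT
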