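import Mathlib
import Cfsg.Agent.Lib.H49.EmbedSymp

/-! Symplectic matrices with a given palindromic characteristic polynomial. -/

set_option autoImplicit false
set_option linter.unusedSectionVars false

namespace H44.Pal

open Polynomial Matrix Cfsg H16.Symp

section
variable {F : Type*} [Field F] {n : ℕ} {f : F[X]}

/-- top coefficient functional -/
noncomputable def top (hf : f.Monic) (n : ℕ) : AdjoinRoot f →ₗ[F] F :=
  (Polynomial.lcoeff F (2 * n - 1)) ∘ₗ (AdjoinRoot.modByMonicHom hf)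

theorem top_mk (hf : f.Monic) (hd : f.natDegree = 2 * n) {g : F[X]} (hg : g.natDegree < 2 * n) :
    top hf n (AdjoinRoot.mk f g) = g.coeff (2 * n - 1) := by
  unfold top
  rw [LinearMap.comp_apply, AdjoinRoot.modByMonicHom_mk, lcoeff_apply,
    (modByMonic_eq_self_iff hf).mpr]
  exact degree_lt_degree (by rw [hd]; exact hg)

theorem exists_rep (hf : f.Monic) (hn : 1 ≤ n) (hd : f.natDegree = 2 * n) (a : AdjoinRoot f) :
    ∃ g : F[X], g.natDegree < 2 * n ∧ AdjoinRoot.mk f g = a := by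
  obtain ⟨g, rfl⟩ := AdjoinRoot.mk_surjective a
  refine ⟨g %ₘ f, ?_, ?_⟩
  · rw [← hd]
    apply natDegree_modByMonic_lt g hf
    rintro rfl
    rw [natDegree_one] at hd
    omega
  · rw [AdjoinRoot.mk_eq_mk, modByMonic_eq_sub_mul_div]
    exact ⟨-(g /ₘ f), by ring⟩

theorem top_nondeg (hf : f.Monic) (hn : 1 ≤ n) (hd : f.natDegree = 2 * n) (a : AdjoinRoot f)
    (h : ∀ b, top hf n (a * b) = 0) : a = 0 := by
  obtain ⟨g, hg, rfl⟩ := exists_rep hf hn hd a
  by_contra hne
  have hg0 : g ≠ 0 := by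
    rintro rfl
    exact hne (map_zero _)
  have h1 := h (AdjoinRoot.mk f (X ^ (2 * n - 1 - g.natDegree)))
  rw [← map_mul, top_mk hf hd] at h1
  · rw [show 2 * n - 1 = g.natDegree + (2 * n - 1 - g.natDegree) by omega] at h1
    rw [show g.natDegree + (2 * n - 1 - g.natDegree) - g.natDegree = 2 * n - 1 - g.natDegree by omega,
      coeff_mul_X_pow] at h1
    exact hg0 (leadingCoeff_eq_zero.mp h1)
  · rw [natDegree_mul_X_pow _ hg0]
    omega

/-- the inverse of the root -/
noncomputable def rinv (f : F[X]) : AdjoinRoot f := - AdjoinRoot.mk f f.divX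

theorem root_mul_rinv (h0 : f.coeff 0 = 1) : AdjoinRoot.root f * rinv f = 1 := by
  have h1 : X * f.divX = f - 1 := by
    have := f.X_mul_divX_add
    rw [h0, C_1] at this
    rw [eq_sub_iff_add_eq]
    exact this
  unfold rinv
  rw [← AdjoinRoot.mk_X, mul_neg, ← map_mul, h1, map_sub, AdjoinRoot.mk_self, map_one]
  ring

theorem eval_rinv (hf : f.Monic) (hd : f.natDegree = 2 * n) (h0 : f.coeff 0 = 1)
    (hs : ∀ i ≤ 2 * n, f.coeff (2 * n - i) = f.coeff i) : aeval (rinv f) f = 0 := by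
  have hr : f.reverse = f := by
    ext i
    rw [coeff_reverse, hd]
    rcases le_or_gt i (2 * n) with h | h
    · rw [revAt_le h, hs i h]
    · rw [revAt_eq_self_of_lt h]
  let inst : Invertible (AdjoinRoot.root f) :=
    ⟨rinv f, by rw [mul_comm]; exact root_mul_rinv h0, root_mul_rinv h0⟩
  have h1 := (eval₂_reverse_eq_zero_iff (AdjoinRoot.of f) (AdjoinRoot.root f) f).mpr
    (AdjoinRoot.eval₂_root f)
  rw [hr] at h1
  rw [aeval_def]
  exact h1

/-- the involution -/
noncomputable def sg (hf : f.Monic) (hd : f.natDegree = 2 * n) (h0 : f.coeff 0 = 1)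
    (hs : ∀ i ≤ 2 * n, f.coeff (2 * n - i) = f.coeff i) : AdjoinRoot f →ₐ[F] AdjoinRoot f :=
  AdjoinRoot.liftAlgHom f (Algebra.ofId F (AdjoinRoot f)) (rinv f) (eval_rinv hf hd h0 hs)

section inv
variable (hf : f.Monic) (hd : f.natDegree = 2 * n) (h0 : f.coeff 0 = 1)
    (hs : ∀ i ≤ 2 * n, f.coeff (2 * n - i) = f.coeff i)

theorem sg_root : sg hf hd h0 hs (AdjoinRoot.root f) = rinv f := AdjoinRoot.liftAlgHom_root ..

theorem sg_rinv : sg hf hd h0 hs (rinv f) = AdjoinRoot.root f := by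
  have h1 := congrArg (sg hf hd h0 hs) (root_mul_rinv h0)
  rw [map_mul, map_one, sg_root] at h1
  calc sg hf hd h0 hs (rinv f) = (AdjoinRoot.root f * rinv f) * sg hf hd h0 hs (rinv f) := by
        rw [root_mul_rinv h0, one_mul]
    _ = AdjoinRoot.root f * (rinv f * sg hf hd h0 hs (rinv f)) := by ring
    _ = _ := by rw [h1, mul_one]

theorem sg_sg (a : AdjoinRoot f) : sg hf hd h0 hs (sg hf hd h0 hs a) = a := by
  have h1 : (sg hf hd h0 hs).comp (sg hf hd h0 hs) = AlgHom.id F _ := by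
    apply AdjoinRoot.algHom_ext
    rw [AlgHom.comp_apply, sg_root, sg_rinv]
    rfl
  exact DFunLike.congr_fun h1 a

/-- the functional `λ` -/
noncomputable def lam (hf : f.Monic) (n : ℕ) : AdjoinRoot f →ₗ[F] F :=
  (top hf n) ∘ₗ (LinearMap.mulLeft F (AdjoinRoot.root f ^ (n - 1)))

theorem lam_apply (a : AdjoinRoot f) : lam hf n a = top hf n (AdjoinRoot.root f ^ (n - 1) * a) := rfl

include hd in
theorem lam_one (hn : 1 ≤ n) : lam hf n 1 = 0 := by
  rw [lam_apply, mul_one, ← AdjoinRoot.mk_X, ← map_pow, top_mk hf hd (by rw [natDegree_X_pow]; omega),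
    coeff_X_pow, if_neg (by omega)]

include h0 in
theorem root_pow_mul_rinv_pow (k : ℕ) : AdjoinRoot.root f ^ k * rinv f ^ k = 1 := by
  rw [← mul_pow, root_mul_rinv h0, one_pow]

theorem lam_sg (hn : 1 ≤ n) (a : AdjoinRoot f) : lam hf n (sg hf hd h0 hs a) = - lam hf n a := by
  -- it suffices to check on `x^(-(n-1)) x^k`, `k < 2n`
  have key : ∀ k, k < 2 * n → lam hf n (sg hf hd h0 hs (rinv f ^ (n - 1) * AdjoinRoot.root f ^ k)) =
      - lam hf n (rinv f ^ (n - 1) * AdjoinRoot.root f ^ k) := by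
    intro k hk
    have e1 : lam hf n (rinv f ^ (n - 1) * AdjoinRoot.root f ^ k) = if k = 2 * n - 1 then 1 else 0 := by
      rw [lam_apply, ← mul_assoc, root_pow_mul_rinv_pow h0, one_mul, ← AdjoinRoot.mk_X, ← map_pow,
        top_mk hf hd (by rw [natDegree_X_pow]; omega), coeff_X_pow]
      simp only [eq_comm]
    rw [e1, map_mul, map_pow, map_pow, sg_root, sg_rinv, lam_apply]
    have e2 : AdjoinRoot.root f ^ (n - 1) * (AdjoinRoot.root f ^ (n - 1) * rinv f ^ k) =
        AdjoinRoot.root f ^ (2 * n - 2) * rinv f ^ k := by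
      rw [← mul_assoc, ← pow_add]
      congr 2
      omega
    rw [e2]
    split_ifs with hk1
    · subst hk1
      have e3 : AdjoinRoot.root f ^ (2 * n - 2) * rinv f ^ (2 * n - 1) = rinv f := by
        rw [show 2 * n - 1 = (2 * n - 2) + 1 by omega, pow_succ, ← mul_assoc,
          root_pow_mul_rinv_pow h0, one_mul]
      rw [e3]
      unfold rinv
      rw [map_neg, top_mk hf hd, coeff_divX]
      · rw [show 2 * n - 1 + 1 = f.natDegree by omega, hf.coeff_natDegree]
      · have := natDegree_divX_eq_natDegree_tsub_one (p := f)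
        omega
    · have e3 : AdjoinRoot.root f ^ (2 * n - 2) * rinv f ^ k = AdjoinRoot.root f ^ (2 * n - 2 - k) := by
        rw [show 2 * n - 2 = (2 * n - 2 - k) + k by omega, pow_add, mul_assoc,
          root_pow_mul_rinv_pow h0, mul_one]
        congr 1
        omega
      rw [e3, ← AdjoinRoot.mk_X, ← map_pow, top_mk hf hd (by rw [natDegree_X_pow]; omega),
        coeff_X_pow, if_neg (by omega), neg_zero]
  obtain ⟨g, hg, hga⟩ := exists_rep hf hn hd (AdjoinRoot.root f ^ (n - 1) * a)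
  have ha : a = rinv f ^ (n - 1) * AdjoinRoot.mk f g := by
    rw [hga, ← mul_assoc, mul_comm (rinv f ^ (n - 1)), root_pow_mul_rinv_pow h0, one_mul]
  have hg2 : AdjoinRoot.mk f g = ∑ k ∈ Finset.range (2 * n), g.coeff k • AdjoinRoot.root f ^ k := by
    conv_lhs => rw [as_sum_range_C_mul_X_pow' g hg]
    rw [map_sum]
    refine Finset.sum_congr rfl fun k _ => ?_
    rw [map_mul, map_pow, AdjoinRoot.mk_X, AdjoinRoot.mk_C, Algebra.smul_def]
    rfl
  rw [ha, hg2, Finset.mul_sum]
  simp only [mul_smul_comm, map_sum, map_smul]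
  rw [← Finset.sum_neg_distrib]
  refine Finset.sum_congr rfl fun k hk => ?_
  rw [key k (Finset.mem_range.mp hk), smul_neg]

/-- the form -/
noncomputable def bf : LinearMap.BilinForm F (AdjoinRoot f) :=
  LinearMap.mk₂ F (fun a b => lam hf n (a * sg hf hd h0 hs b))
    (fun a b c => by rw [add_mul, map_add])
    (fun c a b => by rw [smul_mul_assoc, map_smul])
    (fun a b c => by rw [map_add, mul_add, map_add])
    (fun c a b => by rw [map_smul, mul_smul_comm, map_smul])

theorem bf_apply (a b : AdjoinRoot f) : bf hf hd h0 hs a b = lam hf n (a * sg hf hd h0 hs b) := rfl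

theorem bf_skew (hn : 1 ≤ n) (a b : AdjoinRoot f) : bf hf hd h0 hs b a = - bf hf hd h0 hs a b := by
  rw [bf_apply, bf_apply, ← lam_sg hf hd h0 hs hn, map_mul (sg hf hd h0 hs), sg_sg, mul_comm]

theorem bf_inv (a b : AdjoinRoot f) : bf hf hd h0 hs (AdjoinRoot.root f * a) (AdjoinRoot.root f * b) =
    bf hf hd h0 hs a b := by
  rw [bf_apply, bf_apply, map_mul (sg hf hd h0 hs), sg_root]
  congr 1
  calc AdjoinRoot.root f * a * (rinv f * sg hf hd h0 hs b) =
      (AdjoinRoot.root f * rinv f) * (a * sg hf hd h0 hs b) := by ring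
    _ = _ := by rw [root_mul_rinv h0, one_mul]

theorem bf_alt (hn : 1 ≤ n) (a : AdjoinRoot f) : bf hf hd h0 hs a a = 0 := by
  have hadd : ∀ a b, bf hf hd h0 hs (a + b) (a + b) = bf hf hd h0 hs a a + bf hf hd h0 hs b b := by
    intro a b
    simp only [map_add, LinearMap.add_apply]
    rw [bf_skew hf hd h0 hs hn a b]
    ring
  have hpow : ∀ k, bf hf hd h0 hs (AdjoinRoot.root f ^ k) (AdjoinRoot.root f ^ k) = 0 := by
    intro k
    induction k with
    | zero => rw [pow_zero, bf_apply, map_one, mul_one, lam_one hf hd hn]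
    | succ k ih => rw [pow_succ', bf_inv, ih]
  obtain ⟨g, rfl⟩ := AdjoinRoot.mk_surjective a
  induction g using Polynomial.induction_on' with
  | add p q hp hq => rw [map_add, hadd, hp, hq, add_zero]
  | monomial k c =>
    rw [← C_mul_X_pow_eq_monomial, map_mul, map_pow, AdjoinRoot.mk_X, AdjoinRoot.mk_C]
    have h1 : (AdjoinRoot.of f c) * AdjoinRoot.root f ^ k = c • (AdjoinRoot.root f ^ k) := by
      rw [Algebra.smul_def]; rfl
    rw [h1, map_smul, map_smul, LinearMap.smul_apply, hpow, smul_zero, smul_zero]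

theorem bf_nondeg (hn : 1 ≤ n) (a : AdjoinRoot f) (h : ∀ b, bf hf hd h0 hs a b = 0) : a = 0 := by
  apply top_nondeg hf hn hd
  intro b
  have h1 := h (sg hf hd h0 hs (rinv f ^ (n - 1) * b))
  rw [bf_apply, sg_sg, lam_apply] at h1
  rw [← h1]
  congr 1
  calc a * b = (AdjoinRoot.root f ^ (n - 1) * rinv f ^ (n - 1)) * (a * b) := by
        rw [root_pow_mul_rinv_pow h0, one_mul]
    _ = _ := by ring

end inv

/-- **existence of symplectic matrices with palindromic characteristic polynomial** -/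
theorem exists_sp (hn : 1 ≤ n) (hf : f.Monic) (hd : f.natDegree = 2 * n) (h0 : f.coeff 0 = 1)
    (hs : ∀ i ≤ 2 * n, f.coeff (2 * n - i) = f.coeff i) :
    ∃ g : Matrix.symplecticGroup (Fin n) F,
      (g : Matrix (Fin n ⊕ Fin n) (Fin n ⊕ Fin n) F).charpoly = f := by
  haveI : FiniteDimensional F (AdjoinRoot f) := (AdjoinRoot.powerBasis hf.ne_zero).finite
  have hdim : Module.finrank F (AdjoinRoot f) = 2 * n := by
    rw [(AdjoinRoot.powerBasis hf.ne_zero).finrank, AdjoinRoot.powerBasis_dim, hd]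
  obtain ⟨e, he⟩ := H49.EmbedSymp.symp_coords (bf hf hd h0 hs) (fun a => bf_alt hf hd h0 hs hn a)
    (fun a h => bf_nondeg hf hd h0 hs hn a h) hdim
  let M : AdjoinRoot f →ₗ[F] AdjoinRoot f := LinearMap.mulLeft F (AdjoinRoot.root f)
  have hM : ∀ a, M a = AdjoinRoot.root f * a := fun a => rfl
  let T : (Fin n ⊕ Fin n → F) →ₗ[F] (Fin n ⊕ Fin n → F) := e.conj M
  have hT : ∀ v, T (e v) = e (M v) := by
    intro v
    change e (M (e.symm (e v))) = _
    rw [e.symm_apply_apply]
  have hTm : ∀ v, LinearMap.toMatrix' T *ᵥ (e v) = e (M v) := by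
    intro v
    rw [LinearMap.toMatrix'_mulVec, hT]
  have hmem : LinearMap.toMatrix' T ∈ Matrix.symplecticGroup (Fin n) F := by
    rw [mem_symplecticGroup_iff]
    intro u v
    obtain ⟨u, rfl⟩ := e.surjective u
    obtain ⟨v, rfl⟩ := e.surjective v
    rw [hTm, hTm, he, he, hM, hM, bf_inv]
  refine ⟨⟨_, hmem⟩, ?_⟩
  change (LinearMap.toMatrix' T).charpoly = f
  have h1 : (LinearMap.toMatrix' T).charpoly = T.charpoly := by
    rw [← Matrix.charpoly_toLin', Matrix.toLin'_toMatrix']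
  rw [h1, LinearEquiv.charpoly_conj]
  let pb := AdjoinRoot.powerBasis' hf
  have h2 := charpoly_leftMulMatrix pb
  have h3 : minpoly F pb.gen = f := by
    have h3 := AdjoinRoot.minpoly_root hf.ne_zero
    rwa [hf.leadingCoeff, inv_one, C_1, mul_one] at h3
  rw [h3] at h2
  refine Eq.trans ?_ h2
  rw [← LinearMap.charpoly_toMatrix M pb.basis]
  rfl

end

end H44.Pal
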