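import Mathlib
import Cfsg.Agent.Lib.H44.SSSp
import Cfsg.Agent.Lib.H44.SSPal

/-! The number of semisimple classes of `Sp_2n(q)`. -/

set_option autoImplicit false
set_option linter.unusedSectionVars false

namespace H44.SS

open Polynomial Matrix

/-- palindromic functions -/
theorem card_pal (α : Type*) [Finite α] (n : ℕ) (hn : 1 ≤ n) :
    Nat.card {a : Fin (2 * n - 1) → α // ∀ j, a (Fin.rev j) = a j} = Nat.card α ^ n := by
  have h : Nat.card {a : Fin (2 * n - 1) → α // ∀ j, a (Fin.rev j) = a j} = Nat.card (Fin n → α) := by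
    refine Nat.card_congr (Equiv.ofBijective (fun a j => a.1 ⟨j.val, by omega⟩) ⟨?_, ?_⟩)
    · rintro ⟨a, ha⟩ ⟨b, hb⟩ hab
      apply Subtype.ext
      funext j
      rcases Nat.lt_or_ge j.val n with hj | hj
      · exact congrFun hab ⟨j.val, hj⟩
      · have h1 : (Fin.rev j).val < n := by
          rw [Fin.val_rev]
          omega
        have h2 := congrFun hab ⟨(Fin.rev j).val, h1⟩
        change a j = b j
        rw [← ha, ← hb]
        exact h2
    · intro b
      have hlt : ∀ j : Fin (2 * n - 1), min j.val (Fin.rev j).val < n := by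
        intro j
        rw [Fin.val_rev]
        omega
      refine ⟨⟨fun j => b ⟨min j.val (Fin.rev j).val, hlt j⟩, ?_⟩, ?_⟩
      · intro j
        have h1 : (⟨min (Fin.rev j).val (Fin.rev (Fin.rev j)).val, hlt (Fin.rev j)⟩ : Fin n) =
            ⟨min j.val (Fin.rev j).val, hlt j⟩ := by
          apply Fin.ext
          change min (Fin.rev j).val (Fin.rev (Fin.rev j)).val = min j.val (Fin.rev j).val
          rw [Fin.rev_rev, min_comm]
        exact congrArg b h1
      · funext j
        change b ⟨min j.val _, _⟩ = b j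
        congr 1
        apply Fin.ext
        simp only [Fin.val_rev]
        omega
  rw [h, Nat.card_fun, Nat.card_fin]

/-- **S2385**. -/
theorem sp_card {F : Type*} [Field F] [Finite F] (p : ℕ) [Fact p.Prime] [CharP F p] (n : ℕ) :
    Nat.card {c : ConjClasses ↥(Matrix.symplecticGroup (Fin n) F) //
      ∃ g : ↥(Matrix.symplecticGroup (Fin n) F), ConjClasses.mk g = c ∧ (orderOf g).Coprime p} =
      Nat.card F ^ n := by
  haveI := Fintype.ofFinite F
  rcases Nat.eq_zero_or_pos n with rfl | hn
  · have hsub : Subsingleton (Matrix.symplecticGroup (Fin 0) F) :=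
      ⟨fun a b => Subtype.ext (Subsingleton.elim _ _)⟩
    rw [pow_zero, Nat.card_eq_one_iff_unique]
    refine ⟨⟨?_⟩, ⟨⟨ConjClasses.mk 1, 1, rfl, by rw [orderOf_one]; exact Nat.coprime_one_left p⟩⟩⟩
    rintro ⟨a, ha⟩ ⟨b, hb⟩
    apply Subtype.ext
    obtain ⟨x, rfl⟩ := ConjClasses.mk_surjective a
    obtain ⟨y, rfl⟩ := ConjClasses.mk_surjective b
    exact congrArg ConjClasses.mk (Subsingleton.elim x y)
  · rw [card_classes p (F := F) (fun g : Matrix.symplecticGroup (Fin n) F =>
      (g : Matrix (Fin n ⊕ Fin n) (Fin n ⊕ Fin n) F))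
      (fun g k => SubmonoidClass.coe_pow g k) (fun g h => sp_charpoly_conj)
      (fun g h => sp_conj p g h)
      {f : F[X] | f.Monic ∧ f.natDegree = (2 * n - 1) + 1 ∧ f.coeff 0 = 1 ∧
        ∀ i ≤ 2 * n, f.coeff (2 * n - i) = f.coeff i}, card_poly, ← card_pal F n hn]
    · apply Nat.card_congr
      apply Equiv.subtypeEquivRight
      intro a
      constructor
      · intro h j
        have h1 := h (j.val + 1) (by have := j.2; omega)
        rw [coeff_mkp_succ] at h1
        have h2 : 2 * n - (j.val + 1) = (Fin.rev j).val + 1 := by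
          rw [Fin.val_rev]
          have := j.2
          omega
        rw [h2, coeff_mkp_succ] at h1
        exact h1
      · intro h i hi
        rcases Nat.eq_zero_or_pos i with rfl | hi0
        · rw [Nat.sub_zero, coeff_mkp_zero]
          have h1 := (monic_mkp (2 * n - 1) 1 a).coeff_natDegree
          rw [natDegree_mkp, show 2 * n - 1 + 1 = 2 * n by omega] at h1
          exact h1
        · rcases Nat.lt_or_ge i (2 * n) with hi2 | hi2
          · obtain ⟨j, hj⟩ : ∃ j : Fin (2 * n - 1), i = j.val + 1 := ⟨⟨i - 1, by omega⟩, by simp; omega⟩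
            subst hj
            have h2 : 2 * n - (j.val + 1) = (Fin.rev j).val + 1 := by
              rw [Fin.val_rev]
              have := j.2
              omega
            rw [h2, coeff_mkp_succ, coeff_mkp_succ, h]
          · have hi3 : i = 2 * n := by omega
            subst hi3
            rw [Nat.sub_self, coeff_mkp_zero]
            have h1 := (monic_mkp (2 * n - 1) 1 a).coeff_natDegree
            rw [natDegree_mkp, show 2 * n - 1 + 1 = 2 * n by omega] at h1
            exact h1.symm
    · intro f
      rw [Set.mem_ofPred_eq, show 2 * n - 1 + 1 = 2 * n by omega]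
      constructor
      · rintro ⟨h1, h2, h3, h4⟩
        exact H44.Pal.exists_sp hn h1 h2 h3 h4
      · rintro ⟨g, rfl⟩
        exact sp_charpoly_mem g

end H44.SS
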