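import Mathlib
import Cfsg.Agent.Lib.H44.SSU3
import Cfsg.Agent.Lib.H49.SUClasses

/-! Semisimple classes of `SU_n(q)`. -/

set_option autoImplicit false
set_option linter.unusedSectionVars false
set_option linter.style.haveILetI false

namespace H44.SSU

open Polynomial Matrix H49.Unitary Cfsg H46.TyAlg H44.SS

variable {K : Type*} [Field K] [Finite K] {q : ℕ} (hK : Nat.card K = q ^ 2)

include hK in
theorem hilbert90 {c : Kˣ} (hc : c ^ (q + 1) = 1) : ∃ d : Kˣ, c * d ^ q = d := by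
  obtain ⟨γ, hγ⟩ := IsCyclic.exists_generator (α := Kˣ)
  obtain ⟨i, rfl⟩ := Subgroup.mem_zpowers_iff.mp (hγ c)
  have h2 := two_le hK
  have hord : orderOf γ = q ^ 2 - 1 := by
    rw [orderOf_eq_card_of_forall_mem_zpowers hγ, Nat.card_units, hK]
  have h3 : ((q ^ 2 - 1 : ℕ) : ℤ) ∣ i * (q + 1) := by
    rw [← hord]
    apply orderOf_dvd_iff_zpow_eq_one.mpr
    rw [_root_.zpow_mul]
    exact_mod_cast hc
  have h4 : ((q ^ 2 - 1 : ℕ) : ℤ) = (q - 1) * (q + 1) := by
    have : 1 ≤ q ^ 2 := Nat.one_le_pow _ _ (by omega)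
    push_cast [Nat.cast_sub this]
    ring
  rw [h4] at h3
  obtain ⟨j, hj⟩ := (mul_dvd_mul_iff_right (by positivity : ((q : ℤ) + 1) ≠ 0)).mp h3
  refine ⟨γ ^ (-j), ?_⟩
  rw [← zpow_natCast (γ ^ (-j)) q, ← _root_.zpow_mul, ← _root_.zpow_add, hj]
  congr 1
  ring

variable {n : ℕ}

theorem order_toGU [Fintype K] (g : ↥(SU n K q)) :
    orderOf (H49.SUClasses.toGU n K q g : Matrix.GeneralLinearGroup (Fin n) K) = orderOf g := by
  rw [Subgroup.orderOf_coe]
  exact orderOf_injective _ H49.SUClasses.toGU_injective g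

include hK in
/-- **S2390**. -/
theorem su_conj [Fintype K] (p : ℕ) [Fact p.Prime] [CharP K p] (g h : ↥(SU n K q))
    (hg : (orderOf g).Coprime p) (hh : (orderOf h).Coprime p)
    (hc : ((g : Matrix.SpecialLinearGroup (Fin n) K) : Matrix (Fin n) (Fin n) K).charpoly =
      ((h : Matrix.SpecialLinearGroup (Fin n) K) : Matrix (Fin n) (Fin n) K).charpoly) :
    IsConj g h := by
  rcases Nat.eq_zero_or_pos n with rfl | hn
  · have : g = h := Subtype.ext (Subtype.ext (Subsingleton.elim _ _))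
    rw [this]
  have hKf : Fintype.card K = q ^ 2 := by rw [← Nat.card_eq_fintype_card]; exact hK
  set g' := H49.SUClasses.toGU n K q g with hg'
  set h' := H49.SUClasses.toGU n K q h with hh'
  have hgo : (orderOf (g' : Matrix.GeneralLinearGroup (Fin n) K)).Coprime p := by
    rw [hg', order_toGU]; exact hg
  have hho : (orderOf (h' : Matrix.GeneralLinearGroup (Fin n) K)).Coprime p := by
    rw [hh', order_toGU]; exact hh
  obtain ⟨x, hx⟩ := isConj_iff.mp (gl_conj p (g' : Matrix.GeneralLinearGroup (Fin n) K)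
    (h' : Matrix.GeneralLinearGroup (Fin n) K) hgo hho hc)
  obtain ⟨y, hy⟩ := exists_conj_GU hK g' h' x (by rw [← hx, inv_mul_cancel_right])
  have hy2 : (y : Matrix.GeneralLinearGroup (Fin n) K) * (g' : Matrix.GeneralLinearGroup (Fin n) K) =
    (h' : Matrix.GeneralLinearGroup (Fin n) K) * y := congrArg Subtype.val hy
  have hdy : (Matrix.GeneralLinearGroup.det (y : Matrix.GeneralLinearGroup (Fin n) K)) ^ (q + 1) = 1 :=
    H7.UnitSU.det_GU hKf y.2
  set c := Matrix.GeneralLinearGroup.det (y : Matrix.GeneralLinearGroup (Fin n) K) with hcd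
  obtain ⟨d, hd⟩ := hilbert90 hK (c := c⁻¹) (by rw [inv_pow, hdy, inv_one])
  obtain ⟨w, hw, hwg, hwd⟩ := exists_central hK p hn (g' : Matrix.GeneralLinearGroup (Fin n) K) g'.2 hgo
    (d := (d : K)) d.ne_zero
  have hwc : Matrix.GeneralLinearGroup.det w = c⁻¹ := by
    apply mul_right_cancel (b := d ^ q)
    rw [hd]
    apply Units.ext
    rw [Units.val_mul, Units.val_pow_eq_pow_val]
    exact hwd
  have hdet : ((y * w : Matrix.GeneralLinearGroup (Fin n) K) : Matrix (Fin n) (Fin n) K).det = 1 := by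
    rw [← Matrix.GeneralLinearGroup.val_det_apply, map_mul, hwc, ← hcd, mul_inv_cancel, Units.val_one]
  have hmem : (y : Matrix.GeneralLinearGroup (Fin n) K) * w ∈ GU n K q := (GU n K q).mul_mem y.2 hw
  let z : ↥(SU n K q) := ⟨⟨_, hdet⟩, hmem⟩
  rw [isConj_iff]
  refine ⟨z, ?_⟩
  rw [mul_inv_eq_iff_eq_mul]
  apply Subtype.ext
  apply Subtype.ext
  have h5 : (y : Matrix.GeneralLinearGroup (Fin n) K) * w * g' = h' * ((y : Matrix.GeneralLinearGroup (Fin n) K) * w) := by
    rw [mul_assoc, hwg, ← mul_assoc, hy2, mul_assoc]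
  exact congrArg Units.val h5

end H44.SSU
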