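import Mathlib
import Cfsg.Agent.Lib.H44.SSU4
import Cfsg.Agent.Lib.H44.SSSp

/-! The number of semisimple classes of `SU_n(q)`. -/

set_option autoImplicit false
set_option linter.unusedSectionVars false
set_option linter.style.haveILetI false

namespace H44.SSU

open Polynomial Matrix H49.Unitary Cfsg H46.TyAlg H44.SS

variable {K : Type*} [Field K] [Finite K] {q : ℕ} (hK : Nat.card K = q ^ 2)

/-- fixed points of a semilinear involution -/
theorem card_fixed {V : Type*} [AddCommGroup V] [Module K V] [Finite V] (σ : V → V)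
    (hadd : ∀ v w, σ (v + w) = σ v + σ w) (hinv : ∀ v, σ (σ v) = v)
    (hsemi : ∀ (c : K) v, σ (c • v) = frob hK c • σ v) {m : ℕ} (hV : Nat.card V = (q ^ 2) ^ m) :
    Nat.card {v : V // σ v = v} = q ^ m := by
  obtain ⟨θ, hθ⟩ := exists_theta hK
  set δ := θ - frob hK θ with hδ
  have hδ' : frob hK δ = -δ := by
    rw [hδ, map_sub, frob_frob]; ring
  have hsub : ∀ v w, σ (v - w) = σ v - σ w := by
    intro v w
    rw [eq_sub_iff_add_eq, ← hadd, sub_add_cancel]
  have e : Nat.card V = Nat.card ({v : V // σ v = v} × {v : V // σ v = v}) := by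
    refine Nat.card_congr
      { toFun := fun v => (⟨v + σ v, ?_⟩, ⟨θ • v + frob hK θ • σ v, ?_⟩)
        invFun := fun ab => δ⁻¹ • (ab.2.1 - frob hK θ • ab.1.1)
        left_inv := ?_
        right_inv := ?_ }
    · rw [hadd, hinv, add_comm]
    · rw [hadd, hsemi, hsemi, hinv, frob_frob, add_comm]
    · intro v
      simp only
      rw [inv_smul_eq_iff₀ hθ, hδ]
      module
    · rintro ⟨⟨a, ha⟩, ⟨b, hb⟩⟩
      have h1 : σ (δ⁻¹ • (b - frob hK θ • a)) = (-δ⁻¹) • (b - θ • a) := by
        rw [hsemi, hsub, hsemi, ha, hb, frob_frob, map_inv₀, hδ', inv_neg]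
      apply Prod.ext
      · apply Subtype.ext
        simp only
        rw [h1]
        have h2 : δ⁻¹ • (b - frob hK θ • a) + -δ⁻¹ • (b - θ • a) = (δ⁻¹ * δ) • a := by
          rw [hδ]; module
        rw [h2, inv_mul_cancel₀ hθ, one_smul]
      · apply Subtype.ext
        simp only
        rw [h1]
        have h2 : θ • δ⁻¹ • (b - frob hK θ • a) + frob hK θ • -δ⁻¹ • (b - θ • a) = (δ⁻¹ * δ) • b := by
          rw [hδ]; module
        rw [h2, inv_mul_cancel₀ hθ, one_smul]
  rw [hV, Nat.card_prod, ← pow_two, ← pow_mul, mul_comm 2 m, pow_mul] at e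
  exact (Nat.pow_left_injective (n := 2) (by norm_num) e).symm

theorem card_self_dual (ε : K) (hε : ε * ε = 1) (hε' : frob hK ε = ε) (m : ℕ) :
    Nat.card {a : Fin m → K // ∀ j, a (Fin.rev j) = ε * (a j) ^ q} = q ^ m := by
  rw [← card_fixed hK (V := Fin m → K) (fun a j => ε * frob hK (a (Fin.rev j))) ?_ ?_ ?_ (m := m) ?_]
  · apply Nat.card_congr
    apply Equiv.subtypeEquivRight
    intro a
    constructor
    · intro h
      funext j
      have h1 := h (Fin.rev j)
      rw [Fin.rev_rev] at h1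
      exact h1.symm
    · intro h j
      have h1 := congrFun h (Fin.rev j)
      simp only [Fin.rev_rev] at h1
      exact h1.symm
  · intro v w
    funext j
    simp only [Pi.add_apply, map_add, mul_add]
  · intro v
    funext j
    simp only [Fin.rev_rev, map_mul, frob_frob, hε']
    rw [← mul_assoc, hε, one_mul]
  · intro c v
    funext j
    simp only [Pi.smul_apply, smul_eq_mul, map_mul]
    ring
  · rw [Nat.card_fun, Nat.card_fin, hK]

variable {n : ℕ}

theorem toGU_mem_ct [Fintype K] (g : ↥(SU n K q)) :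
    ct hK ((g : Matrix.SpecialLinearGroup (Fin n) K) : Matrix (Fin n) (Fin n) K) *
      ((g : Matrix.SpecialLinearGroup (Fin n) K) : Matrix (Fin n) (Fin n) K) = 1 :=
  (mem_GU hK _).mp (H49.SUClasses.toGU n K q g).2

include hK in
/-- **S2386**. -/
theorem su_card [Fintype K] (p : ℕ) [Fact p.Prime] [CharP K p] (hn : 1 ≤ n) :
    Nat.card {c : ConjClasses ↥(SU n K q) //
      ∃ g : ↥(SU n K q), ConjClasses.mk g = c ∧ (orderOf g).Coprime p} = q ^ (n - 1) := by
  have hε : ((-1 : K) ^ n) * (-1) ^ n = 1 := by rw [← mul_pow]; norm_num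
  have hε' : frob hK ((-1 : K) ^ n) = (-1) ^ n := by rw [map_pow, map_neg, map_one]
  have hε'' : ((-1 : K) ^ n) ^ q = (-1) ^ n := hε'
  rw [card_classes p (F := K) (fun g : ↥(SU n K q) =>
    ((g : Matrix.SpecialLinearGroup (Fin n) K) : Matrix (Fin n) (Fin n) K))
    (fun g k => ?_) (fun g h hc => ?_) (fun g h => su_conj hK p g h)
    {f : K[X] | f.Monic ∧ f.natDegree = (n - 1) + 1 ∧ f.coeff 0 = (-1) ^ n ∧
      ∀ i ≤ n, f.coeff (n - i) = (-1) ^ n * (f.coeff i) ^ q}, card_poly,
    ← card_self_dual hK ((-1) ^ n) hε hε' (n - 1)]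
  · apply Nat.card_congr
    apply Equiv.subtypeEquivRight
    intro a
    have htop : (mkp (n - 1) ((-1 : K) ^ n) a).coeff n = 1 := by
      have h1 := (monic_mkp (n - 1) ((-1 : K) ^ n) a).coeff_natDegree
      rwa [natDegree_mkp, Nat.sub_add_cancel hn] at h1
    have hrev : ∀ j : Fin (n - 1), n - (j.val + 1) = (Fin.rev j).val + 1 := by
      intro j
      rw [Fin.val_rev]
      have := j.2
      omega
    constructor
    · intro h j
      have h1 := h (j.val + 1) (by have := j.2; omega)
      rw [hrev, coeff_mkp_succ, coeff_mkp_succ] at h1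
      exact h1
    · intro h i hi
      rcases Nat.eq_zero_or_pos i with rfl | hi0
      · rw [Nat.sub_zero, coeff_mkp_zero, htop, hε'', hε]
      · rcases Nat.lt_or_ge i n with hi2 | hi2
        · obtain ⟨j, hj⟩ : ∃ j : Fin (n - 1), i = j.val + 1 := ⟨⟨i - 1, by omega⟩, by simp; omega⟩
          subst hj
          rw [hrev, coeff_mkp_succ, coeff_mkp_succ, h]
        · have hi3 : i = n := by omega
          subst hi3
          rw [Nat.sub_self, coeff_mkp_zero, htop, one_pow, mul_one]
  · intro f
    rw [Set.mem_ofPred_eq, Nat.sub_add_cancel hn]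
    constructor
    · rintro ⟨h1, h2, h3, h4⟩
      have h0 : f.coeff 0 ≠ 0 := by
        rw [h3]; exact pow_ne_zero _ (neg_ne_zero.mpr one_ne_zero)
      have hst : st hK f = f := by
        ext i
        rw [st_coeff, h2, h3]
        have hinv : ((-1 : K) ^ n)⁻¹ = (-1) ^ n := inv_eq_of_mul_eq_one_right hε
        rw [hinv, map_mul, hε']
        rcases le_or_gt i n with hi | hi
        · rw [revAt_le hi]
          have h5 := h4 (n - i) (by omega)
          rw [Nat.sub_sub_self hi] at h5
          exact h5.symm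
        · rw [revAt_eq_self_of_lt hi, coeff_eq_zero_of_natDegree_lt (by omega), map_zero, mul_zero]
      obtain ⟨g, hg, hgc, _⟩ := exists_gu hK p h1 h0 hst h2
      have hd : (g : Matrix (Fin n) (Fin n) K).det = 1 := by
        rw [Matrix.det_eq_sign_charpoly_coeff, hgc, h3, Fintype.card_fin, hε]
      exact ⟨⟨⟨_, hd⟩, by
        have h5 : Matrix.SpecialLinearGroup.toGL (⟨_, hd⟩ : Matrix.SpecialLinearGroup (Fin n) K) = g :=
          Units.ext rfl
        have h6 : Matrix.SpecialLinearGroup.toGL (⟨_, hd⟩ : Matrix.SpecialLinearGroup (Fin n) K) ∈ GU n K q := by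
          rw [h5]; exact hg
        exact h6⟩, hgc⟩
    · rintro ⟨g, rfl⟩
      obtain ⟨h1, h2, h3⟩ := sl_charpoly_mem (g : Matrix.SpecialLinearGroup (Fin n) K)
      refine ⟨h1, h2, h3, fun i hi => ?_⟩
      have h5 := toGU_mem_ct hK g
      have h6 := charpoly_inv_coeff (mul_eq_one_comm.mp h5) (g : Matrix.SpecialLinearGroup (Fin n) K).2
        (i := i) (by rw [Fintype.card_fin]; exact hi)
      rw [charpoly_ct, coeff_map, Fintype.card_fin] at h6
      have h7 : ((((g : Matrix.SpecialLinearGroup (Fin n) K) : Matrix (Fin n) (Fin n) K)).charpoly.coeff i) ^ q =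
          (-1) ^ n * (((g : Matrix.SpecialLinearGroup (Fin n) K) : Matrix (Fin n) (Fin n) K)).charpoly.coeff (n - i) := h6
      rw [h7, ← mul_assoc, hε, one_mul]
  · have h1 : (((g ^ k : ↥(SU n K q)) : Matrix.SpecialLinearGroup (Fin n) K)) =
        (g : Matrix.SpecialLinearGroup (Fin n) K) ^ k := SubmonoidClass.coe_pow g k
    rw [h1, Matrix.SpecialLinearGroup.coe_pow]
  · exact charpoly_sl_conj (MonoidHom.map_isConj (SU n K q).subtype hc)

end H44.SSU
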