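import Mathlib
import Cfsg.Agent.Lib.H53.Zsig
import Cfsg.Agent.S0245

/-! The smallest faithful representation of `Sp_2n(q)` over `F_q`. -/

set_option autoImplicit false
set_option linter.unusedSectionVars false

namespace H44.SpMinDeg

open Matrix

theorem min_degree {F : Type*} [Field F] [Fintype F] (n : ℕ) {d : ℕ}
    (ρ : ↥(Matrix.symplecticGroup (Fin n) F) →* GL (Fin d) F) (hρ : Function.Injective ρ) : 2 * n ≤ d := by
  classical
  obtain ⟨q, hq⟩ : ∃ q, Fintype.card F = q := ⟨_, rfl⟩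
  have hq1 : 1 < q := hq ▸ Fintype.one_lt_card
  have hSp := Cfsg.Agent.S0245.result hq n
  have hGL : Nat.card (GL (Fin d) F) = ∏ i : Fin d, (q ^ d - q ^ (i : ℕ)) := by
    rw [Matrix.card_GL_field, hq]
  have hdvd : Nat.card (Matrix.symplecticGroup (Fin n) F) ∣ Nat.card (GL (Fin d) F) :=
    Subgroup.card_dvd_of_injective ρ hρ
  have hle : Nat.card (Matrix.symplecticGroup (Fin n) F) ≤ Nat.card (GL (Fin d) F) :=
    Nat.card_le_card_of_injective ρ hρ
  rw [hSp, hGL] at hdvd hle
  by_contra hlt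
  push Not at hlt
  rcases Nat.lt_trichotomy n 1 with hn | hn | hn
  · omega
  · -- `n = 1`
    subst hn
    have hd : d = 0 ∨ d = 1 := by omega
    have hb : 1 * 2 ≤ q * (q ^ 2 - 1) := by
      have : 4 ≤ q ^ 2 := by nlinarith
      calc 1 * 2 ≤ 2 * 3 := by norm_num
        _ ≤ q * (q ^ 2 - 1) := Nat.mul_le_mul hq1 (by omega)
    rcases hd with rfl | rfl
    · simp at hle
      omega
    · simp at hle
      have h2 : q - 1 < q * (q ^ 2 - 1) := by
        have : 4 ≤ q ^ 2 := by nlinarith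
        have h3 : q * 1 ≤ q * (q ^ 2 - 1) := Nat.mul_le_mul_left q (by omega)
        omega
      omega
  · by_cases h6 : q = 2 ∧ 2 * n = 6
    · obtain ⟨rfl, hn6⟩ := h6
      have hn3 : n = 3 := by omega
      subst hn3
      have hd : d < 6 := hlt
      interval_cases d <;> simp [Fin.prod_univ_succ, Finset.prod_range_succ] at hdvd hle <;> revert hdvd <;> norm_num
    · obtain ⟨r, hr, hrd, hrk⟩ := H53.Zsig.zsigmondy (a := q) (n := 2 * n) hq1 (by omega) h6 (by
        rintro ⟨h, _⟩; omega)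
      have hrSp : r ∣ q ^ (n ^ 2) * ∏ i ∈ Finset.range n, (q ^ (2 * (i + 1)) - 1) := by
        refine Dvd.dvd.mul_left (hrd.trans ?_) _
        have h1 : q ^ (2 * n) - 1 = q ^ (2 * ((n - 1) + 1)) - 1 := by
          rw [Nat.sub_add_cancel (by omega)]
        rw [h1]
        exact Finset.dvd_prod_of_mem _ (Finset.mem_range.mpr (by omega))
      have h2 := hrSp.trans hdvd
      obtain ⟨i, _, hi⟩ := (hr.prime.dvd_finsetProd_iff _).mp h2
      have h3 : q ^ d - q ^ (i : ℕ) = q ^ (i : ℕ) * (q ^ (d - i) - 1) := by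
        rw [Nat.mul_sub, mul_one, ← pow_add, Nat.add_sub_cancel' i.2.le]
      rw [h3] at hi
      have hrq : ¬ r ∣ q := by
        intro h
        have h4 : r ∣ q ^ (2 * n) := dvd_pow h (by omega)
        have h5 : 1 ≤ q ^ (2 * n) := Nat.one_le_pow _ _ (by omega)
        have h6 := (Nat.dvd_sub_iff_right h5 h4).mp hrd
        exact hr.one_lt.ne' (Nat.dvd_one.mp h6)
      rcases (hr.dvd_mul).mp hi with h4 | h4
      · exact hrq (hr.dvd_of_dvd_pow h4)
      · exact hrk (d - i) (by have := i.2; omega) (by omega) h4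

end H44.SpMinDeg
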