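import Mathlib
import Cfsg.Agent.Lib.H44.SylNum
import Cfsg.Agent.Lib.H46.ExtElt
import Cfsg.Agent.S0242

/-! Sylow subgroups of `GL_n(q)` and `SL_n(q)` for large primes. -/

set_option autoImplicit false
set_option linter.unusedSectionVars false
set_option linter.style.haveILetI false

namespace H44.Syl

open Matrix H53.Zsig

section blocks
variable {F : Type*} [Field F] {d a c n : ℕ}

/-- block diagonal embedding of matrices -/
def blk (e : (Fin d × Fin a) ⊕ Fin c ≃ Fin n) (x : Fin a → Matrix (Fin d) (Fin d) F) :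
    Matrix (Fin n) (Fin n) F :=
  Matrix.reindex e e (fromBlocks (blockDiagonal x) 0 0 1)

theorem blk_mul (e : (Fin d × Fin a) ⊕ Fin c ≃ Fin n) (x y : Fin a → Matrix (Fin d) (Fin d) F) :
    blk e (fun i => x i * y i) = blk e x * blk e y := by
  unfold blk
  rw [← Matrix.reindexAlgEquiv_apply F F, ← Matrix.reindexAlgEquiv_apply F F,
    ← Matrix.reindexAlgEquiv_apply F F, ← map_mul, fromBlocks_multiply, blockDiagonal_mul]
  simp only [Matrix.mul_zero, Matrix.zero_mul, add_zero, zero_add, Matrix.mul_one]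

theorem blk_one (e : (Fin d × Fin a) ⊕ Fin c ≃ Fin n) :
    blk e (fun _ => (1 : Matrix (Fin d) (Fin d) F)) = 1 := by
  unfold blk
  have : blockDiagonal (fun _ : Fin a => (1 : Matrix (Fin d) (Fin d) F)) = 1 := blockDiagonal_one
  rw [this, fromBlocks_one, ← Matrix.reindexAlgEquiv_apply F F, map_one]

theorem blk_injective (e : (Fin d × Fin a) ⊕ Fin c ≃ Fin n) :
    Function.Injective (blk (F := F) e) := by
  intro x y h
  unfold blk at h
  have h1 := (Matrix.reindex e e).injective h
  have h2 := (fromBlocks_inj.mp h1).1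
  exact blockDiagonal_injective h2

/-- block diagonal embedding of `GL_d(F)^a` in `GL_n(F)` -/
def blkGL (e : (Fin d × Fin a) ⊕ Fin c ≃ Fin n) :
    (Fin a → GL (Fin d) F) →* GL (Fin n) F where
  toFun x := ⟨blk e (fun i => (x i : Matrix (Fin d) (Fin d) F)),
    blk e (fun i => ((x i)⁻¹ : GL (Fin d) F)),
    by rw [← blk_mul, ← blk_one e]; congr 1; funext i; exact (x i).mul_inv,
    by rw [← blk_mul, ← blk_one e]; congr 1; funext i; exact (x i).inv_mul⟩
  map_one' := Units.ext (blk_one e)
  map_mul' x y := Units.ext (blk_mul e _ _)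

theorem blkGL_injective (e : (Fin d × Fin a) ⊕ Fin c ≃ Fin n) :
    Function.Injective (blkGL (F := F) e) := by
  intro x y h
  have h1 := blk_injective e (congrArg Units.val h)
  funext i
  exact Units.ext (congrFun h1 i)

end blocks

section elt
variable {F : Type*} [Field F] [Finite F]

/-- elements of order dividing `q^d - 1` in `GL_d(F)`, coming from the field with `q^d` elements -/
theorem exists_elt {d m : ℕ} (hd : 0 < d) (hm : m ∣ Nat.card F ^ d - 1) :
    ∃ x : GL (Fin d) F, orderOf x = m := by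
  obtain ⟨K, _, _, _, hfr, hcard⟩ := H46.ExtElt.exists_field_ext F d hd
  obtain ⟨u, hu⟩ := H46.ExtElt.exists_unit_orderOf K m (by rw [hcard]; exact hm)
  haveI : FiniteDimensional F K := Module.finite_of_finrank_pos (by rw [hfr]; exact hd)
  let b : Module.Basis (Fin d) F K := Module.finBasisOfFinrankEq F K hfr
  let f : Kˣ →* GL (Fin d) F := Units.map (Algebra.leftMulMatrix b : K →* Matrix (Fin d) (Fin d) F)
  have hf : Function.Injective f := by
    intro x y h
    have h1 := congrArg Units.val h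
    exact Units.ext (Algebra.leftMulMatrix_injective b h1)
  exact ⟨f u, by rw [orderOf_injective f hf, hu]⟩

end elt

section main
variable {F : Type*} [Field F] [Fintype F] {n : ℕ}

theorem val_card_GL {q r : ℕ} (hq : Fintype.card F = q) (hr : r.Prime) (hrn : n < r) (hrq : ¬ r ∣ q) :
    (Nat.card (GL (Fin n) F)).factorization r = vv q r * (n / orderOf (q : ZMod r)) := by
  haveI := Fact.mk hr
  have hq1 : 1 < q := hq ▸ Fintype.one_lt_card
  have h1 : Nat.card (GL (Fin n) F) = (∏ i : Fin n, q ^ (i : ℕ)) * ∏ i : Fin n, (q ^ (n - (i : ℕ)) - 1) := by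
    rw [Matrix.card_GL_field, hq, ← Finset.prod_mul_distrib]
    refine Finset.prod_congr rfl fun i _ => ?_
    rw [Nat.mul_sub, mul_one, ← pow_add, Nat.add_sub_cancel' i.2.le]
  have h2 : ∏ i : Fin n, q ^ (i : ℕ) ≠ 0 := Finset.prod_ne_zero_iff.mpr fun i _ => by positivity
  have h3 : ∏ i : Fin n, (q ^ (n - (i : ℕ)) - 1) ≠ 0 := Finset.prod_ne_zero_iff.mpr fun i _ => by
    have := Nat.one_lt_pow (n := n - (i : ℕ)) (by have := i.2; omega) hq1
    omega
  have h4 : padicValNat r (∏ i : Fin n, q ^ (i : ℕ)) = 0 := by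
    apply padicValNat.eq_zero_of_not_dvd
    intro h
    obtain ⟨i, _, hi⟩ := (hr.prime.dvd_finsetProd_iff _).mp h
    exact hrq (hr.dvd_of_dvd_pow hi)
  rw [Nat.factorization_def _ hr, h1, padicValNat.mul h2 h3, h4, zero_add,
    val_prod hq1 hr hrq (Finset.univ : Finset (Fin n)) (fun i => n - (i : ℕ))]
  · congr 1
    have h5 : (n / orderOf (q : ZMod r)) = ((Finset.Ioc 0 n).filter (fun x => orderOf (q : ZMod r) ∣ x)).card :=
      (Nat.Ioc_filter_dvd_card_eq_div n _).symm
    rw [h5]
    refine Finset.card_bij (fun i _ => n - (i : ℕ)) ?_ ?_ ?_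
    · intro i hi
      rw [Finset.mem_filter] at hi ⊢
      refine ⟨?_, hi.2⟩
      rw [Finset.mem_Ioc]
      have := i.2
      omega
    · intro i _ j _ h
      apply Fin.ext
      have := i.2
      have := j.2
      omega
    · intro k hk
      rw [Finset.mem_filter, Finset.mem_Ioc] at hk
      refine ⟨⟨n - k, by omega⟩, ?_, ?_⟩
      · rw [Finset.mem_filter]
        refine ⟨Finset.mem_univ _, ?_⟩
        simp only
        rw [Nat.sub_sub_self hk.1.2]
        exact hk.2
      · simp only
        omega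
  · intro i _ h
    have h6 := Nat.le_of_dvd (by have := i.2; omega) h
    omega

/-- **S2380**. -/
theorem gl_sylow {q : ℕ} (hq : Fintype.card F = q) (n r : ℕ) [Fact r.Prime] (hrn : n < r)
    (hrq : ¬ r ∣ q) (P : Sylow r (GL (Fin n) F)) :
    Nonempty (↥(P : Subgroup (GL (Fin n) F)) ≃*
      (Fin (n / orderOf (q : ZMod r)) → Multiplicative (ZMod (r ^ vv q r)))) := by
  have hr : r.Prime := Fact.out
  have hq1 : 1 < q := hq ▸ Fintype.one_lt_card
  set d := orderOf (q : ZMod r) with hd
  have hd0 : 0 < d := order_pos hr hrq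
  obtain ⟨x, hx⟩ := exists_elt (F := F) (d := d) (m := r ^ vv q r) hd0 (by
    rw [Nat.card_eq_fintype_card, hq, ← val_d hq1 hr hrq, ← hd]
    exact pow_padicValNat_dvd)
  have hda : d * (n / d) + (n - d * (n / d)) = n := by
    have := Nat.mul_div_le n d
    omega
  let e : (Fin d × Fin (n / d)) ⊕ Fin (n - d * (n / d)) ≃ Fin n :=
    (Equiv.sumCongr finProdFinEquiv (Equiv.refl _)).trans (finSumFinEquiv.trans (finCongr hda))
  let f : (Fin (n / d) → ↥(Subgroup.zpowers x)) →* GL (Fin n) F :=
    (blkGL e).comp (Pi.monoidHom fun i => (Subgroup.zpowers x).subtype.comp (Pi.evalMonoidHom _ i))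
  refine homocyclic r P x hx f ?_ (val_card_GL hq hr hrn hrq)
  intro y z h
  have h1 := blkGL_injective e h
  funext i
  exact Subtype.ext (congrFun h1 i)

end main

end H44.Syl
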