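import Mathlib
import Cfsg.Agent.Lib.H44.SylGL

/-! Sylow subgroups of `SL_n(q)` for large primes. -/

set_option autoImplicit false
set_option linter.unusedSectionVars false
set_option linter.style.haveILetI false

namespace H44.Syl

open Matrix H53.Zsig

variable {F : Type*} [Field F] [Fintype F]

theorem det_diagSL {k : ℕ} (y : Fin k → Fˣ) :
    (Matrix.diagonal (fun i => ((Fin.cons (∏ j, y j)⁻¹ y : Fin (k + 1) → Fˣ) i : F))).det = 1 := by
  rw [Matrix.det_diagonal, Fin.prod_univ_succ, Fin.cons_zero]
  simp only [Fin.cons_succ]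
  have h1 : ∏ i, ((y i : Fˣ) : F) = ((∏ i, y i : Fˣ) : F) := (map_prod (Units.coeHom F) _ _).symm
  rw [h1, ← Units.val_mul, inv_mul_cancel, Units.val_one]

/-- diagonal embedding -/
noncomputable def diagSL (k : ℕ) : (Fin k → Fˣ) →* Matrix.SpecialLinearGroup (Fin (k + 1)) F where
  toFun y := ⟨Matrix.diagonal (fun i => ((Fin.cons (∏ j, y j)⁻¹ y : Fin (k + 1) → Fˣ) i : F)),
    det_diagSL y⟩
  map_one' := by
    apply Subtype.ext
    change Matrix.diagonal _ = 1
    rw [← Matrix.diagonal_one]
    congr 1
    funext i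
    refine Fin.cases ?_ (fun j => ?_) i
    · simp
    · simp
  map_mul' y z := by
    apply Subtype.ext
    change Matrix.diagonal _ = Matrix.diagonal _ * Matrix.diagonal _
    rw [Matrix.diagonal_mul_diagonal]
    congr 1
    funext i
    refine Fin.cases ?_ (fun j => ?_) i
    · simp only [Fin.cons_zero, Pi.mul_apply]
      rw [← Units.val_mul, Finset.prod_mul_distrib, mul_inv]
    · simp only [Fin.cons_succ, Pi.mul_apply, Units.val_mul]

theorem diagSL_injective (k : ℕ) : Function.Injective (diagSL (F := F) k) := by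
  intro y z h
  have h1 := congrArg Subtype.val h
  have h2 : (fun i => ((Fin.cons (∏ j, y j)⁻¹ y : Fin (k + 1) → Fˣ) i : F)) =
      (fun i => ((Fin.cons (∏ j, z j)⁻¹ z : Fin (k + 1) → Fˣ) i : F)) := Matrix.diagonal_injective h1
  funext i
  have h3 := congrFun h2 (Fin.succ i)
  simp only [Fin.cons_succ] at h3
  exact Units.ext h3

theorem val_card_SL {q r n : ℕ} (hq : Fintype.card F = q) (hr : r.Prime) (hrn : n < r)
    (hrq : ¬ r ∣ q) : (Nat.card (Matrix.SpecialLinearGroup (Fin n) F)).factorization r =
      vv q r * ((Finset.Icc 2 n).filter (fun i => orderOf (q : ZMod r) ∣ i)).card := by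
  haveI := Fact.mk hr
  have hq1 : 1 < q := hq ▸ Fintype.one_lt_card
  rcases Nat.eq_zero_or_pos n with rfl | hn
  · haveI : Subsingleton (Matrix.SpecialLinearGroup (Fin 0) F) :=
      ⟨fun a b => Subtype.ext (Subsingleton.elim _ _)⟩
    rw [Nat.card_of_subsingleton (1 : Matrix.SpecialLinearGroup (Fin 0) F)]
    simp
  · have h1 := Cfsg.Agent.S0242.result hq n hn
    rw [← hq, ← Matrix.card_GL_field (𝔽 := F) n, hq] at h1
    have h2 : ((q - 1) * Nat.card (Matrix.SpecialLinearGroup (Fin n) F)).factorization r =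
        (Nat.card (GL (Fin n) F)).factorization r := by rw [h1]
    rw [val_card_GL hq hr hrn hrq, Nat.factorization_mul (by omega) Nat.card_pos.ne', Finsupp.add_apply,
      Nat.factorization_def _ hr] at h2
    have h3 := val_k (k := 1) hq1 hr hrq (by
      intro h; exact hr.one_lt.ne' (Nat.dvd_one.mp h))
    rw [pow_one] at h3
    rw [h3] at h2
    have h5 : (n / orderOf (q : ZMod r)) = ((Finset.Ioc 0 n).filter (fun x => orderOf (q : ZMod r) ∣ x)).card :=
      (Nat.Ioc_filter_dvd_card_eq_div n _).symm
    have h6 : Finset.Ioc 0 n = insert 1 (Finset.Icc 2 n) := by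
      ext x
      simp only [Finset.mem_Ioc, Finset.mem_insert, Finset.mem_Icc]
      omega
    rw [h5, h6, Finset.filter_insert] at h2
    split_ifs at h2 with h7
    · rw [Finset.card_insert_of_notMem (by simp), mul_add, mul_one] at h2
      omega
    · omega

/-- **S2379**. -/
theorem sl_sylow {q : ℕ} (hq : Fintype.card F = q) (n r : ℕ) [Fact r.Prime] (hrn : n < r)
    (hrq : ¬ r ∣ q) (P : Sylow r (Matrix.SpecialLinearGroup (Fin n) F)) :
    Nonempty (↥(P : Subgroup (Matrix.SpecialLinearGroup (Fin n) F)) ≃*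
      (Fin ((Finset.Icc 2 n).filter (fun i => orderOf (q : ZMod r) ∣ i)).card →
        Multiplicative (ZMod (r ^ vv q r)))) := by
  have hr : r.Prime := Fact.out
  have hq1 : 1 < q := hq ▸ Fintype.one_lt_card
  obtain ⟨d, hd⟩ : ∃ d, orderOf (q : ZMod r) = d := ⟨_, rfl⟩
  have hd0 : 0 < d := hd ▸ order_pos hr hrq
  have hval := val_card_SL (F := F) hq hr hrn hrq
  obtain ⟨a, ha⟩ : ∃ a, ((Finset.Icc 2 n).filter (fun i => orderOf (q : ZMod r) ∣ i)).card = a := ⟨_, rfl⟩
  rw [ha] at hval ⊢
  rw [hd] at ha
  by_cases hd1 : d = 1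
  · -- split torus
    subst hd1
    have ha1 : a = n - 1 := by
      rw [← ha, Finset.filter_true_of_mem (fun x _ => one_dvd x), Nat.card_Icc]
      omega
    subst ha1
    obtain ⟨x, hx⟩ := H46.ExtElt.exists_unit_orderOf F (r ^ vv q r) (by
      rw [Nat.card_eq_fintype_card, hq]
      have h1 := val_d hq1 hr hrq
      rw [hd, pow_one] at h1
      rw [← h1]
      exact pow_padicValNat_dvd)
    rcases Nat.eq_zero_or_pos n with rfl | hn
    · refine homocyclic r P x hx (a := 0 - 1) (1 : (Fin (0 - 1) → ↥(Subgroup.zpowers x)) →* _) ?_ hval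
      intro y z _
      exact funext fun i => i.elim0
    · obtain ⟨k, rfl⟩ : ∃ k, n = k + 1 := ⟨n - 1, by omega⟩
      let f : (Fin k → ↥(Subgroup.zpowers x)) →* Matrix.SpecialLinearGroup (Fin (k + 1)) F :=
        (diagSL k).comp (MonoidHom.pi fun i => (Subgroup.zpowers x).subtype.comp (Pi.evalMonoidHom _ i))
      refine homocyclic r P x hx f ?_ hval
      intro y z h
      have h1 := diagSL_injective k h
      funext i
      exact Subtype.ext (congrFun h1 i)
  · -- `d ≥ 2`
    have ha1 : a = n / d := by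
      rw [← ha, ← Nat.Ioc_filter_dvd_card_eq_div]
      congr 1
      ext x
      simp only [Finset.mem_filter, Finset.mem_Ioc, Finset.mem_Icc]
      constructor
      · rintro ⟨h1, h2⟩; exact ⟨by omega, h2⟩
      · rintro ⟨h1, h2⟩
        refine ⟨?_, h2⟩
        have := Nat.le_of_dvd h1.1 h2
        omega
    subst ha1
    obtain ⟨x, hx⟩ := exists_elt (F := F) (d := d) (m := r ^ vv q r) hd0 (by
      rw [Nat.card_eq_fintype_card, hq, ← val_d hq1 hr hrq, hd]
      exact pow_padicValNat_dvd)
    have hda : d * (n / d) + (n - d * (n / d)) = n := by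
      have := Nat.mul_div_le n d
      omega
    let e : (Fin d × Fin (n / d)) ⊕ Fin (n - d * (n / d)) ≃ Fin n :=
      (Equiv.sumCongr finProdFinEquiv (Equiv.refl _)).trans (finSumFinEquiv.trans (finCongr hda))
    let f : (Fin (n / d) → ↥(Subgroup.zpowers x)) →* GL (Fin n) F :=
      (blkGL e).comp (MonoidHom.pi fun i => (Subgroup.zpowers x).subtype.comp (Pi.evalMonoidHom _ i))
    have hf : Function.Injective f := by
      intro y z h
      have h1 := blkGL_injective e h
      funext i
      exact Subtype.ext (congrFun h1 i)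
    have hdet : ∀ y, Matrix.GeneralLinearGroup.det (f y) = 1 := by
      intro y
      have h1 : y ^ (r ^ vv q r) = 1 := by
        funext i
        apply Subtype.ext
        rw [Pi.pow_apply, Subgroup.coe_pow, Pi.one_apply, Subgroup.coe_one]
        obtain ⟨k, hk⟩ := Subgroup.mem_zpowers_iff.mp (y i).2
        rw [← hk, ← zpow_natCast (x ^ k), zpow_comm, zpow_natCast, ← hx, pow_orderOf_eq_one, _root_.one_zpow]
      have h2 : (Matrix.GeneralLinearGroup.det (f y)) ^ (r ^ vv q r) = 1 := by
        rw [← map_pow, ← map_pow, h1, map_one, map_one]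
      have h3 : (Matrix.GeneralLinearGroup.det (f y)) ^ (q - 1) = 1 := by
        rw [← hq, ← Nat.card_eq_fintype_card, ← Nat.card_units]
        exact pow_card_eq_one'
      have h4 : Nat.Coprime (r ^ vv q r) (q - 1) := by
        apply Nat.Coprime.pow_left
        rw [hr.coprime_iff_not_dvd]
        have h5 := dvd_iff (r := r) hq1 (k := 1)
        rw [pow_one, hd] at h5
        rw [h5]
        intro h
        exact hd1 (Nat.dvd_one.mp h)
      have h5 := Nat.dvd_gcd (orderOf_dvd_of_pow_eq_one h2) (orderOf_dvd_of_pow_eq_one h3)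
      rw [h4.gcd_eq_one, Nat.dvd_one] at h5
      exact orderOf_eq_one_iff.mp h5
    let f' : (Fin (n / d) → ↥(Subgroup.zpowers x)) →* Matrix.SpecialLinearGroup (Fin n) F :=
      { toFun := fun y => ⟨(f y : Matrix (Fin n) (Fin n) F), by
          rw [← Matrix.GeneralLinearGroup.val_det_apply, hdet, Units.val_one]⟩
        map_one' := by
          apply Subtype.ext
          change ((f 1 : GL (Fin n) F) : Matrix (Fin n) (Fin n) F) = 1
          rw [map_one]; rfl
        map_mul' := fun y z => by
          apply Subtype.ext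
          change ((f (y * z) : GL (Fin n) F) : Matrix (Fin n) (Fin n) F) = _
          rw [map_mul]; rfl }
    refine homocyclic r P x hx f' ?_ hval
    intro y z h
    exact hf (Units.ext (congrArg Subtype.val h))

end H44.Syl
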