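import Mathlib
import Cfsg.Agent.Lib.H44.SylGL
import Cfsg.Agent.Lib.H44.SS2
import Cfsg.Agent.Lib.H49.InvForm
import Cfsg.Agent.Lib.H49.EmbedSymp
import Cfsg.Agent.S0245

/-! Sylow subgroups of `Sp_2n(q)` for large primes. -/

set_option autoImplicit false
set_option linter.unusedSectionVars false
set_option linter.style.haveILetI false

namespace H44.Syl

open Matrix H53.Zsig Cfsg H16.Symp

section blocks
variable {F : Type*} [Field F] {e a c n : ℕ}

/-- rearranging the indices -/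
def eps (e a c : ℕ) : ((Fin e ⊕ Fin e) × Fin a) ⊕ (Fin c ⊕ Fin c) ≃
    ((Fin e × Fin a) ⊕ Fin c) ⊕ ((Fin e × Fin a) ⊕ Fin c) where
  toFun := Sum.elim (fun x => Sum.elim (fun i => Sum.inl (Sum.inl (i, x.2)))
      (fun i => Sum.inr (Sum.inl (i, x.2))) x.1)
    (Sum.elim (fun j => Sum.inl (Sum.inr j)) (fun j => Sum.inr (Sum.inr j)))
  invFun := Sum.elim (Sum.elim (fun x => Sum.inl (Sum.inl x.1, x.2)) (fun j => Sum.inr (Sum.inl j)))
    (Sum.elim (fun x => Sum.inl (Sum.inr x.1, x.2)) (fun j => Sum.inr (Sum.inr j)))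
  left_inv := by rintro (⟨i | i, k⟩ | (j | j)) <;> rfl
  right_inv := by rintro ((⟨i, k⟩ | j) | (⟨i, k⟩ | j)) <;> rfl

theorem reindex_J {l m : Type*} [Fintype l] [DecidableEq l] [Fintype m] [DecidableEq m] (φ : l ≃ m) :
    Matrix.reindex (Equiv.sumCongr φ φ) (Equiv.sumCongr φ φ) (Matrix.J l F) = Matrix.J m F := by
  ext i j
  rcases i with i | i <;> rcases j with j | j <;>
    simp [Matrix.J, Matrix.one_apply]

/-- the form of the block decomposition -/
def JJ (F : Type*) [Field F] (e a c : ℕ) : Matrix (((Fin e ⊕ Fin e) × Fin a) ⊕ (Fin c ⊕ Fin c))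
    (((Fin e ⊕ Fin e) × Fin a) ⊕ (Fin c ⊕ Fin c)) F :=
  fromBlocks (blockDiagonal (fun _ => Matrix.J (Fin e) F)) 0 0 (Matrix.J (Fin c) F)

theorem reindex_JJ : Matrix.reindex (eps e a c) (eps e a c) (JJ F e a c) =
    Matrix.J ((Fin e × Fin a) ⊕ Fin c) F := by
  ext i j
  rcases i with (⟨i, k⟩ | i) | (⟨i, k⟩ | i) <;> rcases j with (⟨j, l⟩ | j) | (⟨j, l⟩ | j) <;>
    simp [Matrix.J, JJ, eps, blockDiagonal_apply, Matrix.one_apply] <;> grind

theorem blk_form (x : Fin a → Matrix (Fin e ⊕ Fin e) (Fin e ⊕ Fin e) F)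
    (hx : ∀ i, x i * Matrix.J (Fin e) F * (x i)ᵀ = Matrix.J (Fin e) F) :
    fromBlocks (blockDiagonal x) 0 0 (1 : Matrix (Fin c ⊕ Fin c) (Fin c ⊕ Fin c) F) * JJ F e a c *
      (fromBlocks (blockDiagonal x) 0 0 (1 : Matrix (Fin c ⊕ Fin c) (Fin c ⊕ Fin c) F))ᵀ =
      JJ F e a c := by
  unfold JJ
  rw [fromBlocks_transpose, fromBlocks_multiply, fromBlocks_multiply, blockDiagonal_transpose]
  simp only [Matrix.mul_zero, Matrix.zero_mul, add_zero, zero_add, Matrix.one_mul,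
    Matrix.transpose_zero, Matrix.transpose_one, Matrix.mul_one]
  rw [← blockDiagonal_mul, ← blockDiagonal_mul]
  congr 2
  funext i
  exact hx i

/-- block embedding of `Sp_2e(F)^a` in `Sp_2n(F)` -/
def blkSp (φ : (Fin e × Fin a) ⊕ Fin c ≃ Fin n) :
    (Fin a → Matrix.symplecticGroup (Fin e) F) →* Matrix.symplecticGroup (Fin n) F where
  toFun x := ⟨Matrix.reindex ((eps e a c).trans (Equiv.sumCongr φ φ)) ((eps e a c).trans (Equiv.sumCongr φ φ))
      (fromBlocks (blockDiagonal fun i => (x i : Matrix (Fin e ⊕ Fin e) (Fin e ⊕ Fin e) F)) 0 0 1), by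
    rw [SymplecticGroup.mem_iff]
    have h1 : Matrix.reindex ((eps e a c).trans (Equiv.sumCongr φ φ))
        ((eps e a c).trans (Equiv.sumCongr φ φ)) (JJ F e a c) = Matrix.J (Fin n) F := by
      rw [← reindex_J φ, ← reindex_JJ (F := F) (e := e) (a := a) (c := c)]
      rfl
    have h2 := blk_form (c := c) (fun i => (x i : Matrix (Fin e ⊕ Fin e) (Fin e ⊕ Fin e) F))
      (fun i => SymplecticGroup.mem_iff.mp (x i).2)
    rw [← h1, Matrix.transpose_reindex, ← Matrix.reindexAlgEquiv_apply F F,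
      ← Matrix.reindexAlgEquiv_apply F F, ← Matrix.reindexAlgEquiv_apply F F, ← map_mul, ← map_mul, h2]⟩
  map_one' := by
    apply Subtype.ext
    change Matrix.reindex _ _ (fromBlocks (blockDiagonal fun _ : Fin a =>
      (1 : Matrix (Fin e ⊕ Fin e) (Fin e ⊕ Fin e) F)) 0 0 1) = 1
    have : blockDiagonal (fun _ : Fin a => (1 : Matrix (Fin e ⊕ Fin e) (Fin e ⊕ Fin e) F)) = 1 :=
      blockDiagonal_one
    rw [this, fromBlocks_one, ← Matrix.reindexAlgEquiv_apply F F, map_one]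
  map_mul' x y := by
    apply Subtype.ext
    change Matrix.reindex _ _ (fromBlocks (blockDiagonal fun i =>
      (x i : Matrix (Fin e ⊕ Fin e) (Fin e ⊕ Fin e) F) * (y i : Matrix (Fin e ⊕ Fin e) (Fin e ⊕ Fin e) F)) 0 0 1) =
      Matrix.reindex _ _ (fromBlocks (blockDiagonal fun i =>
        (x i : Matrix (Fin e ⊕ Fin e) (Fin e ⊕ Fin e) F)) 0 0 1) *
      Matrix.reindex _ _ (fromBlocks (blockDiagonal fun i =>
        (y i : Matrix (Fin e ⊕ Fin e) (Fin e ⊕ Fin e) F)) 0 0 1)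
    rw [← Matrix.reindexAlgEquiv_apply F F, ← Matrix.reindexAlgEquiv_apply F F,
      ← Matrix.reindexAlgEquiv_apply F F, ← map_mul, fromBlocks_multiply, blockDiagonal_mul]
    simp only [Matrix.mul_zero, Matrix.zero_mul, add_zero, zero_add, Matrix.mul_one]

theorem blkSp_injective (φ : (Fin e × Fin a) ⊕ Fin c ≃ Fin n) :
    Function.Injective (blkSp (F := F) φ) := by
  intro x y h
  have h1 := (Matrix.reindex _ _).injective (congrArg Subtype.val h)
  have h2 := blockDiagonal_injective (fromBlocks_inj.mp h1).1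
  funext i
  exact Subtype.ext (congrFun h2 i)

end blocks

end H44.Syl
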