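import Mathlib
import Cfsg.Agent.Lib.H44.SylSp

/-! Elements of symplectic groups in tori; Sylow subgroups of `Sp_2n(q)`. -/

set_option autoImplicit false
set_option linter.unusedSectionVars false
set_option linter.style.haveILetI false

namespace H44.Syl

open Matrix H53.Zsig Cfsg H16.Symp

section elts
variable {F : Type*} [Field F]

/-- `GL_d(F)` in `Sp_2d(F)` -/
noncomputable def levi (d : ℕ) : GL (Fin d) F →* Matrix.symplecticGroup (Fin d) F where
  toFun g := ⟨fromBlocks (g : Matrix (Fin d) (Fin d) F) 0 0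
      ((g⁻¹ : GL (Fin d) F) : Matrix (Fin d) (Fin d) F)ᵀ, by
    rw [SymplecticGroup.mem_iff, Matrix.J, fromBlocks_transpose, fromBlocks_multiply, fromBlocks_multiply]
    have h1 : (g : Matrix (Fin d) (Fin d) F) * ((g⁻¹ : GL (Fin d) F) : Matrix (Fin d) (Fin d) F) = 1 :=
      Units.mul_inv g
    have h2 : ((g⁻¹ : GL (Fin d) F) : Matrix (Fin d) (Fin d) F)ᵀ * (g : Matrix (Fin d) (Fin d) F)ᵀ = 1 := by
      rw [← Matrix.transpose_mul, h1, Matrix.transpose_one]
    simp only [Matrix.mul_zero, Matrix.zero_mul, add_zero, zero_add, Matrix.mul_one, Matrix.mul_neg,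
      Matrix.transpose_zero, Matrix.transpose_transpose, Matrix.neg_mul, h1, h2, neg_zero]⟩
  map_one' := by
    apply Subtype.ext
    change fromBlocks (1 : Matrix (Fin d) (Fin d) F) 0 0
      (((1 : GL (Fin d) F)⁻¹ : GL (Fin d) F) : Matrix (Fin d) (Fin d) F)ᵀ = 1
    rw [inv_one, Units.val_one, Matrix.transpose_one, fromBlocks_one]
  map_mul' g h := by
    apply Subtype.ext
    change fromBlocks ((g : Matrix (Fin d) (Fin d) F) * (h : Matrix (Fin d) (Fin d) F)) 0 0
      (((g * h : GL (Fin d) F)⁻¹ : GL (Fin d) F) : Matrix (Fin d) (Fin d) F)ᵀ =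
      fromBlocks (g : Matrix (Fin d) (Fin d) F) 0 0 ((g⁻¹ : GL (Fin d) F) : Matrix (Fin d) (Fin d) F)ᵀ *
      fromBlocks (h : Matrix (Fin d) (Fin d) F) 0 0 ((h⁻¹ : GL (Fin d) F) : Matrix (Fin d) (Fin d) F)ᵀ
    rw [fromBlocks_multiply, _root_.mul_inv_rev, Units.val_mul, Matrix.transpose_mul]
    simp only [Matrix.mul_zero, Matrix.zero_mul, add_zero, zero_add]

theorem levi_injective (d : ℕ) : Function.Injective (levi (F := F) d) := by
  intro g h hgh
  exact Units.ext (fromBlocks_inj.mp (congrArg Subtype.val hgh)).1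

/-- elements of order dividing `q^e + 1` in `Sp_2e(q)` -/
theorem exists_sp_elt [Finite F] {e m : ℕ} (he : 0 < e) (hm : m ∣ Nat.card F ^ e + 1) (hm1 : 1 < m)
    (hm2 : Odd m) : ∃ x : Matrix.symplecticGroup (Fin e) F, orderOf x = m := by
  haveI := Fintype.ofFinite F
  set q := Nat.card F with hq
  have hqf : Fintype.card F = q := Nat.card_eq_fintype_card.symm
  have hq1 : 1 < q := Finite.one_lt_card
  obtain ⟨K, _, _, _, hfr, hcard⟩ := H46.ExtElt.exists_field_ext F (2 * e) (by omega)
  obtain ⟨u, hu⟩ := H46.ExtElt.exists_unit_orderOf K m (by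
    rw [hcard]
    have h1 : q ^ (2 * e) - 1 = (q ^ e + 1) * (q ^ e - 1) := by
      have h2 : 1 ≤ q ^ e := Nat.one_le_pow _ _ (by omega)
      obtain ⟨k, hk⟩ : ∃ k, q ^ e = k + 1 := ⟨q ^ e - 1, by omega⟩
      rw [mul_comm 2 e, pow_mul, hk]
      have : (k + 1) ^ 2 = (k + 1 + 1) * k + 1 := by ring
      rw [this]
      simp
    rw [h1]
    exact hm.mul_right _)
  haveI : FiniteDimensional F K := Module.finite_of_finrank_pos (by rw [hfr]; omega)
  let b : Module.Basis (Fin (2 * e)) F K := Module.finBasisOfFinrankEq F K hfr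
  let L := Algebra.leftMulMatrix b
  have hLinj : Function.Injective L := Algebra.leftMulMatrix_injective b
  set A := L (u : K) with hA
  set Ai := L ((u⁻¹ : Kˣ) : K) with hAi
  have hAAi : A * Ai = 1 := by rw [hA, hAi, ← map_mul, Units.mul_inv, map_one]
  have hAk : ∀ k, A ^ k = 1 ↔ u ^ k = 1 := by
    intro k
    rw [hA, ← map_pow, ← map_one L]
    constructor
    · intro h
      apply Units.ext
      rw [Units.val_pow_eq_pow_val, Units.val_one]
      exact hLinj h
    · intro h
      rw [← Units.val_pow_eq_pow_val, h, Units.val_one]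
  have hum : u ^ m = 1 := by rw [← hu, pow_orderOf_eq_one]
  have hAm : A ^ m = 1 := (hAk m).mpr hum
  have hAim : Ai ^ m = 1 := by
    rw [hAi, ← map_pow, ← Units.val_pow_eq_pow_val, inv_pow, hum, inv_one, Units.val_one, map_one]
  have hmF : (m : F) ≠ 0 := by
    intro h0
    obtain ⟨k, hk⟩ := hm
    have h1 : ((q ^ e + 1 : ℕ) : F) = 0 := by rw [hk, Nat.cast_mul, h0, zero_mul]
    have h2 : ((q : ℕ) : F) = 0 := by rw [← hqf]; exact FiniteField.cast_card_eq_zero F
    rw [Nat.cast_add, Nat.cast_pow, h2, zero_pow (by omega), zero_add, Nat.cast_one] at h1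
    exact one_ne_zero h1
  have hchar : ∀ j, (A ^ (q ^ j)).charpoly = A.charpoly := by
    intro j
    induction j with
    | zero => rw [pow_zero, pow_one]
    | succ j ih =>
      rw [pow_succ, pow_mul]
      nth_rw 2 [← hqf]
      rw [FiniteField.Matrix.charpoly_pow_card, ih]
  have hAq : A ^ (q ^ e) = Ai := by
    have h1 : u ^ (q ^ e + 1) = 1 := by
      obtain ⟨k, hk⟩ := hm
      rw [hk, pow_mul, hum, one_pow]
    have h2 : u ^ (q ^ e) = u⁻¹ := by
      rw [pow_succ] at h1
      exact eq_inv_of_mul_eq_one_left h1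
    rw [hA, hAi, ← map_pow, ← Units.val_pow_eq_pow_val, h2]
  have hconj : IsConj A Ai := H44.SS.isConj_of_charpoly hmF hAm hAim (by
    rw [← hAq, hchar])
  have hne : ∀ k, 0 < k → k < 3 → (u : K) ^ k ≠ 1 := by
    intro k hk hk3 h
    have h1 : u ^ k = 1 := Units.ext (by rw [Units.val_pow_eq_pow_val]; exact h)
    have h2 := orderOf_dvd_of_pow_eq_one h1
    rw [hu] at h2
    have h3 := Nat.le_of_dvd hk h2
    obtain ⟨j, hj⟩ := hm2
    omega
  have h2u : IsUnit (A * A - 1) := by
    have h1 : A * A - 1 = L ((u : K) ^ 2 - 1) := by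
      rw [map_sub, map_one, map_pow, pow_two]
    rw [h1]
    exact ((sub_ne_zero.mpr (hne 2 (by norm_num) (by norm_num))).isUnit).map L
  have h1u : IsUnit (A - 1) := by
    have h1 : A - 1 = L ((u : K) - 1) := by
      rw [map_sub, map_one]
    rw [h1]
    have h3 := hne 1 (by norm_num) (by norm_num)
    rw [pow_one] at h3
    exact ((sub_ne_zero.mpr h3).isUnit).map L
  obtain ⟨J, hJu, hJalt, hJA⟩ := H49.InvForm.exists_alt A Ai hAAi hconj h2u h1u
  let β : LinearMap.BilinForm F (Fin (2 * e) → F) := Matrix.toBilin' J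
  have hβ : ∀ u v, β u v = u ⬝ᵥ (J *ᵥ v) := fun u v => Matrix.toBilin'_apply' J u v
  have hβalt : β.IsAlt := fun v => by rw [hβ]; exact hJalt v
  have hβnd : ∀ x, (∀ y, β x y = 0) → x = 0 := by
    intro x hx
    have h3 : x ᵥ* J = 0 := by
      apply dotProduct_eq_zero
      intro v
      rw [← Matrix.dotProduct_mulVec, ← hβ]
      exact hx v
    obtain ⟨j, hj⟩ := hJu
    have h4 : x = (x ᵥ* J) ᵥ* ((j⁻¹ : (Matrix (Fin (2 * e)) (Fin (2 * e)) F)ˣ) : Matrix _ _ F) := by
      rw [Matrix.vecMul_vecMul, ← hj, Units.mul_inv, Matrix.vecMul_one]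
    rw [h4, h3, Matrix.zero_vecMul]
  obtain ⟨c, hc⟩ := H49.EmbedSymp.symp_coords β hβalt hβnd (n := e) (by
    rw [Module.finrank_fintype_fun_eq_card, Fintype.card_fin])
  let T : (Fin e ⊕ Fin e → F) →ₗ[F] (Fin e ⊕ Fin e → F) :=
    c.toLinearMap ∘ₗ (Matrix.toLin' A) ∘ₗ c.symm.toLinearMap
  have hTm : ∀ v, LinearMap.toMatrix' T *ᵥ (c v) = c (A *ᵥ v) := by
    intro v
    rw [LinearMap.toMatrix'_mulVec]
    change c (A *ᵥ (c.symm (c v))) = _
    rw [c.symm_apply_apply]
  have hTp : ∀ k v, (LinearMap.toMatrix' T) ^ k *ᵥ (c v) = c ((A ^ k) *ᵥ v) := by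
    intro k
    induction k with
    | zero => intro v; simp
    | succ k ih =>
      intro v
      rw [pow_succ, ← Matrix.mulVec_mulVec, hTm, ih, Matrix.mulVec_mulVec, ← pow_succ]
  have hmem : LinearMap.toMatrix' T ∈ Matrix.symplecticGroup (Fin e) F := by
    rw [mem_symplecticGroup_iff]
    intro u v
    obtain ⟨u, rfl⟩ := c.surjective u
    obtain ⟨v, rfl⟩ := c.surjective v
    rw [hTm, hTm, hc, hc, hβ, hβ]
    have h3 : u ⬝ᵥ ((Aᵀ * J * A) *ᵥ v) = (A *ᵥ u) ⬝ᵥ (J *ᵥ (A *ᵥ v)) := by
      rw [← Matrix.mulVec_mulVec, ← Matrix.mulVec_mulVec, Matrix.dotProduct_mulVec,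
        Matrix.vecMul_transpose]
    rw [← h3, hJA]
  refine ⟨⟨_, hmem⟩, ?_⟩
  rw [← hu]
  apply orderOf_eq_orderOf_iff.mpr
  intro k
  rw [← hAk]
  constructor
  · intro h
    have h1 : (LinearMap.toMatrix' T) ^ k = 1 := by
      have := congrArg Subtype.val h
      rwa [SubmonoidClass.coe_pow] at this
    apply Matrix.mulVec_injective
    funext v
    have h2 := hTp k v
    rw [h1, Matrix.one_mulVec] at h2
    rw [← c.injective h2, Matrix.one_mulVec]
  · intro h
    apply Subtype.ext
    rw [SubmonoidClass.coe_pow]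
    apply Matrix.mulVec_injective
    funext v
    obtain ⟨v, rfl⟩ := c.surjective v
    have h2 := hTp k v
    rw [h, Matrix.one_mulVec] at h2
    exact h2.trans (Matrix.one_mulVec _).symm

end elts

section main
variable {F : Type*} [Field F] [Fintype F]

theorem val_card_Sp {q r n : ℕ} (hq : Fintype.card F = q) (hr : r.Prime) (hr2 : r ≠ 2) (hrn : n < r)
    (hrq : ¬ r ∣ q) : (Nat.card (Matrix.symplecticGroup (Fin n) F)).factorization r =
      vv q r * ((Finset.Icc 1 n).filter (fun i => orderOf (q : ZMod r) ∣ 2 * i)).card := by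
  haveI := Fact.mk hr
  have hq1 : 1 < q := hq ▸ Fintype.one_lt_card
  have hS : ∀ i ∈ Finset.range n, ¬ r ∣ 2 * (i + 1) := by
    intro i hi h
    rw [Finset.mem_range] at hi
    rcases (hr.dvd_mul).mp h with h1 | h1
    · exact hr2 ((Nat.prime_dvd_prime_iff_eq hr Nat.prime_two).mp h1)
    · have := Nat.le_of_dvd (by omega) h1
      omega
  rw [Cfsg.Agent.S0245.result hq n, Nat.factorization_def _ hr, padicValNat.mul (by positivity),
    padicValNat.eq_zero_of_not_dvd (fun h => hrq (hr.dvd_of_dvd_pow h)), zero_add,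
    val_prod hq1 hr hrq (Finset.range n) (fun i => 2 * (i + 1)) hS]
  · congr 1
    refine Finset.card_bij (fun i _ => i + 1) ?_ ?_ ?_
    · intro i hi
      rw [Finset.mem_filter, Finset.mem_range] at hi
      rw [Finset.mem_filter, Finset.mem_Icc]
      exact ⟨by omega, hi.2⟩
    · intro i _ j _ h; omega
    · intro k hk
      rw [Finset.mem_filter, Finset.mem_Icc] at hk
      refine ⟨k - 1, ?_, by omega⟩
      rw [Finset.mem_filter, Finset.mem_range]
      refine ⟨by omega, ?_⟩
      rw [Nat.sub_add_cancel hk.1.1]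
      exact hk.2
  · apply Finset.prod_ne_zero_iff.mpr
    intro i _
    have := Nat.one_lt_pow (n := 2 * (i + 1)) (by omega) hq1
    omega

/-- **S2381**. -/
theorem sp_sylow {q : ℕ} (hq : Fintype.card F = q) (n r : ℕ) [Fact r.Prime] (hr2 : r ≠ 2)
    (hrn : n < r) (hrq : ¬ r ∣ q) (P : Sylow r (Matrix.symplecticGroup (Fin n) F)) :
    Nonempty (↥(P : Subgroup (Matrix.symplecticGroup (Fin n) F)) ≃*
      (Fin ((Finset.Icc 1 n).filter (fun i => orderOf (q : ZMod r) ∣ 2 * i)).card →
        Multiplicative (ZMod (r ^ vv q r)))) := by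
  have hr : r.Prime := Fact.out
  have hq1 : 1 < q := hq ▸ Fintype.one_lt_card
  obtain ⟨d, hd⟩ : ∃ d, orderOf (q : ZMod r) = d := ⟨_, rfl⟩
  have hd0 : 0 < d := hd ▸ order_pos hr hrq
  have hval := val_card_Sp (F := F) hq hr hr2 hrn hrq
  obtain ⟨a, ha⟩ : ∃ a, ((Finset.Icc 1 n).filter (fun i => orderOf (q : ZMod r) ∣ 2 * i)).card = a := ⟨_, rfl⟩
  rw [ha] at hval ⊢
  rw [hd] at ha
  -- it is enough to find `e` with `a = n / e` and an element of the right order in `Sp_2e`
  obtain ⟨e, he0, hae, x, hx⟩ : ∃ e : ℕ, 0 < e ∧ a = n / e ∧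
      ∃ x : Matrix.symplecticGroup (Fin e) F, orderOf x = r ^ vv q r := by
    have hcount : ∀ e, 0 < e → (∀ i, d ∣ 2 * i ↔ e ∣ i) → a = n / e := by
      intro e he h
      rw [← ha, ← Nat.Ioc_filter_dvd_card_eq_div]
      congr 1
      ext x
      simp only [Finset.mem_filter, Finset.mem_Ioc, Finset.mem_Icc, h]
      omega
    have hvd : r ^ vv q r ∣ q ^ d - 1 := by
      have h1 := val_d hq1 hr hrq
      rw [hd] at h1
      rw [← h1]
      exact pow_padicValNat_dvd
    rcases Nat.even_or_odd d with hde | hdo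
    · obtain ⟨e, he⟩ := hde
      have he2 : d = 2 * e := by omega
      refine ⟨e, by omega, hcount e (by omega) (fun i => ?_), ?_⟩
      · rw [he2]
        exact Nat.mul_dvd_mul_iff_left (by norm_num)
      · have hqe : 1 ≤ q ^ e := Nat.one_le_pow _ _ (by omega)
        have hfac : q ^ d - 1 = (q ^ e - 1) * (q ^ e + 1) := by
          obtain ⟨k, hk⟩ : ∃ k, q ^ e = k + 1 := ⟨q ^ e - 1, by omega⟩
          rw [he2, mul_comm 2 e, pow_mul, hk]
          have : (k + 1) ^ 2 = k * (k + 1 + 1) + 1 := by ring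
          rw [this]
          simp
        have hnd : ¬ r ∣ q ^ e - 1 := by
          rw [dvd_iff hq1, hd]
          intro h
          have := Nat.le_of_dvd (by omega) h
          omega
        have hcop : Nat.Coprime (r ^ vv q r) (q ^ e - 1) :=
          Nat.Coprime.pow_left _ ((hr.coprime_iff_not_dvd).mpr hnd)
        rw [hfac] at hvd
        have hdv := hcop.dvd_of_dvd_mul_left hvd
        have hv1 : 0 < vv q r := by
          rw [← val_d hq1 hr hrq, hd]
          have hdd : r ∣ q ^ d - 1 := by rw [dvd_iff hq1, hd]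
          have hne : q ^ d - 1 ≠ 0 := by
            have := Nat.one_lt_pow hd0.ne' hq1
            omega
          exact (dvd_iff_padicValNat_ne_zero hne).mp hdd |>.bot_lt
        refine exists_sp_elt (F := F) (by omega) ?_ (Nat.one_lt_pow hv1.ne' hr.one_lt) ?_
        · rw [Nat.card_eq_fintype_card, hq]; exact hdv
        · exact (hr.odd_of_ne_two hr2).pow
    · refine ⟨d, hd0, hcount d hd0 (fun i => ?_), ?_⟩
      · exact (Nat.Coprime.dvd_mul_left (by
          rw [Nat.coprime_comm]
          exact (Nat.coprime_two_left).mpr hdo))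
      · obtain ⟨y, hy⟩ := exists_elt (F := F) (d := d) (m := r ^ vv q r) hd0 (by
          rw [Nat.card_eq_fintype_card, hq]; exact hvd)
        exact ⟨levi d y, by rw [orderOf_injective _ (levi_injective d), hy]⟩
  subst hae
  have hda : e * (n / e) + (n - e * (n / e)) = n := by
    have := Nat.mul_div_le n e
    omega
  let φ : (Fin e × Fin (n / e)) ⊕ Fin (n - e * (n / e)) ≃ Fin n :=
    (Equiv.sumCongr finProdFinEquiv (Equiv.refl _)).trans (finSumFinEquiv.trans (finCongr hda))
  let f : (Fin (n / e) → ↥(Subgroup.zpowers x)) →* Matrix.symplecticGroup (Fin n) F :=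
    (blkSp φ).comp (MonoidHom.pi fun i => (Subgroup.zpowers x).subtype.comp (Pi.evalMonoidHom _ i))
  refine homocyclic r P x hx f ?_ hval
  intro y z h
  have h1 := blkSp_injective φ h
  funext i
  exact Subtype.ext (congrFun h1 i)

end main

end H44.Syl
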