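import Mathlib
import Cfsg.Agent.Lib.H44.Unip

/-! Orders of unipotent elements of `GL_m(F)`. -/

set_option autoImplicit false
set_option linter.unusedSectionVars false

namespace H44.Unip

open Matrix Polynomial

theorem order_lt {F : Type*} [Field F] [Fintype F] (p : ℕ) [Fact p.Prime] [CharP F p] (m : ℕ)
    (hm : 1 ≤ m) (g : Matrix.GeneralLinearGroup (Fin m) F) {j : ℕ} (hj : orderOf g = p ^ j) :
    orderOf g < p * m := by
  have hp : p.Prime := Fact.out
  have h1 : (g : Matrix (Fin m) (Fin m) F) ^ p ^ j = 1 := by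
    rw [← Units.val_pow_eq_pow_val, ← hj, pow_orderOf_eq_one]; rfl
  have h2 : (g : Matrix (Fin m) (Fin m) F) ^ p ^ (Nat.clog p m) = 1 :=
    pow_eq_one p _ j h1 _ (by rw [Fintype.card_fin]; exact Nat.le_pow_clog hp.one_lt m)
  have h3 : g ^ p ^ (Nat.clog p m) = 1 := by
    apply Units.ext
    rw [Units.val_pow_eq_pow_val, h2]; rfl
  have h4 : orderOf g ≤ p ^ Nat.clog p m := orderOf_le_of_pow_eq_one (pow_pos hp.pos _) h3
  refine h4.trans_lt ?_
  rcases Nat.lt_or_ge 1 m with h5 | h5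
  · have h6 : p ^ (Nat.clog p m - 1) < m := Nat.pow_pred_clog_lt_self hp.one_lt h5
    have h7 : 0 < Nat.clog p m := Nat.clog_pos hp.one_lt h5
    calc p ^ Nat.clog p m = p * p ^ (Nat.clog p m - 1) := by
          rw [← pow_succ', Nat.sub_add_cancel h7]
      _ < p * m := Nat.mul_lt_mul_of_pos_left h6 hp.pos
  · have : m = 1 := by omega
    subst this
    rw [Nat.clog_one_right, pow_zero, mul_one]
    exact hp.one_lt

theorem exists_order {F : Type*} [Field F] [Fintype F] (p : ℕ) [Fact p.Prime] [CharP F p] (m : ℕ)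
    (hm : 1 ≤ m) : ∃ g : Matrix.GeneralLinearGroup (Fin m) F, (∃ j : ℕ, orderOf g = p ^ j) ∧
      m ≤ orderOf g := by
  have hp : p.Prime := Fact.out
  set f : F[X] := (X - C 1) ^ m with hf
  have hfm : f.Monic := (monic_X_sub_C 1).pow m
  have hdeg : f.natDegree = m := by
    rw [hf, natDegree_pow, natDegree_X_sub_C, mul_one]
  obtain ⟨pb, hdim, hgen⟩ : ∃ pb : PowerBasis F (AdjoinRoot f), pb.dim = m ∧
      pb.gen = AdjoinRoot.root f := ⟨AdjoinRoot.powerBasis' hfm, hdeg, rfl⟩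
  let R := Matrix.reindexAlgEquiv F F (finCongr hdim)
  let L := Algebra.leftMulMatrix pb.basis
  have hinj : Function.Injective (fun x => R (L x)) :=
    R.injective.comp (Algebra.leftMulMatrix_injective pb.basis)
  have hpow : ∀ i, AdjoinRoot.root f ^ p ^ i = 1 ↔ m ≤ p ^ i := by
    intro i
    have h1 : (X : F[X]) ^ p ^ i - 1 = (X - C 1) ^ p ^ i := by
      rw [sub_pow_char_pow, C_1, one_pow]
    rw [← AdjoinRoot.mk_X, ← map_pow, ← map_one (AdjoinRoot.mk f), AdjoinRoot.mk_eq_mk, h1, hf]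
    constructor
    · intro h
      have h2 := natDegree_le_of_dvd h ((monic_X_sub_C (1 : F)).pow _).ne_zero
      rwa [natDegree_pow, natDegree_pow, natDegree_X_sub_C, mul_one, mul_one] at h2
    · exact fun h => pow_dvd_pow _ h
  have hA : ∀ i, (R (L pb.gen)) ^ p ^ i = 1 ↔ m ≤ p ^ i := by
    intro i
    rw [← hpow, ← map_pow, ← map_pow, ← map_one R, ← map_one L, hgen]
    exact ⟨fun h => hinj h, fun h => by rw [h]⟩
  have hk := (hA (Nat.clog p m)).mpr (Nat.le_pow_clog hp.one_lt m)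
  have hpos : p ^ Nat.clog p m ≠ 0 := (pow_pos hp.pos _).ne'
  let g : Matrix.GeneralLinearGroup (Fin m) F := ⟨R (L pb.gen), R (L pb.gen) ^ (p ^ Nat.clog p m - 1),
    by rw [← pow_succ', Nat.sub_add_cancel (by omega), hk],
    by rw [← pow_succ, Nat.sub_add_cancel (by omega), hk]⟩
  have hg : ∀ i, g ^ p ^ i = 1 ↔ m ≤ p ^ i := by
    intro i
    rw [← hA]
    constructor
    · intro h
      have := congrArg Units.val h
      rwa [Units.val_pow_eq_pow_val] at this
    · intro h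
      apply Units.ext
      rw [Units.val_pow_eq_pow_val]
      exact h
  obtain ⟨j, _, hj⟩ := (Nat.dvd_prime_pow hp).mp (orderOf_dvd_of_pow_eq_one
    ((hg (Nat.clog p m)).mpr (Nat.le_pow_clog hp.one_lt m)))
  refine ⟨g, ⟨j, hj⟩, ?_⟩
  rw [hj, ← hg, ← hj, pow_orderOf_eq_one]

end H44.Unip
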